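/-
Unitary transvections for the standard Hermitian form `hermForm n F q`.
-/
import Mathlib
import Cfsg.Agent.Lib.Classical.Geo.Basic
import Cfsg.Agent.Lib.Classical.Herm.GU

set_option autoImplicit false

namespace Cfsg.Agent.Lib.Classical.Geo.HermTv

open scoped Matrix
open Module Cfsg Cfsg.Geo Cfsg.Agent.Lib.Classical.Geo.Basic
open Cfsg.Agent.Lib.Classical.Herm.Basic Cfsg.Agent.Lib.Classical.Herm.GU

variable {F : Type*} [Field F] [Fintype F] {n q : ℕ}

/-- The linear functional `x ↦ h(x, a)`. -/
noncomputable def hLin (q : ℕ) (a : Fin n → F) : Dual F (Fin n → F) where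
  toFun x := hermForm n F q x a
  map_add' x y := hermForm_add_left n x y a
  map_smul' c x := hermForm_smul_left n c x a

@[simp] theorem hLin_apply (a x : Fin n → F) : hLin q a x = hermForm n F q x a := rfl

/-- The unitary transvection `x ↦ x + c h(x, a) a`. -/
noncomputable def hT (q : ℕ) (c : F) (a : Fin n → F) (ha : hermForm n F q a a = 0) :
    Matrix.GeneralLinearGroup (Fin n) F :=
  tv (c • hLin q a) a (by simp [ha])

theorem hT_mulVec (c : F) (a : Fin n → F) (ha : hermForm n F q a a = 0) (x : Fin n → F) :
    ((hT q c a ha : Matrix.GeneralLinearGroup (Fin n) F) : Matrix (Fin n) (Fin n) F) *ᵥ x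
      = x + (c * hermForm n F q x a) • a := by
  rw [hT, tv_mulVec]
  simp

theorem hT_mem_specialLinear (c : F) (a : Fin n → F) (ha : hermForm n F q a a = 0) :
    hT q c a ha ∈ specialLinear (Fin n) F := tv_mem_specialLinear _ _ _

theorem hT_mem_GU (hF : Fintype.card F = q ^ 2) (c : F) (hc : c + c ^ q = 0) (a : Fin n → F)
    (ha : hermForm n F q a a = 0) : hT q c a ha ∈ GU n F q := by
  rw [mem_GU_iff]
  intro u v
  rw [hT_mulVec, hT_mulVec, hermForm_add_left, hermForm_add_right hF, hermForm_add_right hF,
    hermForm_smul_left, hermForm_smul_left, hermForm_smul_right, hermForm_smul_right, ha,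
    mul_pow, hermForm_pow_q hF]
  linear_combination (hermForm n F q u a * hermForm n F q a v) * hc

end Cfsg.Agent.Lib.Classical.Geo.HermTv
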