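/-
Projections and dimension bound for a direct-sum decomposition `D : Fin t → Submodule F (ι → F)`.
-/
import Mathlib
import Cfsg.Prelude.Def_GeometricClasses

set_option autoImplicit false
set_option linter.unusedSectionVars false

namespace Cfsg.Agent.Lib.Classical.Geo.Decomp

open Module

variable {ι : Type} [Fintype ι] {F : Type*} [Field F] {t : ℕ}

theorem isCompl_iSup_ne {D : Fin t → Submodule F (ι → F)} (hind : iSupIndep D) (htop : iSup D = ⊤)
    (i : Fin t) : IsCompl (D i) (⨆ (j : Fin t) (_ : j ≠ i), D j) := by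
  refine ⟨hind i, ?_⟩
  rw [codisjoint_iff, eq_top_iff, ← htop]
  apply iSup_le
  intro j
  by_cases hj : j = i
  · subst hj
    exact le_sup_left
  · exact le_sup_of_le_right (le_iSup₂_of_le j hj le_rfl)

/-- The projections of a direct-sum decomposition. -/
theorem exists_projections {D : Fin t → Submodule F (ι → F)} (hind : iSupIndep D)
    (htop : iSup D = ⊤) :
    ∃ π : Fin t → (ι → F) →ₗ[F] (ι → F), (∀ i x, π i x ∈ D i) ∧ (∀ i x, x ∈ D i → π i x = x) ∧
      (∀ i j x, i ≠ j → x ∈ D j → π i x = 0) ∧ (∀ x, ∑ i, π i x = x) := by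
  classical
  let π : Fin t → (ι → F) →ₗ[F] (ι → F) := fun i =>
    (D i).subtype ∘ₗ (D i).projectionOnto _ (isCompl_iSup_ne hind htop i)
  have h1 : ∀ i x, π i x ∈ D i := fun i x => Subtype.property _
  have h2 : ∀ i x, x ∈ D i → π i x = x := by
    intro i x hx
    simp [π, Submodule.projectionOnto_apply_of_mem_left _ hx]
  have h3 : ∀ i j x, i ≠ j → x ∈ D j → π i x = 0 := by
    intro i j x hij hx
    have hx' : x ∈ ⨆ (j : Fin t) (_ : j ≠ i), D j :=
      (le_iSup₂_of_le (f := fun (j : Fin t) (_ : j ≠ i) => D j) j hij.symm le_rfl) hx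
    simp [π, Submodule.projectionOnto_apply_of_mem_right _ hx']
  refine ⟨π, h1, h2, h3, ?_⟩
  intro x
  have hx : x ∈ iSup D := by rw [htop]; trivial
  induction hx using Submodule.iSup_induction' with
  | mem j y hy =>
    rw [Finset.sum_eq_single j]
    · exact h2 j y hy
    · intro i _ hij
      exact h3 i j y hij hy
    · simp
  | zero => simp
  | add y z _ _ hy hz =>
    simp only [map_add, Finset.sum_add_distrib, hy, hz]

/-- Dimension bound. -/
theorem card_le_mul {m : ℕ} {D : Fin t → Submodule F (ι → F)} (htop : iSup D = ⊤)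
    (hdim : ∀ i, finrank F (D i) = m) : Fintype.card ι ≤ t * m := by
  classical
  have key : ∀ s : Finset (Fin t), finrank F ↥(⨆ i ∈ s, D i) ≤ s.card * m := by
    intro s
    induction s using Finset.induction_on with
    | empty => simp
    | insert a s ha ih =>
      rw [Finset.iSup_insert, Finset.card_insert_of_notMem ha]
      refine (Submodule.finrank_add_le_finrank_add_finrank _ _).trans ?_
      rw [hdim a, add_mul, one_mul, add_comm]
      omega
  have := key Finset.univ
  have h2 : (⨆ i ∈ (Finset.univ : Finset (Fin t)), D i) = iSup D := by simp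
  rw [h2, htop, finrank_top, Finset.card_univ, Fintype.card_fin] at this
  simpa using this

end Cfsg.Agent.Lib.Classical.Geo.Decomp
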