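/-
The similarity group of a non-degenerate symplectic form is maximal in the special linear group.

Proof: an overgroup `M` of the similarity group contains (for `g ∈ M` not a similarity) a conjugate
`g t g⁻¹` of a symplectic transvection which is a non-symplectic transvection `x ↦ x + B(x, w) u`.
The symplectic group is transitive on such pairs `(u, w)`, so `M` contains all transvections, which
generate the special linear group.
-/
import Mathlib
import Cfsg.Agent.Lib.Classical.Geo.Basic
import Cfsg.Agent.Lib.Classical.Lin.Transvections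
import Cfsg.Agent.Lib.Classical.Symp.AltForm

set_option autoImplicit false
set_option linter.unusedSectionVars false

namespace Cfsg.Agent.Lib.Classical.Geo.SympSim

open scoped MatrixGroups Matrix
open Module Cfsg.Geo Cfsg.Agent.Lib.Classical.Geo.Basic

namespace AF
export Cfsg.Agent.Lib.Classical.Symp.AltForm (tv tv_apply tv_moves tv_mem_tvGroup tvGroup
  tvGroup_transitive_vec tvGroup_le_isomGroup tv_apply_of_orth alt_swap IsomGroup)
end AF

variable {ι : Type} [Fintype ι] [DecidableEq ι] {F : Type*} [Field F]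

theorem gl_ext {g h : GL ι F}
    (H : ∀ x, (g : Matrix ι ι F) *ᵥ x = (h : Matrix ι ι F) *ᵥ x) : g = h :=
  Units.ext (Matrix.toLin'.injective (LinearMap.ext H))

/-- Conjugating a transvection. -/
theorem conj_tv (g : GL ι F) (f : Dual F (ι → F)) (v : ι → F) (h : f v = 0) (f' : Dual F (ι → F))
    (hf' : ∀ x, f' x = f (((g⁻¹ : GL ι F) : Matrix ι ι F) *ᵥ x))
    (h' : f' ((g : Matrix ι ι F) *ᵥ v) = 0) :
    g * tv f v h * g⁻¹ = tv f' ((g : Matrix ι ι F) *ᵥ v) h' := by
  apply gl_ext
  intro x
  rw [Units.val_mul, Units.val_mul, ← Matrix.mulVec_mulVec, ← Matrix.mulVec_mulVec, tv_mulVec,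
    tv_mulVec, Matrix.mulVec_add, Matrix.mulVec_smul, mulVec_inv_mulVec, hf']

/-- The bilinear form of a function satisfying `IsBilinearForm`. -/
def toBilin (f : (ι → F) → (ι → F) → F) (hf : IsBilinearForm f) : LinearMap.BilinForm F (ι → F) :=
  LinearMap.mk₂ F f hf.add_left (fun c x v => by simpa using hf.smul_left c x v) hf.add_right
    (fun c v x => by simpa using hf.smul_right c v x)

@[simp] theorem toBilin_apply (f : (ι → F) → (ι → F) → F) (hf : IsBilinearForm f) (x y : ι → F) :
    toBilin f hf x y = f x y := rfl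

section Form

variable {B : LinearMap.BilinForm F (ι → F)}

/-- The transvection `x ↦ x + B(x, w) u` for `B(u, w) = 0`. -/
noncomputable def tT (B : LinearMap.BilinForm F (ι → F)) (u w : ι → F) (h : B u w = 0) : GL ι F :=
  tv (B.flip w) u (by simpa using h)

@[simp] theorem tT_mulVec (u w : ι → F) (h : B u w = 0) (x : ι → F) :
    ((tT B u w h : GL ι F) : Matrix ι ι F) *ᵥ x = x + B x w • u := by
  simp [tT]

theorem tT_mem_specialLinear (u w : ι → F) (h : B u w = 0) :
    tT B u w h ∈ specialLinear ι F := tv_mem_specialLinear _ _ _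

variable (hA : B.IsAlt) (hN : ∀ x : ι → F, x ≠ 0 → ∃ y, B x y ≠ 0)

include hA hN

theorem exists_eq_one {u : ι → F} (hu : u ≠ 0) : ∃ y, B u y = 1 := by
  obtain ⟨y, hy⟩ := hN u hu
  exact ⟨(B u y)⁻¹ • y, by simp [hy]⟩

theorem exists_orth_ne {u x : ι → F} (hu : u ≠ 0) (hx : x ∉ Submodule.span F {u}) :
    ∃ a, B u a = 0 ∧ B x a ≠ 0 := by
  by_contra hcon
  push Not at hcon
  obtain ⟨y₀, hy₀⟩ := exists_eq_one hA hN hu
  apply hx
  have hzero : x - B x y₀ • u = 0 := by
    by_contra hne
    obtain ⟨a, ha⟩ := hN _ hne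
    apply ha
    have h1 : B u (a - B u a • y₀) = 0 := by simp [hy₀]
    have h2 := hcon _ h1
    simp only [map_sub, map_smul, smul_eq_mul, LinearMap.sub_apply, LinearMap.smul_apply] at h2 ⊢
    linear_combination h2
  rw [sub_eq_zero] at hzero
  rw [hzero]
  exact Submodule.smul_mem _ _ (Submodule.mem_span_singleton_self u)

theorem exists_orth_ne_ne {u x x' : ι → F} (hu : u ≠ 0) (hx : x ∉ Submodule.span F {u})
    (hx' : x' ∉ Submodule.span F {u}) : ∃ a, B u a = 0 ∧ B x a ≠ 0 ∧ B x' a ≠ 0 := by
  obtain ⟨a, ha, hxa⟩ := exists_orth_ne hA hN hu hx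
  obtain ⟨b, hb, hxb⟩ := exists_orth_ne hA hN hu hx'
  by_cases h1 : B x' a = 0
  · by_cases h2 : B x b = 0
    · refine ⟨a + b, by simp [ha, hb], ?_, ?_⟩
      · simpa [h2] using hxa
      · simpa [h1] using hxb
    · exact ⟨b, hb, h2, hxb⟩
  · exact ⟨a, ha, hxa, h1⟩

omit hN in
theorem det_of_mem_tvGroup {W : Set (ι → F)} {g : (ι → F) ≃ₗ[F] (ι → F)}
    (hg : g ∈ AF.tvGroup hA W) : LinearEquiv.det g = 1 := by
  unfold AF.tvGroup at hg
  induction hg using Subgroup.closure_induction with
  | mem g hg =>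
    obtain ⟨w, -, c, rfl⟩ := hg
    have hv : (c • B.flip w) w = 0 := by simp [hA w]
    have : AF.tv hA w c = LinearEquiv.transvection hv := by
      ext x i
      rw [AF.tv_apply, LinearEquiv.transvection.apply]
      simp
    rw [this]
    exact LinearEquiv.transvection.det_eq_one hv
  | one => exact map_one _
  | mul a b _ _ ha hb => rw [map_mul, ha, hb, one_mul]
  | inv a _ ha => rw [map_inv, ha, inv_one]

/-- The symplectic group is transitive on pairs `(u, w)` with `u ≠ 0`, `w ∉ ⟨u⟩`, `B(u, w) = 0`. -/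
theorem exists_tvGroup_pair {u w u' w' : ι → F} (hu : u ≠ 0) (hw : w ∉ Submodule.span F {u})
    (huw : B u w = 0) (hu' : u' ≠ 0) (hw' : w' ∉ Submodule.span F {u'}) (huw' : B u' w' = 0) :
    ∃ g ∈ AF.tvGroup hA Set.univ, g u = u' ∧ g w = w' := by
  obtain ⟨g₁, hg₁, h1⟩ := AF.tvGroup_transitive_vec hA (W := ⊤)
    (fun x _ hx => (hN x hx).imp fun y hy => ⟨trivial, hy⟩) trivial trivial hu hu'
  have hg₁' : g₁ ∈ AF.tvGroup hA (Set.univ : Set (ι → F)) := by
    simpa using hg₁
  set w₁ := g₁ w with hw₁
  have hiso := AF.tvGroup_le_isomGroup hA _ hg₁'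
  have hu'w₁ : B u' w₁ = 0 := by
    rw [← h1, hw₁, hiso u w, huw]
  have hw₁' : w₁ ∉ Submodule.span F {u'} := by
    intro hmem
    obtain ⟨c, hc⟩ := Submodule.mem_span_singleton.1 hmem
    apply hw
    have : w = c • u := by
      apply g₁.injective
      rw [map_smul, h1, hc]
    rw [this]
    exact Submodule.smul_mem _ _ (Submodule.mem_span_singleton_self u)
  -- one step move, fixing `u'`
  have hstep : ∀ x y : ι → F, B u' x = 0 → B u' y = 0 → B x y ≠ 0 →
      ∃ g ∈ AF.tvGroup hA (Set.univ : Set (ι → F)), g u' = u' ∧ g x = y := by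
    intro x y hx hy hxy
    refine ⟨AF.tv hA (y - x) (B x y)⁻¹, AF.tv_mem_tvGroup hA (Set.mem_univ _) _, ?_, AF.tv_moves hA hxy⟩
    apply AF.tv_apply_of_orth
    simp [hx, hy]
  by_cases hc : B w₁ w' = 0
  · obtain ⟨z, hz, hz1, hz2⟩ := exists_orth_ne_ne hA hN hu' hw₁' hw'
    have hz2' : B z w' ≠ 0 := by
      rw [AF.alt_swap hA]
      exact neg_ne_zero.2 hz2
    obtain ⟨g₂, hg₂, a1, a2⟩ := hstep w₁ z hu'w₁ hz hz1
    obtain ⟨g₃, hg₃, b1, b2⟩ := hstep z w' hz huw' hz2'
    refine ⟨g₃ * g₂ * g₁, mul_mem (mul_mem hg₃ hg₂) hg₁', ?_, ?_⟩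
    · simp only [LinearEquiv.mul_apply]
      rw [h1, a1, b1]
    · simp only [LinearEquiv.mul_apply]
      rw [← hw₁, a2, b2]
  · obtain ⟨g₂, hg₂, a1, a2⟩ := hstep w₁ w' hu'w₁ huw' hc
    refine ⟨g₂ * g₁, mul_mem hg₂ hg₁', ?_, ?_⟩
    · simp only [LinearEquiv.mul_apply]
      rw [h1, a1]
    · simp only [LinearEquiv.mul_apply]
      rw [← hw₁, a2]

omit hN in
/-- `x ↦ x + c B(x, u) u` is an isometry. -/
theorem tT_smul_isometry (u : ι → F) (c : F) (h : B u (c • u) = 0) (x y : ι → F) :
    B (((tT B u (c • u) h : GL ι F) : Matrix ι ι F) *ᵥ x)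
      (((tT B u (c • u) h : GL ι F) : Matrix ι ι F) *ᵥ y) = B x y := by
  have e : B u y = - B y u := AF.alt_swap hA u y
  simp only [tT_mulVec, map_add, map_smul, LinearMap.add_apply, LinearMap.smul_apply, smul_eq_mul,
    hA u, e]
  ring

omit hN in
/-- Conjugation of `tT` by an isometry. -/
theorem conj_tT_isometry (s : GL ι F)
    (hs : ∀ x y, B ((s : Matrix ι ι F) *ᵥ x) ((s : Matrix ι ι F) *ᵥ y) = B x y)
    (u w : ι → F) (h : B u w = 0) (h' : B ((s : Matrix ι ι F) *ᵥ u) ((s : Matrix ι ι F) *ᵥ w) = 0) :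
    s * tT B u w h * s⁻¹ = tT B _ _ h' := by
  apply conj_tv
  intro x
  have := hs (((s⁻¹ : GL ι F) : Matrix ι ι F) *ᵥ x) w
  rw [mulVec_inv_mulVec] at this
  simpa using this

theorem exists_flip_eq (φ : Dual F (ι → F)) : ∃ w, B.flip w = φ := by
  have hinj : Function.Injective (B.flip : (ι → F) →ₗ[F] Dual F (ι → F)) := by
    rw [← LinearMap.ker_eq_bot, LinearMap.ker_eq_bot']
    intro w hw
    by_contra hne
    obtain ⟨y, hy⟩ := hN w hne
    apply hy
    have : B y w = 0 := by
      have := LinearMap.congr_fun hw y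
      simpa using this
    rw [AF.alt_swap hA, this, neg_zero]
  have hdim : finrank F (ι → F) = finrank F (Dual F (ι → F)) := (Subspace.dual_finrank_eq).symm
  exact (LinearMap.injective_iff_surjective_of_finrank_eq_finrank hdim).1 hinj φ

/-- Existence of a pair `(u, w)` with `B(u, w) = 0`, `u ≠ 0`, `w ∉ ⟨u⟩`. -/
theorem exists_pair (hcard : 3 ≤ Fintype.card ι) :
    ∃ u w : ι → F, u ≠ 0 ∧ w ∉ Submodule.span F {u} ∧ B u w = 0 := by
  haveI : Nonempty ι := Fintype.card_pos_iff.1 (by omega)
  let i : ι := Classical.arbitrary ι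
  let u : ι → F := Pi.single i 1
  have hu : u ≠ 0 := by
    intro h
    have := congrFun h i
    simp [u] at this
  refine ⟨u, ?_⟩
  by_contra hcon
  push Not at hcon
  have hle : LinearMap.ker (B u) ≤ Submodule.span F {u} := by
    intro w hw
    by_contra hwn
    exact hcon w hu hwn (by simpa using hw)
  have h1 := LinearMap.finrank_range_add_finrank_ker (B u)
  have h2 : finrank F (LinearMap.range (B u)) ≤ 1 := by
    calc _ ≤ finrank F F := Submodule.finrank_le _
      _ = 1 := finrank_self F
  have h3 := Submodule.finrank_mono hle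
  have h4 : finrank F (Submodule.span F {u}) = 1 := finrank_span_singleton hu
  have h5 : finrank F (ι → F) = Fintype.card ι := by simp
  omega

/-- `tT` for a non-symplectic pair is not a similarity. -/
theorem tT_not_similarity {u w : ι → F} (hu : u ≠ 0) (hw : w ∉ Submodule.span F {u})
    (huw : B u w = 0) (c : Fˣ)
    (hc : ∀ x y, B (((tT B u w huw : GL ι F) : Matrix ι ι F) *ᵥ x)
      (((tT B u w huw : GL ι F) : Matrix ι ι F) *ᵥ y) = (c : F) * B x y) : False := by
  have hw0 : w ≠ 0 := by
    rintro rfl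
    exact hw (Submodule.zero_mem _)
  have huspan : u ∉ Submodule.span F {w} := by
    intro h
    obtain ⟨t, ht⟩ := Submodule.mem_span_singleton.1 h
    have ht0 : t ≠ 0 := by
      rintro rfl
      exact hu (by simpa using ht.symm)
    apply hw
    have : w = t⁻¹ • u := by
      rw [← ht, smul_smul, inv_mul_cancel₀ ht0, one_smul]
    rw [this]
    exact Submodule.smul_mem _ _ (Submodule.mem_span_singleton_self u)
  obtain ⟨a, ha, hua⟩ := exists_orth_ne hA hN hw0 huspan
  have haw : B a w = 0 := by rw [AF.alt_swap hA, ha, neg_zero]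
  have h1 := hc u a
  simp only [tT_mulVec, huw, haw, zero_smul, add_zero] at h1
  have hc1 : (c : F) = 1 := by
    have : ((c : F) - 1) * B u a = 0 := by linear_combination -h1
    rcases mul_eq_zero.1 this with h | h
    · exact sub_eq_zero.1 h
    · exact absurd h hua
  apply hw0
  by_contra hne
  obtain ⟨y, hy⟩ := hN w hne
  have h2 := hc y a
  simp only [tT_mulVec, haw, zero_smul, add_zero, map_add, map_smul, LinearMap.add_apply,
    LinearMap.smul_apply, smul_eq_mul, hc1, one_mul] at h2
  have h3 : B y w * B u a = 0 := by linear_combination h2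
  rcases mul_eq_zero.1 h3 with h | h
  · apply hy
    rw [AF.alt_swap hA, h, neg_zero]
  · exact hua h

end Form

/-- Every element of `SL` lies in a subgroup containing all transvections. -/
theorem specialLinear_le_of_tv [Nontrivial ι] (M : Subgroup (GL ι F))
    (hM : ∀ (φ : Dual F (ι → F)) (v : ι → F) (h : φ v = 0), tv φ v h ∈ M) :
    specialLinear ι F ≤ M := by
  intro x hx
  have hx' := (mem_specialLinear_iff x).1 hx
  let A : Matrix.SpecialLinearGroup ι F := ⟨x, hx'⟩
  have hA : ((A : Matrix.SpecialLinearGroup ι F) : GL ι F) = x := by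
    apply Units.ext
    rfl
  rw [← hA]
  refine Cfsg.Agent.Lib.Classical.Lin.Transvections.transvection_induction
    (fun A => ((A : Matrix.SpecialLinearGroup ι F) : GL ι F) ∈ M) ?_ ?_ A
  · intro i j hij a
    have h0 : (LinearMap.proj j : Dual F (ι → F)) (Pi.single i a) = 0 := by
      simp [hij.symm]
    have : ((Matrix.SpecialLinearGroup.transvection hij a : Matrix.SpecialLinearGroup ι F) : GL ι F)
        = tv (LinearMap.proj j) (Pi.single i a) h0 := by
      apply gl_ext
      intro y
      rw [tv_mulVec]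
      change (Matrix.SpecialLinearGroup.transvection hij a : Matrix ι ι F) *ᵥ y = _
      rw [Matrix.SpecialLinearGroup.transvection_coe, Matrix.add_mulVec, Matrix.one_mulVec,
        Matrix.single_mulVec]
      ext k
      by_cases hk : k = i
      · subst hk
        simp [mul_comm]
      · simp [hk]
    rw [this]
    exact hM _ _ _
  · intro A B hA hB
    have : ((A * B : Matrix.SpecialLinearGroup ι F) : GL ι F) = (A : GL ι F) * (B : GL ι F) :=
      map_mul _ A B
    rw [this]
    exact mul_mem hA hB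

/-- The similarity group of a non-degenerate symplectic form is maximal in `SL`. -/
theorem isMaximalIn_similarityGroup (f : (ι → F) → (ι → F) → F) (hf : IsSymplecticForm f)
    (hcard : 3 ≤ Fintype.card ι) :
    IsMaximalIn (specialLinear ι F) (similarityGroup f ⊓ specialLinear ι F) := by
  classical
  haveI : Nontrivial ι := Fintype.one_lt_card_iff_nontrivial.1 (by omega)
  let B := toBilin f hf.bilinear
  have hBf : ∀ x y, B x y = f x y := fun _ _ => rfl
  have hA : B.IsAlt := hf.alternating
  have hN : ∀ x : ι → F, x ≠ 0 → ∃ y, B x y ≠ 0 := fun x hx => (hf.nondegenerate x hx).2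
  -- symplectic transvections lie in the subgroup
  have hsymp : ∀ (u : ι → F) (c : F) (h : B u (c • u) = 0),
      tT B u (c • u) h ∈ similarityGroup f ⊓ specialLinear ι F := by
    intro u c h
    refine ⟨⟨1, fun x y => ?_⟩, tT_mem_specialLinear _ _ _⟩
    have := tT_smul_isometry hA u c h x y
    rw [Units.val_one, one_mul]
    exact this
  -- elements of the transvection group lie in the subgroup
  have hsp : ∀ g ∈ AF.tvGroup hA (Set.univ : Set (ι → F)),
      glOfEquiv g ∈ similarityGroup f ⊓ specialLinear ι F := by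
    intro g hg
    refine ⟨⟨1, fun x y => ?_⟩, ?_⟩
    · rw [glOfEquiv_mulVec, glOfEquiv_mulVec]
      have := AF.tvGroup_le_isomGroup hA _ hg x y
      rw [Units.val_one, one_mul]
      exact this
    · refine (mem_specialLinear_iff _).2 ?_
      rw [det_glOfEquiv, det_of_mem_tvGroup hA hg]
      simp
  constructor
  · obtain ⟨u, w, hu, hw, huw⟩ := exists_pair hA hN hcard
    refine lt_of_le_of_mem_not_mem (x := tT B u w huw) inf_le_right
      (tT_mem_specialLinear _ _ _) ?_
    rintro ⟨⟨c, hc⟩, -⟩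
    exact tT_not_similarity hA hN hu hw huw c (fun x y => hc x y)
  · intro M hPM hMS
    by_cases hMP : M ≤ similarityGroup f ⊓ specialLinear ι F
    · exact Or.inl (le_antisymm hMP hPM)
    right
    apply le_antisymm hMS
    obtain ⟨g, hgM, hgP⟩ := SetLike.not_le_iff_exists.1 hMP
    have hgS : g ∉ similarityGroup f := fun h => hgP ⟨h, hMS hgM⟩
    -- the adjoint construction
    have hbij : Function.Bijective (B.flip : (ι → F) →ₗ[F] Dual F (ι → F)) := by
      have hsurj : Function.Surjective (B.flip : (ι → F) →ₗ[F] Dual F (ι → F)) :=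
        fun φ => exists_flip_eq hA hN φ
      have hdim : finrank F (ι → F) = finrank F (Dual F (ι → F)) :=
        (Subspace.dual_finrank_eq).symm
      exact ⟨(LinearMap.injective_iff_surjective_of_finrank_eq_finrank hdim).2 hsurj, hsurj⟩
    let e : (ι → F) ≃ₗ[F] Dual F (ι → F) := LinearEquiv.ofBijective _ hbij
    let ginvL : (ι → F) →ₗ[F] (ι → F) := Matrix.toLin' (((g⁻¹ : GL ι F) : Matrix ι ι F))
    let A : (ι → F) →ₗ[F] (ι → F) := e.symm.toLinearMap ∘ₗ (ginvL.dualMap ∘ₗ B.flip)
    have hAspec : ∀ x v, B x (A v) = B (((g⁻¹ : GL ι F) : Matrix ι ι F) *ᵥ x) v := by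
      intro x v
      have h1 : e (A v) = ginvL.dualMap (B.flip v) := by
        simp [A]
      have h2 := LinearMap.congr_fun h1 x
      simpa [e, ginvL] using h2
    let E : (ι → F) →ₗ[F] (ι → F) := ginvL ∘ₗ A
    have hE : ∀ v, (g : Matrix ι ι F) *ᵥ E v = A v := by
      intro v
      change (g : Matrix ι ι F) *ᵥ (((g⁻¹ : GL ι F) : Matrix ι ι F) *ᵥ A v) = A v
      rw [mulVec_inv_mulVec]
    have hex : ∃ v, LinearIndependent F ![v, E v] := by
      by_contra hcon
      push Not at hcon
      obtain ⟨a, ha⟩ := LinearMap.exists_eq_smul_id_of_forall_notLinearIndependent hcon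
      have hAv : ∀ v, A v = a • ((g : Matrix ι ι F) *ᵥ v) := by
        intro v
        rw [← hE, ha]
        simp [Matrix.mulVec_smul]
      have hrel : ∀ y v, a * B ((g : Matrix ι ι F) *ᵥ y) ((g : Matrix ι ι F) *ᵥ v) = B y v := by
        intro y v
        have := hAspec ((g : Matrix ι ι F) *ᵥ y) v
        rw [inv_mulVec_mulVec, hAv, map_smul, smul_eq_mul] at this
        exact this
      have ha0 : a ≠ 0 := by
        rintro rfl
        obtain ⟨i⟩ : Nonempty ι := inferInstance
        have hne : (Pi.single i 1 : ι → F) ≠ 0 := by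
          intro h
          have := congrFun h i
          simp at this
        obtain ⟨y, hy⟩ := hN _ hne
        have := hrel (Pi.single i 1) y
        rw [zero_mul] at this
        exact hy this.symm
      apply hgS
      refine ⟨Units.mk0 a⁻¹ (inv_ne_zero ha0), fun u v => ?_⟩
      rw [Units.val_mk0, ← hBf u v, ← hrel u v, ← mul_assoc, inv_mul_cancel₀ ha0, one_mul]
      rfl
    obtain ⟨v, hv⟩ := hex
    rw [LinearIndependent.pair_iff] at hv
    have hv0 : v ≠ 0 := by
      rintro rfl
      have := (hv 1 0 (by simp)).1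
      exact one_ne_zero this
    set u₀ := (g : Matrix ι ι F) *ᵥ v with hu₀
    set w₀ := A v with hw₀
    have hu₀ne : u₀ ≠ 0 := by
      intro h
      apply hv0
      have := mulVec_injective g (show (g : Matrix ι ι F) *ᵥ v = (g : Matrix ι ι F) *ᵥ 0 by
        rw [← hu₀, h, Matrix.mulVec_zero])
      exact this
    have hw₀' : w₀ ∉ Submodule.span F {u₀} := by
      intro h
      obtain ⟨c, hc⟩ := Submodule.mem_span_singleton.1 h
      have h1 : (g : Matrix ι ι F) *ᵥ (c • v) = (g : Matrix ι ι F) *ᵥ E v := by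
        rw [Matrix.mulVec_smul, ← hu₀, hc, hE]
      have h2 := mulVec_injective g h1
      have := (hv c (-1) (by simp only [neg_smul, one_smul]; rw [h2]; abel)).2
      exact (one_ne_zero (α := F)) (by simpa using this)
    have huw₀ : B u₀ w₀ = 0 := by
      rw [hw₀, hAspec, hu₀, inv_mulVec_mulVec]
      exact hA v
    have hvv : B v ((1 : F) • v) = 0 := by simpa using hA v
    have hTM : tT B u₀ w₀ huw₀ ∈ M := by
      have hconj : g * tT B v ((1 : F) • v) hvv * g⁻¹ = tT B u₀ w₀ huw₀ := by
        apply conj_tv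
        intro x
        have := hAspec x v
        simpa [one_smul] using this
      rw [← hconj]
      exact mul_mem (mul_mem hgM (hPM (hsymp v 1 hvv))) (inv_mem hgM)
    -- all transvections lie in `M`
    apply specialLinear_le_of_tv
    intro φ z h
    obtain ⟨w', rfl⟩ := exists_flip_eq hA hN φ
    have hzw' : B z w' = 0 := by simpa using h
    have htt : tv (B.flip w') z h = tT B z w' hzw' := rfl
    rw [htt]
    by_cases hz : z = 0
    · subst hz
      have : tT B 0 w' hzw' = 1 := by
        apply gl_ext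
        intro x
        simp
      rw [this]
      exact one_mem _
    by_cases hw'z : w' ∈ Submodule.span F {z}
    · obtain ⟨c, rfl⟩ := Submodule.mem_span_singleton.1 hw'z
      exact hPM (hsymp z c hzw')
    · obtain ⟨g₀, hg₀, h1, h2⟩ := exists_tvGroup_pair hA hN hu₀ne hw₀' huw₀ hz hw'z hzw'
      have hiso : ∀ x y, B (((glOfEquiv g₀ : GL ι F) : Matrix ι ι F) *ᵥ x)
          (((glOfEquiv g₀ : GL ι F) : Matrix ι ι F) *ᵥ y) = B x y := by
        intro x y
        rw [glOfEquiv_mulVec, glOfEquiv_mulVec]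
        exact AF.tvGroup_le_isomGroup hA _ hg₀ x y
      have h' : B (((glOfEquiv g₀ : GL ι F) : Matrix ι ι F) *ᵥ u₀)
          (((glOfEquiv g₀ : GL ι F) : Matrix ι ι F) *ᵥ w₀) = 0 := by
        rw [hiso, huw₀]
      have hconj := conj_tT_isometry hA (glOfEquiv g₀) hiso u₀ w₀ huw₀ h'
      have hs : glOfEquiv g₀ ∈ M := hPM (hsp g₀ hg₀)
      have hT : tT B _ _ h' ∈ M := by
        rw [← hconj]
        exact mul_mem (mul_mem hs hTM) (inv_mem hs)
      have heq : tT B _ _ h' = tT B z w' hzw' := by
        apply gl_ext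
        intro x
        simp only [tT_mulVec, glOfEquiv_mulVec, h1, h2]
      rwa [heq] at hT

end Cfsg.Agent.Lib.Classical.Geo.SympSim
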