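/-
Geometry of a non-degenerate unitary form `f` with respect to an involution `σ` of a finite field `F`:
norm and trace are onto the fixed field, Riesz representation, hyperbolic pairs in perps of small families of
vectors, vectors of prescribed norm and prescribed inner products, transvections, commutators and
transitivity of the unitary transvections on pairs of orthogonal isotropic vectors.
-/
import Mathlib
import Cfsg.Agent.Lib.Classical.Geo.SympSim

set_option autoImplicit false
set_option linter.unusedSectionVars false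

namespace Cfsg.Agent.Lib.Classical.Geo.UForm

open scoped Matrix
open Module Cfsg Cfsg.Geo Cfsg.Agent.Lib.Classical.Geo.Basic Cfsg.Agent.Lib.Classical.Geo.SympSim

section Field

variable {F : Type*} [Field F] {σ : F ≃+* F}
  (hne : σ ≠ RingEquiv.refl F) (hinv : ∀ a, σ (σ a) = a)

include hne hinv

theorem exists_trace (t : F) (ht : σ t = t) : ∃ x, x + σ x = t := by
  obtain ⟨w, hw⟩ : ∃ w, w + σ w ≠ 0 := by
    by_contra hcon
    push Not at hcon
    apply hne
    ext a
    have h1 := hcon 1
    rw [map_one] at h1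
    have h2 := hcon a
    simp only [RingEquiv.refl_apply]
    linear_combination h2 - a * h1
  have hs : σ (w + σ w) = w + σ w := by
    rw [map_add, hinv]
    ring
  refine ⟨(t * (w + σ w)⁻¹) * w, ?_⟩
  rw [map_mul, map_mul, map_inv₀, hs, ht]
  field_simp

theorem exists_tr0 : ∃ c : F, c ≠ 0 ∧ c + σ c = 0 := by
  obtain ⟨w, hw⟩ : ∃ w, σ w ≠ w := by
    by_contra hcon
    push Not at hcon
    apply hne
    ext a
    exact hcon a
  refine ⟨w - σ w, sub_ne_zero.2 hw.symm, ?_⟩
  rw [map_sub, hinv]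
  ring

/-- The norm is onto the fixed field. -/
theorem exists_norm [Fintype F] (t : F) (ht : σ t = t) : ∃ x, x * σ x = t := by
  classical
  by_cases ht0 : t = 0
  · exact ⟨0, by simp [ht0]⟩
  let s : Fˣ →* Fˣ := Units.map (σ : F →* F)
  have hss : ∀ x : Fˣ, s (s x) = x := fun x => Units.ext (hinv _)
  let N : Fˣ →* Fˣ :=
    { toFun := fun x => x * s x
      map_one' := by simp
      map_mul' := fun x y => by
        rw [map_mul]
        exact mul_mul_mul_comm _ _ _ _ }
  let D : Fˣ →* Fˣ :=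
    { toFun := fun x => x * (s x)⁻¹
      map_one' := by simp
      map_mul' := fun x y => by
        rw [map_mul, mul_inv]
        exact mul_mul_mul_comm _ _ _ _ }
  have hD : ∀ x : Fˣ, ((D x : Fˣ) : F) = x * (σ x)⁻¹ := fun x => by
    simp [D, s]
  have hNle : N.range ≤ D.ker := by
    rintro _ ⟨x, rfl⟩
    rw [MonoidHom.mem_ker]
    change (x * s x) * (s (x * s x))⁻¹ = 1
    rw [map_mul, hss, mul_comm (s x) x, mul_inv_cancel]
  have hker : N.ker ≤ D.range := by
    intro x hx
    have hx1 : (x : F) * σ x = 1 := by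
      have : N x = 1 := hx
      have := congrArg Units.val this
      simpa [N, s] using this
    by_cases hm : (x : F) = -1
    · obtain ⟨c, hc0, hc⟩ := exists_tr0 hne hinv
      refine ⟨Units.mk0 c hc0, ?_⟩
      apply Units.ext
      have hσc : σ c = -c := by linear_combination hc
      rw [hD, Units.val_mk0, hσc, hm]
      field_simp
    · have hy : 1 + (x : F) ≠ 0 := by
        intro h
        apply hm
        linear_combination h
      refine ⟨Units.mk0 _ hy, ?_⟩
      apply Units.ext
      rw [hD, Units.val_mk0]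
      have hσ : σ (1 + (x : F)) = (1 + (x : F)) * (x : F)⁻¹ := by
        rw [map_add, map_one]
        field_simp
        linear_combination hx1
      rw [hσ]
      field_simp
  have hcard : Nat.card N.range = Nat.card D.ker := by
    have h1 : Nat.card N.ker * Nat.card N.range = Nat.card Fˣ := by
      rw [← Subgroup.index_ker, Subgroup.card_mul_index]
    have h2 : Nat.card D.ker * Nat.card D.range = Nat.card Fˣ := by
      rw [← Subgroup.index_ker, Subgroup.card_mul_index]
    have h3 : Nat.card N.ker ≤ Nat.card D.range := Subgroup.card_le_of_le hker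
    have h4 : Nat.card N.range ≤ Nat.card D.ker := Subgroup.card_le_of_le hNle
    have hpos : 0 < Nat.card Fˣ := Nat.card_pos
    have h5 : Nat.card D.ker ≤ Nat.card N.range := by
      by_contra hlt
      push Not at hlt
      have : Nat.card N.ker * Nat.card N.range < Nat.card D.range * Nat.card D.ker := by
        apply lt_of_le_of_lt (Nat.mul_le_mul_right _ h3)
        apply Nat.mul_lt_mul_of_pos_left hlt
        rcases Nat.eq_zero_or_pos (Nat.card D.range) with h0 | h0
        · rw [h0, mul_zero] at h2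
          omega
        · exact h0
      rw [h1, mul_comm, h2] at this
      exact lt_irrefl _ this
    omega
  have heq : N.range = D.ker := Subgroup.eq_of_le_of_card_ge hNle (le_of_eq hcard.symm)
  have htm : Units.mk0 t ht0 ∈ D.ker := by
    rw [MonoidHom.mem_ker]
    apply Units.ext
    rw [hD, Units.val_mk0, ht, Units.val_one]
    field_simp
  rw [← heq] at htm
  obtain ⟨x, hx⟩ := htm
  refine ⟨x, ?_⟩
  have := congrArg Units.val hx
  exact this

end Field

variable {ι : Type} [Fintype ι] [DecidableEq ι] {F : Type*} [Field F]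
  {σ : F ≃+* F} {f : (ι → F) → (ι → F) → F}

section Basic

variable (hf : IsUnitaryForm σ f)

include hf

theorem add_right (v x y : ι → F) : f v (x + y) = f v x + f v y := by
  rw [hf.herm v (x + y), hf.add_left, map_add, ← hf.herm, ← hf.herm]

theorem smul_right (c : F) (v x : ι → F) : f v (c • x) = σ c * f v x := by
  rw [hf.herm v (c • x), hf.smul_left, map_mul, ← hf.herm]

theorem zero_left (x : ι → F) : f 0 x = 0 := by
  have := hf.smul_left 0 0 x
  simpa using this

theorem zero_right (x : ι → F) : f x 0 = 0 := by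
  have := smul_right hf 0 x 0
  simpa using this

theorem neg_left (x y : ι → F) : f (-x) y = - f x y := by
  have := hf.smul_left (-1) x y
  simpa using this

theorem neg_right (x y : ι → F) : f x (-y) = - f x y := by
  have := smul_right hf (-1) x y
  simpa using this

theorem sub_left (x x' y : ι → F) : f (x - x') y = f x y - f x' y := by
  rw [sub_eq_add_neg, hf.add_left, neg_left hf, sub_eq_add_neg]

theorem sub_right (x y y' : ι → F) : f x (y - y') = f x y - f x y' := by
  rw [sub_eq_add_neg, add_right hf, neg_right hf, sub_eq_add_neg]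

theorem sigma_self (x : ι → F) : σ (f x x) = f x x := (hf.herm x x).symm

theorem swap_zero {x y : ι → F} (h : f x y = 0) : f y x = 0 := by
  rw [hf.herm, h, map_zero]

theorem self_add (x y : ι → F) : f (x + y) (x + y) = f x x + f y y + f x y + σ (f x y) := by
  rw [hf.add_left, add_right hf, add_right hf, hf.herm y x]
  ring

theorem self_smul (c : F) (x : ι → F) : f (c • x) (c • x) = c * σ c * f x x := by
  rw [hf.smul_left, smul_right hf]
  ring

/-- The functional `x ↦ f(x, w)`. -/
def fLin (w : ι → F) : Dual F (ι → F) where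
  toFun x := f x w
  map_add' x y := hf.add_left x y w
  map_smul' c x := hf.smul_left c x w

omit hf in
@[simp] theorem fLin_apply (hf : IsUnitaryForm σ f) (w x : ι → F) : fLin hf w x = f x w := rfl

theorem eq_zero_right {w : ι → F} (h : ∀ x, f x w = 0) : w = 0 := by
  by_contra hne
  obtain ⟨x, hx⟩ := (hf.nondegenerate w hne).1
  exact hx (h x)

theorem eq_zero_left {w : ι → F} (h : ∀ x, f w x = 0) : w = 0 := by
  by_contra hne
  obtain ⟨x, hx⟩ := (hf.nondegenerate w hne).2
  exact hx (h x)

theorem exists_repr (φ : Dual F (ι → F)) [Finite F] : ∃ w, ∀ x, φ x = f x w := by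
  classical
  have : Fintype F := Fintype.ofFinite F
  have hinj : Function.Injective (fLin hf : (ι → F) → Dual F (ι → F)) := by
    intro a b hab
    have : a - b = 0 := by
      apply eq_zero_right hf
      intro x
      rw [sub_right hf]
      have := LinearMap.congr_fun hab x
      simp only [fLin_apply] at this
      rw [this, sub_self]
    exact sub_eq_zero.1 this
  have hsurj := (Finite.injective_iff_surjective_of_equiv
    ((Pi.basisFun F ι).toDualEquiv.toEquiv)).1 hinj
  obtain ⟨w, hw⟩ := hsurj φ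
  exact ⟨w, fun x => by rw [← hw]; rfl⟩

theorem exists_perp_ne [Finite F] {X : Submodule F (ι → F)} {y : ι → F} (hy : y ∉ X) :
    ∃ w, (∀ x ∈ X, f x w = 0) ∧ f y w = 1 := by
  obtain ⟨φ, h2, h1⟩ := exists_dual_eq_one hy
  obtain ⟨w, hw⟩ := exists_repr hf φ
  exact ⟨w, fun x hx => by rw [← hw]; exact h2 x hx, by rw [← hw]; exact h1⟩

end Basic

section Perp

variable [Fintype F] (hf : IsUnitaryForm σ f)

include hf

/-- Vectors orthogonal to a family. -/
def perp {k : ℕ} (x : Fin k → ι → F) : Submodule F (ι → F) :=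
  LinearMap.ker (LinearMap.pi fun i => fLin hf (x i))

theorem mem_perp {k : ℕ} {x : Fin k → ι → F} {z : ι → F} :
    z ∈ perp hf x ↔ ∀ i, f z (x i) = 0 := by
  simp [perp, LinearMap.mem_ker, funext_iff]

theorem perp_apply {k : ℕ} {x : Fin k → ι → F} {z : ι → F} (hz : z ∈ perp hf x) (i : Fin k) :
    f (x i) z = 0 := swap_zero hf ((mem_perp hf).1 hz i)

theorem finrank_perp {k : ℕ} (x : Fin k → ι → F) :
    Fintype.card ι ≤ k + finrank F (perp hf x) := by
  have h1 := LinearMap.finrank_range_add_finrank_ker (LinearMap.pi fun i => fLin hf (x i))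
  have h2 : finrank F (LinearMap.range (LinearMap.pi fun i => fLin hf (x i))) ≤ k :=
    (Submodule.finrank_le _).trans (by simp)
  have h3 : finrank F (ι → F) = Fintype.card ι := by simp
  unfold perp
  omega

theorem exists_perp_not_mem {k : ℕ} (x : Fin k → ι → F) (Y : Submodule F (ι → F))
    (h : k + finrank F Y < Fintype.card ι) : ∃ z ∈ perp hf x, z ∉ Y := by
  by_contra hcon
  push Not at hcon
  have h1 := Submodule.finrank_mono (show perp hf x ≤ Y from hcon)
  have h2 := finrank_perp hf x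
  omega

/-- Hyperbolic pairs in the perp of a small family. -/
theorem exists_hyp {k : ℕ} (x : Fin k → ι → F) (h : 2 * k + 6 ≤ Fintype.card ι) :
    ∃ z₁ z₂, z₁ ∈ perp hf x ∧ z₂ ∈ perp hf x ∧ f z₁ z₁ = 0 ∧ f z₂ z₂ = 0 ∧ f z₁ z₂ = 1 := by
  let X := Submodule.span F (Set.range x)
  have hXdim : finrank F X ≤ k := by
    have := finrank_range_le_card (R := F) x
    simpa [Set.finrank] using this
  obtain ⟨a, ha, haX⟩ := exists_perp_not_mem hf x X (by omega)
  let X' := X ⊔ Submodule.span F {a}
  have hX'dim : finrank F X' = finrank F X + 1 := Submodule.finrank_sup_span_singleton haX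
  obtain ⟨b, hb, hbX'⟩ := exists_perp_not_mem hf (Fin.cons a x) X' (by omega)
  have hb1 : f b a = 0 := (mem_perp hf).1 hb 0
  have hb2 : b ∈ perp hf x := (mem_perp hf).2 fun i => (mem_perp hf).1 hb i.succ
  have hab := swap_zero hf hb1
  obtain ⟨z₁, hz₁, hz₁X, hQ⟩ : ∃ z₁ ∈ perp hf x, z₁ ∉ X ∧ f z₁ z₁ = 0 := by
    by_cases hQa : f a a = 0
    · exact ⟨a, ha, haX, hQa⟩
    obtain ⟨α, hα⟩ := exists_norm hf.ne_refl hf.involutive (-(f b b) * (f a a)⁻¹)
      (by simp only [map_mul, map_neg, map_inv₀, sigma_self hf])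
    refine ⟨α • a + b, Submodule.add_mem _ (Submodule.smul_mem _ _ ha) hb2, ?_, ?_⟩
    · intro hmem
      apply hbX'
      have : b = (α • a + b) - α • a := by abel
      rw [this]
      exact X'.sub_mem (Submodule.mem_sup_left hmem)
        (X'.smul_mem _ (Submodule.mem_sup_right (Submodule.mem_span_singleton_self a)))
    · rw [self_add hf, self_smul hf, hα, hf.smul_left, hab]
      field_simp
      simp
  obtain ⟨w, hw, hzw⟩ := exists_perp_ne hf hz₁X
  have hwm : w ∈ perp hf x := (mem_perp hf).2 fun i =>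
    swap_zero hf (hw (x i) (Submodule.subset_span ⟨i, rfl⟩))
  have hwz : f w z₁ = 1 := by rw [hf.herm, hzw, map_one]
  obtain ⟨γ, hγ⟩ := exists_trace hf.ne_refl hf.involutive (-(f w w))
    (by rw [map_neg, sigma_self hf])
  refine ⟨z₁, w + γ • z₁, hz₁, Submodule.add_mem _ hwm (Submodule.smul_mem _ _ hz₁), hQ, ?_, ?_⟩
  · rw [self_add hf, self_smul hf, smul_right hf, hwz, hQ, mul_one, hf.involutive]
    linear_combination hγ
  · rw [add_right hf, hzw, smul_right hf, hQ]
    ring

/-- A vector can be moved to any norm, by adding two isotropic vectors of the perp of a small family. -/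
theorem exists_value {k : ℕ} (x : Fin k → ι → F) (h : 2 * k + 6 ≤ Fintype.card ι) (y : ι → F) (t : F)
    (ht : σ t = t) : ∃ z₁ z₂, z₁ ∈ perp hf x ∧ z₂ ∈ perp hf x ∧ f z₁ z₁ = 0 ∧ f z₂ z₂ = 0 ∧
      f (y + z₁ + z₂) (y + z₁ + z₂) = t := by
  obtain ⟨h₁, h₂, m₁, m₂, n₁, n₂, e⟩ := exists_hyp hf x h
  have e' : f h₂ h₁ = 1 := by rw [hf.herm, e, map_one]
  have hinv := hf.involutive
  set p := f y h₁ with hp
  set r := f y h₂ with hr
  have hp' : f h₁ y = σ p := hf.herm _ _
  have hr' : f h₂ y = σ r := hf.herm _ _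
  obtain ⟨u, hu⟩ := exists_trace hf.ne_refl hinv (t - f y y + (r * σ p + σ (r * σ p)))
    (by simp only [map_add, map_sub, map_mul, hinv, ht, sigma_self hf]; ring)
  refine ⟨(1 - r) • h₁, (u - p) • h₂, Submodule.smul_mem _ _ m₁, Submodule.smul_mem _ _ m₂, ?_, ?_, ?_⟩
  · rw [self_smul hf, n₁, mul_zero]
  · rw [self_smul hf, n₂, mul_zero]
  · simp only [hf.add_left, add_right hf, hf.smul_left, smul_right hf, n₁, n₂, e, e', ← hp, ← hr, hp', hr',
      map_sub, map_one]
    simp only [map_add, map_mul, hinv] at hu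
    linear_combination hu

/-- Isotropic vectors with prescribed inner products. -/
theorem exists_iso {p x y : ι → F} (hx : x ∉ Submodule.span F {p})
    (hy : y ∉ Submodule.span F {p} ⊔ Submodule.span F {x}) (s₁ s₂ : F)
    (h : 12 ≤ Fintype.card ι) : ∃ z, f z z = 0 ∧ f p z = 0 ∧ f x z = s₁ ∧ f y z = s₂ := by
  have hinv := hf.involutive
  have hx' : x ∉ Submodule.span F {p} ⊔ Submodule.span F {y} := by
    intro hmem
    obtain ⟨u, hu, v, hv, rfl⟩ := Submodule.mem_sup.1 hmem
    obtain ⟨β, rfl⟩ := Submodule.mem_span_singleton.1 hv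
    by_cases hβ : β = 0
    · subst hβ
      apply hx
      simpa using hu
    · apply hy
      have h1 : β • y ∈ Submodule.span F {p} ⊔ Submodule.span F {u + β • y} := by
        have e : β • y = (u + β • y) - u := by abel
        rw [e]
        exact Submodule.sub_mem _ (Submodule.mem_sup_right
          (by rw [← e]; exact Submodule.mem_span_singleton_self _)) (Submodule.mem_sup_left hu)
      have h2 := Submodule.smul_mem _ β⁻¹ h1
      rwa [smul_smul, inv_mul_cancel₀ hβ, one_smul] at h2
  obtain ⟨w₂, h21, h22⟩ := exists_perp_ne hf hy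
  obtain ⟨w₁, h11, h12⟩ := exists_perp_ne hf hx'
  have hp1 : f p w₁ = 0 := h11 p (Submodule.mem_sup_left (Submodule.mem_span_singleton_self _))
  have hp2 : f p w₂ = 0 := h21 p (Submodule.mem_sup_left (Submodule.mem_span_singleton_self _))
  have hy1 : f y w₁ = 0 := h11 y (Submodule.mem_sup_right (Submodule.mem_span_singleton_self _))
  have hx2 : f x w₂ = 0 := h21 x (Submodule.mem_sup_right (Submodule.mem_span_singleton_self _))
  set w := σ s₁ • w₁ + σ s₂ • w₂ with hw
  obtain ⟨z₁, z₂, m₁, m₂, n₁, n₂, e⟩ := exists_value hf ![p, x, y] (by simpa using h) w 0 (map_zero σ)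
  have a0 := perp_apply hf m₁ 0
  have a1 := perp_apply hf m₁ 1
  have a2 := perp_apply hf m₁ 2
  have b0 := perp_apply hf m₂ 0
  have b1 := perp_apply hf m₂ 1
  have b2 := perp_apply hf m₂ 2
  simp only [Matrix.cons_val_zero, Matrix.cons_val_one, Matrix.cons_val] at a0 a1 a2 b0 b1 b2
  refine ⟨w + z₁ + z₂, e, ?_, ?_, ?_⟩
  · rw [add_right hf, add_right hf, a0, b0, hw, add_right hf, smul_right hf, smul_right hf, hp1, hp2]
    ring
  · rw [add_right hf, add_right hf, a1, b1, hw, add_right hf, smul_right hf, smul_right hf, h12, hx2]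
    simp only [hinv]
    ring
  · rw [add_right hf, add_right hf, a2, b2, hw, add_right hf, smul_right hf, smul_right hf, hy1, h22]
    simp only [hinv]
    ring

end Perp

section Transvections

variable (hf : IsUnitaryForm σ f)

include hf

/-- The transvection `x ↦ x + f(x, w) u`, for `f(u, w) = 0`. -/
noncomputable def T (u w : ι → F) (h : f u w = 0) : GL ι F := tv (fLin hf w) u h

@[simp] theorem T_mulVec (u w : ι → F) (h : f u w = 0) (x : ι → F) :
    ((T hf u w h : GL ι F) : Matrix ι ι F) *ᵥ x = x + f x w • u :=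
  tv_mulVec _ _ _ _

theorem T_mem_SL (u w : ι → F) (h : f u w = 0) : T hf u w h ∈ specialLinear ι F :=
  tv_mem_specialLinear _ _ _

theorem T_congr {u u' w w' : ι → F} (hu : u = u') (hw : w = w') (h : f u w = 0) :
    T hf u w h = T hf u' w' (by rw [← hu, ← hw]; exact h) := by
  subst hu hw
  rfl

theorem T_zero_left (w : ι → F) (h : f 0 w = 0) : T hf 0 w h = 1 := by
  apply gl_ext
  intro x
  simp

theorem T_zero_right (u : ι → F) (h : f u 0 = 0) : T hf u 0 h = 1 := by
  apply gl_ext
  intro x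
  simp [zero_right hf]

theorem T_add_left (u u' w : ι → F) (h : f u w = 0) (h' : f u' w = 0) :
    T hf u w h * T hf u' w h' = T hf (u + u') w (by rw [hf.add_left, h, h', add_zero]) := by
  apply gl_ext
  intro x
  rw [Units.val_mul, ← Matrix.mulVec_mulVec, T_mulVec, T_mulVec, T_mulVec, hf.add_left,
    hf.smul_left, h', mul_zero, add_zero, smul_add]
  abel

theorem T_add_right (u w w' : ι → F) (h : f u w = 0) (h' : f u w' = 0) :
    T hf u w h * T hf u w' h' = T hf u (w + w') (by rw [add_right hf, h, h', add_zero]) := by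
  apply gl_ext
  intro x
  rw [Units.val_mul, ← Matrix.mulVec_mulVec, T_mulVec, T_mulVec, T_mulVec, hf.add_left,
    hf.smul_left, h, mul_zero, add_zero, add_right hf, add_smul]
  abel

theorem T_inv (u w : ι → F) (h : f u w = 0) :
    (T hf u w h)⁻¹ = T hf (-u) w (by rw [neg_left hf, h, neg_zero]) := by
  apply inv_eq_of_mul_eq_one_right
  rw [T_add_left]
  have e : u + -u = 0 := by abel
  rw [T_congr hf e rfl, T_zero_left]

/-- The commutator of two transvections. -/
theorem T_comm (u w u' w' : ι → F) (h : f u w = 0) (h' : f u' w' = 0) (h₁ : f u' w = 0) :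
    T hf u w h * T hf u' w' h' * (T hf u w h)⁻¹ * (T hf u' w' h')⁻¹ =
      T hf (-(f u w') • u') w (by rw [hf.smul_left, h₁, mul_zero]) := by
  rw [T_inv, T_inv]
  apply gl_ext
  intro x
  simp only [Units.val_mul, ← Matrix.mulVec_mulVec, T_mulVec, hf.add_left, hf.smul_left, neg_left hf, h,
    h', h₁]
  simp only [mul_zero, neg_zero, add_zero]
  module

/-- The unitary isometries of determinant one. -/
def isoGroup (hf : IsUnitaryForm σ f) : Subgroup (GL ι F) :=
  Cfsg.preserving (glToMat ι F) f ⊓ specialLinear ι F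

theorem mem_isoGroup {s : GL ι F} : s ∈ isoGroup hf ↔
    (∀ x y, f ((s : Matrix ι ι F) *ᵥ x) ((s : Matrix ι ι F) *ᵥ y) = f x y) ∧ s ∈ specialLinear ι F :=
  Iff.rfl

theorem T_mem_isoGroup (a : ι → F) (c : F) (ha : f a a = 0) (hc : c + σ c = 0) :
    T hf (c • a) a (by rw [hf.smul_left, ha, mul_zero]) ∈ isoGroup hf := by
  refine (mem_isoGroup hf).2 ⟨fun x y => ?_, T_mem_SL _ _ _ _⟩
  rw [T_mulVec, T_mulVec, smul_smul, smul_smul, hf.add_left, add_right hf, add_right hf, hf.smul_left,
    smul_right hf, smul_right hf, hf.smul_left, ha, map_mul, hf.herm a y]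
  linear_combination (f x a * σ (f y a)) * hc

theorem T_conj_iso (s : GL ι F)
    (hs : ∀ x y, f ((s : Matrix ι ι F) *ᵥ x) ((s : Matrix ι ι F) *ᵥ y) = f x y)
    (u w : ι → F) (h : f u w = 0) :
    s * T hf u w h * s⁻¹ =
      T hf ((s : Matrix ι ι F) *ᵥ u) ((s : Matrix ι ι F) *ᵥ w) (by rw [hs, h]) := by
  apply conj_tv
  intro x
  have := hs (((s⁻¹ : GL ι F) : Matrix ι ι F) *ᵥ x) w
  rw [mulVec_inv_mulVec] at this
  exact this

end Transvections

section Moves

variable [Fintype F] (hf : IsUnitaryForm σ f)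

include hf

theorem move1 {x y : ι → F} (hx : f x x = 0) (hy : f y y = 0) (hd : f x y ≠ 0)
    (htr : f x y + σ (f x y) = 0) : ∃ s ∈ isoGroup hf, (s : Matrix ι ι F) *ᵥ x = y ∧
      ∀ p, f p x = 0 → f p y = 0 → (s : Matrix ι ι F) *ᵥ p = p := by
  have hv : f (y - x) (y - x) = 0 := by
    rw [sub_left hf, sub_right hf, sub_right hf, hx, hy, hf.herm y x]
    linear_combination -htr
  have hσd : σ (f x y) = - f x y := by linear_combination htr
  have hc : (f x y)⁻¹ + σ (f x y)⁻¹ = 0 := by
    rw [map_inv₀, hσd, inv_neg]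
    ring
  refine ⟨_, T_mem_isoGroup hf (y - x) (f x y)⁻¹ hv hc, ?_, ?_⟩
  · rw [T_mulVec, sub_right hf, hx, sub_zero, smul_smul, mul_inv_cancel₀ hd, one_smul]
    abel
  · intro p h1 h2
    rw [T_mulVec, sub_right hf, h1, h2, sub_zero, zero_smul, add_zero]

theorem move2 {p x y : ι → F} (hx : f x x = 0) (hy : f y y = 0) (hpx : f p x = 0) (hpy : f p y = 0)
    (hxm : x ∉ Submodule.span F {p}) (hym : y ∉ Submodule.span F {p} ⊔ Submodule.span F {x})
    (h12 : 12 ≤ Fintype.card ι) :
    ∃ s ∈ isoGroup hf, (s : Matrix ι ι F) *ᵥ x = y ∧ (s : Matrix ι ι F) *ᵥ p = p := by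
  obtain ⟨c, hc0, hc⟩ := exists_tr0 hf.ne_refl hf.involutive
  obtain ⟨z, hzz, hpz, hxz, hyz⟩ := exists_iso hf hxm hym c c h12
  obtain ⟨s₁, hs₁, e₁, g₁⟩ := move1 hf hx hzz (by rw [hxz]; exact hc0) (by rw [hxz]; exact hc)
  have hzy : f z y = σ c := by rw [hf.herm, hyz]
  obtain ⟨s₂, hs₂, e₂, g₂⟩ := move1 hf hzz hy (by
    rw [hzy]
    simpa using hc0) (by
    rw [hzy, hf.involutive]
    linear_combination hc)
  refine ⟨s₂ * s₁, mul_mem hs₂ hs₁, ?_, ?_⟩
  · rw [Units.val_mul, ← Matrix.mulVec_mulVec, e₁, e₂]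
  · rw [Units.val_mul, ← Matrix.mulVec_mulVec, g₁ p hpx hpz, g₂ p hpz hpy]

theorem move3 {p x y : ι → F} (hx : f x x = 0) (hy : f y y = 0) (hpx : f p x = 0) (hpy : f p y = 0)
    (hxm : x ∉ Submodule.span F {p}) (hym : y ∉ Submodule.span F {p})
    (h12 : 12 ≤ Fintype.card ι) :
    ∃ s ∈ isoGroup hf, (s : Matrix ι ι F) *ᵥ x = y ∧ (s : Matrix ι ι F) *ᵥ p = p := by
  by_cases hcase : y ∈ Submodule.span F {p} ⊔ Submodule.span F {x}
  swap
  · exact move2 hf hx hy hpx hpy hxm hcase h12
  obtain ⟨w, z₂, m₁, m₂, n₁, n₂, e⟩ := exists_hyp hf ![p, x, y] (by simpa using h12)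
  have a0 := perp_apply hf m₁ 0
  have a1 := perp_apply hf m₁ 1
  have a2 := perp_apply hf m₁ 2
  have b0 := perp_apply hf m₂ 0
  have b1 := perp_apply hf m₂ 1
  have b2 := perp_apply hf m₂ 2
  simp only [Matrix.cons_val_zero, Matrix.cons_val_one, Matrix.cons_val] at a0 a1 a2 b0 b1 b2
  have hkey : ∀ v : ι → F, v ∈ Submodule.span F {p} ⊔ Submodule.span F {x} → f v z₂ = 0 := by
    intro v hv
    obtain ⟨u, hu, v', hv', rfl⟩ := Submodule.mem_sup.1 hv
    obtain ⟨α, rfl⟩ := Submodule.mem_span_singleton.1 hu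
    obtain ⟨β, rfl⟩ := Submodule.mem_span_singleton.1 hv'
    rw [hf.add_left, hf.smul_left, hf.smul_left, b0, b1]
    ring
  have hw1 : w ∉ Submodule.span F {p} ⊔ Submodule.span F {x} := by
    intro hmem
    have := hkey w hmem
    rw [e] at this
    exact one_ne_zero this
  have hw2 : w ∉ Submodule.span F {p} := fun hmem => hw1 (Submodule.mem_sup_left hmem)
  have hy2 : y ∉ Submodule.span F {p} ⊔ Submodule.span F {w} := by
    intro hmem
    obtain ⟨u, hu, v', hv', rfl⟩ := Submodule.mem_sup.1 hmem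
    obtain ⟨α, rfl⟩ := Submodule.mem_span_singleton.1 hu
    obtain ⟨β, rfl⟩ := Submodule.mem_span_singleton.1 hv'
    rw [hf.add_left, hf.smul_left, hf.smul_left, b0, e] at b2
    have hβ : β = 0 := by simpa using b2
    subst hβ
    apply hym
    simp only [zero_smul, add_zero]
    exact Submodule.smul_mem _ _ (Submodule.mem_span_singleton_self _)
  obtain ⟨s₁, hs₁, e₁, g₁⟩ := move2 hf hx n₁ hpx a0 hxm hw1 h12
  obtain ⟨s₂, hs₂, e₂, g₂⟩ := move2 hf n₁ hy a0 hpy hw2 hy2 h12
  refine ⟨s₂ * s₁, mul_mem hs₂ hs₁, ?_, ?_⟩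
  · rw [Units.val_mul, ← Matrix.mulVec_mulVec, e₁, e₂]
  · rw [Units.val_mul, ← Matrix.mulVec_mulVec, g₁, g₂]

/-- The unitary transvection group is transitive on pairs of independent orthogonal isotropic vectors. -/
theorem exists_pair_move {a b a' b' : ι → F} (ha : f a a = 0) (hb : f b b = 0) (ha' : f a' a' = 0)
    (hb' : f b' b' = 0) (hab : f a b = 0) (hab' : f a' b' = 0) (ha0 : a ≠ 0) (ha'0 : a' ≠ 0)
    (hbm : b ∉ Submodule.span F {a}) (hbm' : b' ∉ Submodule.span F {a'})
    (h12 : 12 ≤ Fintype.card ι) :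
    ∃ s ∈ isoGroup hf, (s : Matrix ι ι F) *ᵥ a = a' ∧ (s : Matrix ι ι F) *ᵥ b = b' := by
  obtain ⟨s₁, hs₁, e₁, -⟩ := move3 hf (p := 0) ha ha' (zero_left hf a) (zero_left hf a')
    (by simpa using ha0) (by simpa using ha'0) h12
  have hs₁' := ((mem_isoGroup hf).1 hs₁).1
  set b₁ := (s₁ : Matrix ι ι F) *ᵥ b with hb₁
  have hb₁m : b₁ ∉ Submodule.span F {a'} := by
    intro hmem
    obtain ⟨κ, hκ⟩ := Submodule.mem_span_singleton.1 hmem
    apply hbm
    have : κ • a = b := by
      apply mulVec_injective s₁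
      change (s₁ : Matrix ι ι F) *ᵥ (κ • a) = (s₁ : Matrix ι ι F) *ᵥ b
      rw [Matrix.mulVec_smul, e₁, hκ]
    rw [← this]
    exact Submodule.smul_mem _ _ (Submodule.mem_span_singleton_self _)
  obtain ⟨s₂, hs₂, e₂, g₂⟩ := move3 hf (p := a') (x := b₁) (y := b') (by rw [hb₁, hs₁', hb]) hb'
    (by rw [← e₁, hb₁, hs₁', hab]) hab' hb₁m hbm' h12
  refine ⟨s₂ * s₁, mul_mem hs₂ hs₁, ?_, ?_⟩
  · rw [Units.val_mul, ← Matrix.mulVec_mulVec, e₁, g₂]
  · rw [Units.val_mul, ← Matrix.mulVec_mulVec, ← hb₁, e₂]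

end Moves

end Cfsg.Agent.Lib.Classical.Geo.UForm
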