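/-
The stabiliser of a pair of complementary totally isotropic subspaces is maximal in the special unitary group.

Proof.  Write `E(u, v)` for `x ↦ x + f(x, v) u - f(x, u) v`, for `u, v` isotropic with `f(u, v) = 0`.  The stabiliser
contains `E(a, b)` with `a ∈ X`, `b ∈ Y`.  If `g` lies in an overgroup `M` but not in the stabiliser, some conjugate
`E(c, d) = g E(a, b) g⁻¹` has independent `X`-components; commutators with the `E(a, b)` reduce it to
`E(t a', a') = T_{a'}(t - σ t)`, `a' ∈ X`.  The stabiliser is transitive on `X \ 0`, and contains a swap of `X` and `Y`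
of determinant one.  So `M` contains all unitary transvections.
-/
import Mathlib
import Cfsg.Agent.Lib.Classical.Geo.UForm
import Cfsg.Agent.Lib.Classical.Geo.Decomp

set_option autoImplicit false
set_option linter.unusedSectionVars false

namespace Cfsg.Agent.Lib.Classical.Geo.UPair

open scoped Matrix
open Module Cfsg Cfsg.Geo Cfsg.Agent.Lib.Classical.Geo.Basic Cfsg.Agent.Lib.Classical.Geo.SympSim
open Cfsg.Agent.Lib.Classical.Geo.UForm

section Generic

variable {ι : Type} [Fintype ι] [DecidableEq ι] {F : Type*} [Field F]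

theorem finrank_span_pair_le (a b : ι → F) : finrank F (Submodule.span F {a, b}) ≤ 2 := by
  classical
  have := finrank_span_finset_le_card (R := F) ({a, b} : Finset (ι → F))
  have h2 : (({a, b} : Finset (ι → F)) : Set (ι → F)) = {a, b} := by simp
  rw [h2] at this
  exact this.trans (Finset.card_le_two)

theorem not_mem_singleton_symm {a b : ι → F} (hb : b ≠ 0) (h : a ∉ Submodule.span F {b}) :
    b ∉ Submodule.span F {a} := by
  intro hmem
  obtain ⟨c, hc⟩ := Submodule.mem_span_singleton.1 hmem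
  have hc0 : c ≠ 0 := by
    rintro rfl
    exact hb (by rw [← hc, zero_smul])
  apply h
  rw [Submodule.mem_span_singleton]
  exact ⟨c⁻¹, by rw [← hc, smul_smul, inv_mul_cancel₀ hc0, one_smul]⟩

/-- If `d ∉ ⟨c⟩` and `a ∉ ⟨c, d⟩` then `d ∉ ⟨c, a⟩`. -/
theorem not_mem_pair {a c d : ι → F} (hd : d ∉ Submodule.span F {c}) (ha : a ∉ Submodule.span F {c, d}) :
    d ∉ Submodule.span F {c, a} := by
  intro hmem
  obtain ⟨α, β, e⟩ := Submodule.mem_span_pair.1 hmem
  by_cases hβ : β = 0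
  · apply hd
    rw [Submodule.mem_span_singleton]
    exact ⟨α, by rw [← e, hβ, zero_smul, add_zero]⟩
  · apply ha
    rw [Submodule.mem_span_pair]
    refine ⟨-β⁻¹ * α, β⁻¹, ?_⟩
    rw [← e, smul_add, smul_smul, smul_smul, inv_mul_cancel₀ hβ, one_smul, neg_mul, neg_smul]
    abel

/-- Membership in the stabiliser of a decomposition. -/
theorem mem_stab {t : ℕ} {D : Fin t → Submodule F (ι → F)} (hdim : ∀ i j, finrank F (D i) = finrank F (D j))
    (g : GL ι F) (τ : Equiv.Perm (Fin t))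
    (h : ∀ i, ∀ x ∈ D i, (g : Matrix ι ι F) *ᵥ x ∈ D (τ i)) : g ∈ decompositionStabilizer D := by
  refine ⟨τ, fun i => ?_⟩
  apply Submodule.eq_of_le_of_finrank_eq
  · rintro _ ⟨x, hx, rfl⟩
    exact h i x hx
  · have := finrank_act g (D i)
    unfold act at this
    rw [this]
    exact hdim _ _

/-- The unipotent element `1 + N`, for `N² = 0`. -/
noncomputable def unip (N : (ι → F) →ₗ[F] (ι → F)) (hN : ∀ x, N (N x) = 0) : GL ι F where
  val := LinearMap.toMatrix' (LinearMap.id + N)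
  inv := LinearMap.toMatrix' (LinearMap.id - N)
  val_inv := by
    rw [← LinearMap.toMatrix'_comp, ← LinearMap.toMatrix'_id]
    congr 1
    ext1 x
    ext i
    simp [hN]
  inv_val := by
    rw [← LinearMap.toMatrix'_comp, ← LinearMap.toMatrix'_id]
    congr 1
    ext1 x
    ext i
    simp [hN]

theorem unip_mulVec (N : (ι → F) →ₗ[F] (ι → F)) (hN : ∀ x, N (N x) = 0) (x : ι → F) :
    ((unip N hN : GL ι F) : Matrix ι ι F) *ᵥ x = x + N x := by
  change LinearMap.toMatrix' (LinearMap.id + N) *ᵥ x = _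
  rw [LinearMap.toMatrix'_mulVec]
  rfl

theorem unip_mem_SL (N : (ι → F) →ₗ[F] (ι → F)) (hN : ∀ x, N (N x) = 0) : unip N hN ∈ specialLinear ι F := by
  rw [mem_specialLinear_iff]
  change (LinearMap.toMatrix' (LinearMap.id + N)).det = 1
  set A : Matrix ι ι F := LinearMap.toMatrix' N with hA
  have hnil : IsNilpotent (-A) := by
    refine ⟨2, ?_⟩
    rw [neg_sq, pow_two, hA, ← LinearMap.toMatrix'_comp]
    have : N ∘ₗ N = 0 := by
      ext1 x
      ext i
      simp [hN]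
    rw [this]
    simp
  have h1 := Matrix.isNilpotent_charpoly_sub_pow_of_isNilpotent hnil
  have h2 : (-A).charpoly = Polynomial.X ^ Fintype.card ι := by
    rw [← sub_eq_zero]
    exact h1.eq_zero
  have h3 := Matrix.eval_charpoly (-A) (1 : F)
  rw [h2] at h3
  simp only [Polynomial.eval_pow, Polynomial.eval_X, one_pow, sub_neg_eq_add, map_one] at h3
  rw [map_add, LinearMap.toMatrix'_id, ← hA]
  exact h3.symm

end Generic

variable {ι : Type} [Fintype ι] [DecidableEq ι] {F : Type*} [Field F] [Fintype F]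
  {σ : F ≃+* F} {f : (ι → F) → (ι → F) → F} (hf : IsUnitaryForm σ f)

include hf

/-- `x ↦ x + f(x, v) u - f(x, u) v`. -/
noncomputable def E (u v : ι → F) (h : f u v = 0) : GL ι F :=
  T hf u v h * T hf (-v) u (by rw [neg_left hf, swap_zero hf h, neg_zero])

theorem E_mulVec {u v : ι → F} (h : f u v = 0) (hv : f v v = 0) (x : ι → F) :
    ((E hf u v h : GL ι F) : Matrix ι ι F) *ᵥ x = x + f x v • u - f x u • v := by
  unfold E
  rw [Units.val_mul, ← Matrix.mulVec_mulVec, T_mulVec, T_mulVec, hf.add_left, hf.smul_left, neg_left hf,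
    hv, neg_zero, mul_zero, add_zero]
  module

theorem E_iso {u v : ι → F} (hu : f u u = 0) (hv : f v v = 0) (h : f u v = 0) (x y : ι → F) :
    f (((E hf u v h : GL ι F) : Matrix ι ι F) *ᵥ x) (((E hf u v h : GL ι F) : Matrix ι ι F) *ᵥ y) = f x y := by
  have h' := swap_zero hf h
  have e1 := hf.herm v y
  have e2 := hf.herm u y
  simp only [E_mulVec hf h hv, sub_left hf, sub_right hf, hf.add_left, add_right hf, hf.smul_left,
    smul_right hf, hu, hv, h, h', ← e1, ← e2]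
  ring

theorem E_mem_SL {u v : ι → F} (h : f u v = 0) : E hf u v h ∈ specialLinear ι F :=
  mul_mem (T_mem_SL _ _ _ _) (T_mem_SL _ _ _ _)

theorem E_mem {u v : ι → F} (hu : f u u = 0) (hv : f v v = 0) (h : f u v = 0) : E hf u v h ∈ isoGroup hf :=
  (mem_isoGroup hf).2 ⟨E_iso hf hu hv h, E_mem_SL hf h⟩

theorem conj_E {s : GL ι F} (hs : ∀ x y, f ((s : Matrix ι ι F) *ᵥ x) ((s : Matrix ι ι F) *ᵥ y) = f x y)
    {u v : ι → F} (h : f u v = 0) (hv : f v v = 0) (h' : f ((s : Matrix ι ι F) *ᵥ u) ((s : Matrix ι ι F) *ᵥ v) = 0) :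
    s * E hf u v h * s⁻¹ = E hf _ _ h' := by
  apply gl_ext
  intro x
  rw [Units.val_mul, Units.val_mul, ← Matrix.mulVec_mulVec, ← Matrix.mulVec_mulVec, E_mulVec hf h hv,
    E_mulVec hf h' (by rw [hs, hv]), Matrix.mulVec_sub, Matrix.mulVec_add, Matrix.mulVec_smul,
    Matrix.mulVec_smul, mulVec_inv_mulVec]
  have h1 := hs (((s⁻¹ : GL ι F) : Matrix ι ι F) *ᵥ x) u
  have h2 := hs (((s⁻¹ : GL ι F) : Matrix ι ι F) *ᵥ x) v
  rw [mulVec_inv_mulVec] at h1 h2
  rw [← h1, ← h2]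

/-- The key commutator. -/
theorem comm_eq {a b c d : ι → F} (haa : f a a = 0) (hbb : f b b = 0) (hcc : f c c = 0) (hdd : f d d = 0)
    (hcd : f c d = 0) (hab : f a b = 0) (hac : f a c = 0) (had : f a d = 0)
    (hbc : f b c = 0) (hbd : f b d = 1) :
    E hf c d hcd * E hf a b hab = E hf a c hac * E hf a b hab * E hf c d hcd := by
  apply gl_ext
  intro x
  have e1 : f c a = 0 := swap_zero hf hac
  have e2 : f d a = 0 := swap_zero hf had
  have e3 : f c b = 0 := swap_zero hf hbc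
  have e4 : f d b = 1 := by rw [hf.herm, hbd, map_one]
  have e5 : f d c = 0 := swap_zero hf hcd
  have e6 : f b a = 0 := swap_zero hf hab
  simp only [Units.val_mul, ← Matrix.mulVec_mulVec, E_mulVec hf hcd hdd, E_mulVec hf hab hbb, E_mulVec hf hac hcc,
    sub_left hf, hf.add_left, hf.smul_left, haa, hbb, hcc, hdd, hcd, hab, hac, had, hbc, hbd, e1, e2, e3, e4, e5, e6]
  module

theorem comm_mem {M : Subgroup (GL ι F)} {a b c d : ι → F} (haa : f a a = 0) (hbb : f b b = 0) (hcc : f c c = 0)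
    (hdd : f d d = 0) (hcd : f c d = 0) (hab : f a b = 0) (hac : f a c = 0) (had : f a d = 0)
    (hbc : f b c = 0) (hbd : f b d = 1)
    (h1 : E hf c d hcd ∈ M) (h2 : E hf a b hab ∈ M) : E hf a c hac ∈ M := by
  have h := comm_eq hf haa hbb hcc hdd hcd hab hac had hbc hbd
  have : E hf a c hac = E hf c d hcd * E hf a b hab * (E hf c d hcd)⁻¹ * (E hf a b hab)⁻¹ := by
    rw [h]
    group
  rw [this]
  exact mul_mem (mul_mem (mul_mem h1 h2) (inv_mem h1)) (inv_mem h2)

/-- `E(t a, a) = T_a(t - σ t)`. -/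
theorem E_smul_self {a : ι → F} (ha : f a a = 0) (t : F) :
    E hf (t • a) a (by rw [hf.smul_left, ha, mul_zero]) =
      T hf ((t - σ t) • a) a (by rw [hf.smul_left, ha, mul_zero]) := by
  apply gl_ext
  intro x
  rw [E_mulVec hf _ ha, T_mulVec, smul_right hf]
  module

/-- A pair of complementary totally isotropic subspaces. -/
structure Pair (f : (ι → F) → (ι → F) → F) (X Y : Submodule F (ι → F)) : Prop where
  tsX : ∀ x ∈ X, ∀ y ∈ X, f x y = 0
  tsY : ∀ x ∈ Y, ∀ y ∈ Y, f x y = 0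
  compl : IsCompl X Y

omit hf

variable {X Y : Submodule F (ι → F)}

theorem Pair.symm (P : Pair f X Y) : Pair f Y X := ⟨P.tsY, P.tsX, P.compl.symm⟩

theorem Pair.decomp (P : Pair f X Y) (x : ι → F) : ∃ x₁ ∈ X, ∃ x₂ ∈ Y, x = x₁ + x₂ := by
  have hx : x ∈ X ⊔ Y := by rw [P.compl.sup_eq_top]; trivial
  obtain ⟨x₁, h₁, x₂, h₂, e⟩ := Submodule.mem_sup.1 hx
  exact ⟨x₁, h₁, x₂, h₂, e.symm⟩

include hf

theorem Pair.orth_eq_zero (P : Pair f X Y) {y : ι → F} (hy : y ∈ Y) (h : ∀ x ∈ X, f x y = 0) : y = 0 := by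
  apply eq_zero_right hf
  intro v
  obtain ⟨x₁, h₁, x₂, h₂, rfl⟩ := P.decomp v
  rw [hf.add_left, h _ h₁, P.tsY _ h₂ _ hy, add_zero]

/-- Prescribing values on `X` by a vector of `Y`. -/
theorem Pair.prescribe (P : Pair f X Y) {u : ι → F} (hu : u ∈ X) {S : Submodule F (ι → F)} (huS : u ∉ S) :
    ∃ y ∈ Y, (∀ s ∈ X, s ∈ S → f s y = 0) ∧ f u y = 1 ∧ f y u = 1 := by
  obtain ⟨w, hw0, hw1⟩ := exists_perp_ne hf huS
  obtain ⟨w₁, h₁, w₂, h₂, rfl⟩ := P.decomp w
  have key : ∀ s ∈ X, f s (w₁ + w₂) = f s w₂ := fun s hs => by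
    rw [add_right hf, P.tsX _ hs _ h₁, zero_add]
  refine ⟨w₂, h₂, fun s hs hsS => ?_, ?_, ?_⟩
  · rw [← key s hs, hw0 s hsS]
  · rw [← key u hu, hw1]
  · rw [hf.herm, ← key u hu, hw1, map_one]

theorem exists_mem_orth (X : Submodule F (ι → F)) (u v : ι → F) (S : Submodule F (ι → F))
    (h : finrank F S + 2 < finrank F X) : ∃ x ∈ X, f x u = 0 ∧ f x v = 0 ∧ x ∉ S := by
  by_contra hcon
  push Not at hcon
  let L : X →ₗ[F] F × F := ((fLin hf u).domRestrict X).prod ((fLin hf v).domRestrict X)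
  have h1 := LinearMap.finrank_range_add_finrank_ker L
  have h2 : finrank F (LinearMap.range L) ≤ 2 := (Submodule.finrank_le _).trans (by simp)
  have h3 : (LinearMap.ker L).map X.subtype ≤ S := by
    rintro _ ⟨x, hx, rfl⟩
    have hx' : L x = 0 := hx
    have a1 : f x u = 0 := congrArg Prod.fst hx'
    have a2 : f x v = 0 := congrArg Prod.snd hx'
    exact hcon x x.2 a1 a2
  have h4 := Submodule.finrank_mono h3
  have h5 : finrank F ((LinearMap.ker L).map X.subtype) = finrank F (LinearMap.ker L) :=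
    (Submodule.equivMapOfInjective _ X.injective_subtype _).finrank_eq.symm
  omega

/-- The chain of commutators: from `E(c, d)` with independent `X`-components down to transvections. -/
theorem chain (P : Pair f X Y) (hdim : 7 ≤ finrank F X) {M : Subgroup (GL ι F)}
    (hE : ∀ p ∈ X, ∀ q ∈ Y, ∀ h : f p q = 0, E hf p q h ∈ M) {c₁ c₂ d₁ d₂ : ι → F} (hc₁ : c₁ ∈ X) (hc₂ : c₂ ∈ Y)
    (hd₁ : d₁ ∈ X) (hd₂ : d₂ ∈ Y) (hcc : f (c₁ + c₂) (c₁ + c₂) = 0) (hdd : f (d₁ + d₂) (d₁ + d₂) = 0)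
    (hcd : f (c₁ + c₂) (d₁ + d₂) = 0) (hM : E hf _ _ hcd ∈ M)
    (hc0 : c₁ ≠ 0) (hind : d₁ ∉ Submodule.span F {c₁}) :
    ∃ a ∈ X, a ≠ 0 ∧ ∃ ha : f a a = 0, ∀ t : F, E hf (t • a) a (by rw [hf.smul_left, ha, mul_zero]) ∈ M := by
  have span2 := finrank_span_pair_le (F := F) (ι := ι)
  -- first step
  obtain ⟨a₁, ha₁, a₁c, a₁d, a₁S⟩ := exists_mem_orth hf X c₂ d₂ (Submodule.span F {c₁, d₁})
    (by have := span2 c₁ d₁; omega)
  have hnp := not_mem_pair hind a₁S
  obtain ⟨b₁, hb₁, hb₁0, -, hb₁1⟩ := P.prescribe hf hd₁ hnp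
  have hb₁a : f a₁ b₁ = 0 := hb₁0 a₁ ha₁ (Submodule.mem_span_of_mem (by simp))
  have hb₁c : f c₁ b₁ = 0 := hb₁0 c₁ hc₁ (Submodule.mem_span_of_mem (by simp))
  have iso₁ := P.tsX _ ha₁ _ ha₁
  have isob₁ := P.tsY _ hb₁ _ hb₁
  have hac : f a₁ (c₁ + c₂) = 0 := by rw [add_right hf, P.tsX _ ha₁ _ hc₁, a₁c, add_zero]
  have s1 : E hf a₁ (c₁ + c₂) hac ∈ M := comm_mem hf (a := a₁) (b := b₁) iso₁ isob₁ hcc hdd hcd hb₁a hac
    (by rw [add_right hf, P.tsX _ ha₁ _ hd₁, a₁d, add_zero])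
    (by rw [add_right hf, P.tsY _ hb₁ _ hc₂, swap_zero hf hb₁c, add_zero])
    (by rw [add_right hf, P.tsY _ hb₁ _ hd₂, hb₁1, add_zero]) hM (hE _ ha₁ _ hb₁ _)
  -- second step
  have ha₁0 : a₁ ≠ 0 := by
    rintro rfl
    exact a₁S (Submodule.zero_mem _)
  obtain ⟨a₂, ha₂, a₂c, -, a₂S⟩ := exists_mem_orth hf X c₂ c₂ (Submodule.span F {a₁, c₁})
    (by have := span2 a₁ c₁; omega)
  have hc₁a₁ : c₁ ∉ Submodule.span F {a₁} :=
    not_mem_singleton_symm hc0 fun hmem => a₁S (Submodule.span_mono (by simp) hmem)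
  have hnp2 := not_mem_pair hc₁a₁ a₂S
  obtain ⟨b₂, hb₂, hb₂0, -, hb₂1⟩ := P.prescribe hf hc₁ hnp2
  have hb₂a₁ : f a₁ b₂ = 0 := hb₂0 a₁ ha₁ (Submodule.mem_span_of_mem (by simp))
  have hb₂a₂ : f a₂ b₂ = 0 := hb₂0 a₂ ha₂ (Submodule.mem_span_of_mem (by simp))
  have iso₂ := P.tsX _ ha₂ _ ha₂
  have isob₂ := P.tsY _ hb₂ _ hb₂
  have s2 : E hf a₂ a₁ (P.tsX _ ha₂ _ ha₁) ∈ M := comm_mem hf (a := a₂) (b := b₂) iso₂ isob₂ iso₁ hcc hac hb₂a₂
    (P.tsX _ ha₂ _ ha₁)
    (by rw [add_right hf, P.tsX _ ha₂ _ hc₁, a₂c, add_zero])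
    (swap_zero hf hb₂a₁)
    (by rw [add_right hf, P.tsY _ hb₂ _ hc₂, hb₂1, add_zero]) s1 (hE _ ha₂ _ hb₂ _)
  -- third step
  have ha₂0 : a₂ ≠ 0 := by
    rintro rfl
    exact a₂S (Submodule.zero_mem _)
  have hna : a₁ ∉ Submodule.span F {a₂} :=
    not_mem_singleton_symm ha₁0 fun hmem => a₂S (Submodule.span_mono (by simp) hmem)
  obtain ⟨b₃, hb₃, hb₃0, -, hb₃1⟩ := P.prescribe hf ha₁ hna
  have hb₃a₂ : f a₂ b₃ = 0 := hb₃0 a₂ ha₂ (Submodule.mem_span_singleton_self _)
  have isob₃ := P.tsY _ hb₃ _ hb₃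
  refine ⟨a₂, ha₂, ha₂0, iso₂, fun t => ?_⟩
  have hta : t • a₂ ∈ X := X.smul_mem _ ha₂
  exact comm_mem hf (a := t • a₂) (b := b₃) (c := a₂) (d := a₁) (P.tsX _ hta _ hta) isob₃ iso₂ iso₁
    (P.tsX _ ha₂ _ ha₁) (by rw [hf.smul_left, hb₃a₂, mul_zero])
    (P.tsX _ hta _ ha₂) (P.tsX _ hta _ ha₁) (swap_zero hf hb₃a₂) hb₃1 s2
    (hE _ hta _ hb₃ _)

/-- The set of isotropic vectors whose unitary transvections all lie in `M`. -/
def vecs (M : Subgroup (GL ι F)) : Set (ι → F) :=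
  {a | ∃ ha : f a a = 0, ∀ c : F, c + σ c = 0 → T hf (c • a) a (by rw [hf.smul_left, ha, mul_zero]) ∈ M}

theorem mulVec_mem_vecs {M : Subgroup (GL ι F)} {a : ι → F} (ha : a ∈ vecs hf M) {s : GL ι F} (hsM : s ∈ M)
    (hs : ∀ x y, f ((s : Matrix ι ι F) *ᵥ x) ((s : Matrix ι ι F) *ᵥ y) = f x y) :
    (s : Matrix ι ι F) *ᵥ a ∈ vecs hf M := by
  obtain ⟨h0, hT⟩ := ha
  refine ⟨by rw [hs, h0], fun c hc => ?_⟩
  have e := T_conj_iso hf s hs (c • a) a (by rw [hf.smul_left, h0, mul_zero])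
  rw [T_congr hf (Matrix.mulVec_smul _ c a) rfl] at e
  rw [← e]
  exact mul_mem (mul_mem hsM (hT c hc)) (inv_mem hsM)

theorem T_iso {a : ι → F} (ha : f a a = 0) {c : F} (hc : c + σ c = 0) (x y : ι → F) :
    f (((T hf (c • a) a (by rw [hf.smul_left, ha, mul_zero]) : GL ι F) : Matrix ι ι F) *ᵥ x)
      (((T hf (c • a) a (by rw [hf.smul_left, ha, mul_zero]) : GL ι F) : Matrix ι ι F) *ᵥ y) = f x y :=
  ((mem_isoGroup hf).1 (T_mem_isoGroup hf a c ha hc)).1 x y

/-- Two independent vectors of `X` are moved one to the other by `E(p, q)`. -/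
theorem exists_move (P : Pair f X Y) {a b : ι → F} (ha : a ∈ X) (hb : b ∈ X) (ha0 : a ≠ 0)
    (hab : b ∉ Submodule.span F {a}) :
    ∃ p ∈ X, ∃ q ∈ Y, ∃ h : f p q = 0, ((E hf p q h : GL ι F) : Matrix ι ι F) *ᵥ a = b := by
  have hS : a ∉ Submodule.span F {b - a} := by
    intro hmem
    obtain ⟨c, hc⟩ := Submodule.mem_span_singleton.1 hmem
    by_cases hc0 : c = 0
    · apply ha0
      rw [← hc, hc0, zero_smul]
    · apply hab
      rw [Submodule.mem_span_singleton]
      refine ⟨c⁻¹ * (1 + c), ?_⟩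
      have e : c • b = a + c • a := by
        have : c • b - c • a = a := by rw [← smul_sub]; exact hc
        calc c • b = (c • b - c • a) + c • a := by abel
          _ = a + c • a := by rw [this]
      calc (c⁻¹ * (1 + c)) • a = c⁻¹ • (a + c • a) := by module
        _ = c⁻¹ • (c • b) := by rw [e]
        _ = b := by rw [smul_smul, inv_mul_cancel₀ hc0, one_smul]
  obtain ⟨q, hq, hq0, hq1, -⟩ := P.prescribe hf ha hS
  have hp : b - a ∈ X := Submodule.sub_mem _ hb ha
  have h0 : f (b - a) q = 0 := hq0 _ hp (Submodule.mem_span_singleton_self _)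
  refine ⟨b - a, hp, q, hq, h0, ?_⟩
  have e2 : f a (b - a) = 0 := P.tsX _ ha _ hp
  rw [E_mulVec hf h0 (P.tsY _ hq _ hq), hq1, e2]
  module

/-- Transitivity on `X \ 0`. -/
theorem exists_transit (P : Pair f X Y) (hdim : 7 ≤ finrank F X) {M : Subgroup (GL ι F)}
    (hE : ∀ p ∈ X, ∀ q ∈ Y, ∀ h : f p q = 0, E hf p q h ∈ M) {a b : ι → F} (ha : a ∈ X) (hb : b ∈ X)
    (ha0 : a ≠ 0) (hb0 : b ≠ 0) :
    ∃ k ∈ M, (∀ x y, f ((k : Matrix ι ι F) *ᵥ x) ((k : Matrix ι ι F) *ᵥ y) = f x y) ∧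
      (k : Matrix ι ι F) *ᵥ a = b := by
  obtain ⟨z, hz, -, -, hzS⟩ := exists_mem_orth hf X 0 0 (Submodule.span F {a, b})
    (by have := finrank_span_pair_le a b; omega)
  have hz0 : z ≠ 0 := by
    rintro rfl
    exact hzS (Submodule.zero_mem _)
  have h1 : z ∉ Submodule.span F {a} := fun hmem => hzS (Submodule.span_mono (by simp) hmem)
  have h2 : z ∉ Submodule.span F {b} := fun hmem => hzS (Submodule.span_mono (by simp) hmem)
  obtain ⟨p₁, hp₁, q₁, hq₁, h₁, e₁⟩ := exists_move hf P ha hz ha0 h1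
  obtain ⟨p₂, hp₂, q₂, hq₂, h₂, e₂⟩ := exists_move hf P hz hb hz0 (not_mem_singleton_symm hb0 h2)
  refine ⟨E hf p₂ q₂ h₂ * E hf p₁ q₁ h₁, mul_mem (hE _ hp₂ _ hq₂ _) (hE _ hp₁ _ hq₁ _), fun x y => ?_, ?_⟩
  · simp only [Units.val_mul, ← Matrix.mulVec_mulVec]
    rw [E_iso hf (P.tsX _ hp₂ _ hp₂) (P.tsY _ hq₂ _ hq₂), E_iso hf (P.tsX _ hp₁ _ hp₁) (P.tsY _ hq₁ _ hq₁)]
  · rw [Units.val_mul, ← Matrix.mulVec_mulVec, e₁, e₂]

theorem all_X (P : Pair f X Y) (hdim : 7 ≤ finrank F X) {M : Subgroup (GL ι F)}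
    (hE : ∀ p ∈ X, ∀ q ∈ Y, ∀ h : f p q = 0, E hf p q h ∈ M) {a₀ : ι → F} (ha₀ : a₀ ∈ X) (h0 : a₀ ≠ 0)
    (hT : a₀ ∈ vecs hf M) : ∀ a ∈ X, a ∈ vecs hf M := by
  intro a ha
  by_cases ha0 : a = 0
  · rw [ha0]
    refine ⟨zero_left hf 0, fun c _ => ?_⟩
    have : T hf (c • (0 : ι → F)) 0 (by rw [hf.smul_left, zero_left hf, mul_zero]) = 1 := T_zero_right hf _ _
    rw [this]
    exact one_mem _
  · obtain ⟨k, hkM, hk, hka⟩ := exists_transit hf P hdim hE ha₀ ha h0 ha0
    rw [← hka]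
    exact mulVec_mem_vecs hf hT hkM hk

/-- From `X ∪ Y` to all isotropic vectors. -/
theorem all_vecs (P : Pair f X Y) {M : Subgroup (GL ι F)} (hX : ∀ a ∈ X, a ∈ vecs hf M)
    (hY : ∀ a ∈ Y, a ∈ vecs hf M) {w : ι → F} (hw : f w w = 0) : w ∈ vecs hf M := by
  obtain ⟨x₁, h₁, x₂, h₂, rfl⟩ := P.decomp w
  -- the case of a nonzero pairing
  have key : ∀ {a b : ι → F}, a ∈ X → b ∈ Y → f a b ≠ 0 → f a b + σ (f a b) = 0 → a + b ∈ vecs hf M := by
    intro a b ha hb hne htr
    obtain ⟨hb0, hbT⟩ := hY b hb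
    set t := f a b with ht
    have hc : t⁻¹ + σ t⁻¹ = 0 := by
      rw [map_inv₀]
      have hσ : σ t = - t := by linear_combination htr
      rw [hσ, inv_neg]
      ring
    have := mulVec_mem_vecs hf (hX a ha) (hbT _ hc) (T_iso hf hb0 hc)
    rw [T_mulVec, ← ht, smul_smul, mul_comm t, inv_mul_cancel₀ hne, one_smul] at this
    exact this
  have hself : f (x₁ + x₂) (x₁ + x₂) = f x₁ x₂ + σ (f x₁ x₂) := by
    rw [self_add hf, P.tsX _ h₁ _ h₁, P.tsY _ h₂ _ h₂, zero_add, zero_add]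
  by_cases ht : f x₁ x₂ = 0
  · by_cases hx₂ : x₂ = 0
    · rw [hx₂, add_zero]
      exact hX _ h₁
    obtain ⟨p, hp, -, hp1, hp2⟩ := P.symm.prescribe hf (S := ⊥) h₂ (by simpa using hx₂)
    obtain ⟨c₀, hc0, hc⟩ := exists_tr0 hf.ne_refl hf.involutive
    have hmem : x₁ + c₀ • p ∈ X := X.add_mem h₁ (X.smul_mem _ hp)
    have e1 : f (x₁ + c₀ • p) x₂ = c₀ := by
      rw [hf.add_left, hf.smul_left, ht, hp2, zero_add, mul_one]
    have hv := key hmem h₂ (by rw [e1]; exact hc0) (by rw [e1]; exact hc)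
    obtain ⟨hp0, hpT⟩ := hX p hp
    have hc' : (-c₀) + σ (-c₀) = 0 := by
      rw [map_neg]
      linear_combination -hc
    have := mulVec_mem_vecs hf hv (hpT _ hc') (T_iso hf hp0 hc')
    rw [T_mulVec] at this
    have e2 : f (x₁ + c₀ • p + x₂) p = 1 := by
      rw [hf.add_left, hf.add_left, hf.smul_left, P.tsX _ h₁ _ hp, hp0, hp1]
      ring
    rw [e2] at this
    have e3 : x₁ + c₀ • p + x₂ + (1 : F) • (-c₀) • p = x₁ + x₂ := by module
    rwa [e3] at this
  · exact key h₁ h₂ ht (by rw [← hself]; exact hw)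

/-- A trace-zero element is some `t - σ t`. -/
theorem exists_sub_sigma {c : F} (hc : c + σ c = 0) : ∃ t, t - σ t = c := by
  obtain ⟨c₀, hc0, hc₀⟩ := exists_tr0 hf.ne_refl hf.involutive
  have hσ₀ : σ c₀ = - c₀ := by linear_combination hc₀
  have hσ : σ c = - c := by linear_combination hc
  obtain ⟨x, hx⟩ := exists_trace hf.ne_refl hf.involutive (c * c₀⁻¹) (by
    rw [map_mul, map_inv₀, hσ, hσ₀, inv_neg]
    ring)
  refine ⟨x * c₀, ?_⟩
  rw [map_mul, hσ₀]
  calc x * c₀ - σ x * -c₀ = (x + σ x) * c₀ := by ring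
    _ = c := by rw [hx, mul_assoc, inv_mul_cancel₀ hc0, mul_one]

section Swap

/-- The nilpotent map `x ↦ c ∑ f(x, w i) w i`. -/
noncomputable def famN {r : ℕ} (w : Fin r → ι → F) (c : F) : (ι → F) →ₗ[F] (ι → F) :=
  c • ∑ i, (fLin hf (w i)).smulRight (w i)

theorem famN_apply {r : ℕ} (w : Fin r → ι → F) (c : F) (x : ι → F) :
    famN hf w c x = c • ∑ i, f x (w i) • w i := by
  simp [famN, LinearMap.sum_apply]

theorem famN_of_orth {r : ℕ} {w : Fin r → ι → F} (c : F) {x : ι → F} (hx : ∀ i, f x (w i) = 0) :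
    famN hf w c x = 0 := by
  rw [famN_apply]
  simp [hx]

theorem famN_famN {r : ℕ} {w : Fin r → ι → F} (hw : ∀ i j, f (w i) (w j) = 0) (c : F) (x : ι → F) :
    famN hf w c (famN hf w c x) = 0 := by
  apply famN_of_orth
  intro j
  have h : ∀ (s : Finset (Fin r)) (g : Fin r → ι → F), f (∑ i ∈ s, g i) (w j) = ∑ i ∈ s, f (g i) (w j) :=
    fun s g => map_sum (fLin hf (w j)) g s
  rw [famN_apply, hf.smul_left, h]
  simp [hf.smul_left, hw]

theorem right_sum (y : ι → F) {r : ℕ} (g : Fin r → ι → F) : f y (∑ i, g i) = ∑ i, f y (g i) := by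
  have : ∀ s : Finset (Fin r), f y (∑ i ∈ s, g i) = ∑ i ∈ s, f y (g i) := by
    intro s
    induction s using Finset.induction_on with
    | empty => simp [zero_right hf]
    | insert a s ha ih => rw [Finset.sum_insert ha, Finset.sum_insert ha, add_right hf, ih]
  exact this _

theorem left_sum (y : ι → F) {r : ℕ} (g : Fin r → ι → F) : f (∑ i, g i) y = ∑ i, f (g i) y :=
  map_sum (fLin hf y) g _

/-- The family transvection is an isometry. -/
theorem famN_iso {r : ℕ} {w : Fin r → ι → F} (hw : ∀ i j, f (w i) (w j) = 0) {c : F} (hc : c + σ c = 0)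
    (x y : ι → F) : f (x + famN hf w c x) (y + famN hf w c y) = f x y := by
  have h1 : f (famN hf w c x) (famN hf w c y) = 0 := by
    rw [famN_apply, famN_apply, hf.smul_left, smul_right hf, left_sum hf]
    have : ∀ i, f (f x (w i) • w i) (∑ j, f y (w j) • w j) = 0 := by
      intro i
      rw [hf.smul_left, right_sum hf]
      simp [smul_right hf, hw]
    simp [this]
  have h2 : f x (famN hf w c y) = σ c * ∑ i, f x (w i) * f (w i) y := by
    rw [famN_apply, smul_right hf, right_sum hf]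
    congr 1
    refine Finset.sum_congr rfl fun i _ => ?_
    rw [smul_right hf, ← hf.herm, mul_comm]
  have h3 : f (famN hf w c x) y = c * ∑ i, f x (w i) * f (w i) y := by
    rw [famN_apply, hf.smul_left, left_sum hf]
    congr 1
    refine Finset.sum_congr rfl fun i _ => ?_
    rw [hf.smul_left]
  rw [hf.add_left, add_right hf, add_right hf, h1, h2, h3]
  linear_combination (∑ i, f x (w i) * f (w i) y) * hc

/-- The family transvection as an isometry of determinant one. -/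
noncomputable def famU {r : ℕ} (w : Fin r → ι → F) (hw : ∀ i j, f (w i) (w j) = 0) (c : F) : GL ι F :=
  unip (famN hf w c) (famN_famN hf hw c)

theorem famU_mulVec {r : ℕ} (w : Fin r → ι → F) (hw : ∀ i j, f (w i) (w j) = 0) (c : F) (x : ι → F) :
    ((famU hf w hw c : GL ι F) : Matrix ι ι F) *ᵥ x = x + famN hf w c x :=
  unip_mulVec _ _ _

theorem famU_mem {r : ℕ} (w : Fin r → ι → F) (hw : ∀ i j, f (w i) (w j) = 0) {c : F} (hc : c + σ c = 0) :
    famU hf w hw c ∈ isoGroup hf := by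
  refine (mem_isoGroup hf).2 ⟨fun x y => ?_, unip_mem_SL _ _⟩
  rw [famU_mulVec, famU_mulVec]
  exact famN_iso hf hw hc x y

/-- A swap of `X` and `Y` in the special unitary group. -/
theorem exists_swap (P : Pair f X Y) :
    ∃ τ ∈ isoGroup hf, (∀ x ∈ X, (τ : Matrix ι ι F) *ᵥ x ∈ Y) ∧ (∀ x ∈ Y, (τ : Matrix ι ι F) *ᵥ x ∈ X) := by
  classical
  let b := Module.finBasis F X
  let e : Fin (finrank F X) → ι → F := fun i => (b i : ι → F)
  have he : ∀ i, e i ∈ X := fun i => (b i).2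
  have hf' : ∀ j : Fin (finrank F X), ∃ y ∈ Y, ∀ x : X, f x y = b.coord j x := by
    intro j
    obtain ⟨g, hg⟩ := LinearMap.exists_extend (b.coord j)
    obtain ⟨w, hw⟩ := exists_repr hf g
    obtain ⟨w₁, h₁, w₂, h₂, rfl⟩ := P.decomp w
    refine ⟨w₂, h₂, fun x => ?_⟩
    have h3 := hw x
    rw [add_right hf, P.tsX _ x.2 _ h₁, zero_add] at h3
    rw [← h3]
    exact LinearMap.congr_fun hg x
  choose d hdY hd using hf'
  have hed : ∀ i j, f (e i) (d j) = if j = i then 1 else 0 := by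
    intro i j
    rw [hd j (b i), Module.Basis.coord_apply, Module.Basis.repr_self, Finsupp.single_apply]
    simp [eq_comm]
  have hde : ∀ i j, f (d j) (e i) = if j = i then 1 else 0 := by
    intro i j
    rw [hf.herm, hed]
    split_ifs <;> simp
  have hee : ∀ i j, f (e i) (e j) = 0 := fun i j => P.tsX _ (he i) _ (he j)
  have hdd : ∀ i j, f (d i) (d j) = 0 := fun i j => P.tsY _ (hdY i) _ (hdY j)
  -- expansions
  have expX : ∀ x ∈ X, x = ∑ i, f x (d i) • e i := by
    intro x hx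
    have := b.sum_repr ⟨x, hx⟩
    have h3 := congrArg (Subtype.val) this
    simp only [Submodule.coe_sum, Submodule.coe_smul] at h3
    conv_lhs => rw [← h3]
    refine Finset.sum_congr rfl fun i _ => ?_
    have h4 : f x (d i) = _ := hd i ⟨x, hx⟩
    rw [Module.Basis.coord_apply] at h4
    rw [h4]
  have expY : ∀ y ∈ Y, y = ∑ i, f y (e i) • d i := by
    intro y hy
    rw [← sub_eq_zero]
    have hmem : y - ∑ i, f y (e i) • d i ∈ Y := Y.sub_mem hy (Y.sum_mem fun i _ => Y.smul_mem _ (hdY i))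
    apply P.orth_eq_zero hf hmem
    intro x hx
    have hxe : ∀ j, f (e j) (y - ∑ i, f y (e i) • d i) = 0 := by
      intro j
      rw [sub_right hf, right_sum hf]
      simp only [smul_right hf, hed, mul_ite, mul_one, mul_zero, Finset.sum_ite_eq', Finset.mem_univ, if_true]
      rw [← hf.herm, sub_self]
    rw [expX x hx, left_sum hf]
    simp [hf.smul_left, hxe]
  obtain ⟨c₀, hc0, hc⟩ := exists_tr0 hf.ne_refl hf.involutive
  have hσ₀ : σ c₀ = - c₀ := by linear_combination hc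
  set s : F := -c₀⁻¹ with hs
  have hstr : s + σ s = 0 := by
    rw [hs, map_neg, map_inv₀, hσ₀, inv_neg]
    ring
  have hsc : s * c₀ = -1 := by rw [hs, neg_mul, inv_mul_cancel₀ hc0]
  -- the compositions
  have N12 : ∀ x ∈ X, famN hf e 1 (famN hf d 1 x) = x := by
    intro x hx
    conv_rhs => rw [expX x hx]
    rw [famN_apply, one_smul]
    refine Finset.sum_congr rfl fun i _ => ?_
    congr 1
    rw [famN_apply, one_smul, left_sum hf]
    simp only [hf.smul_left, hde, mul_ite, mul_one, mul_zero, Finset.sum_ite_eq', Finset.sum_ite_eq,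
      Finset.mem_univ, if_true]
  have N21 : ∀ y ∈ Y, famN hf d 1 (famN hf e 1 y) = y := by
    intro y hy
    conv_rhs => rw [expY y hy]
    rw [famN_apply, one_smul]
    refine Finset.sum_congr rfl fun i _ => ?_
    congr 1
    rw [famN_apply, one_smul, left_sum hf]
    simp only [hf.smul_left, hed, mul_ite, mul_one, mul_zero, Finset.sum_ite_eq', Finset.sum_ite_eq,
      Finset.mem_univ, if_true]
  have scale : ∀ {r : ℕ} (w : Fin r → ι → F) (c : F) (x : ι → F), famN hf w c x = c • famN hf w 1 x := by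
    intro r w c x
    rw [famN_apply, famN_apply, one_smul]
  have inX : ∀ {c : F} {x : ι → F}, famN hf e c x ∈ X := by
    intro c x
    rw [famN_apply]
    exact X.smul_mem _ (X.sum_mem fun i _ => X.smul_mem _ (he i))
  have inY : ∀ {c : F} {x : ι → F}, famN hf d c x ∈ Y := by
    intro c x
    rw [famN_apply]
    exact Y.smul_mem _ (Y.sum_mem fun i _ => Y.smul_mem _ (hdY i))
  have vanX : ∀ {c : F} {x : ι → F}, x ∈ X → famN hf e c x = 0 := fun hx =>
    famN_of_orth hf _ fun i => P.tsX _ hx _ (he i)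
  have vanY : ∀ {c : F} {x : ι → F}, x ∈ Y → famN hf d c x = 0 := fun hx =>
    famN_of_orth hf _ fun i => P.tsY _ hx _ (hdY i)
  let A := famU hf e hee s
  let B := famU hf d hdd c₀
  have hAm : A ∈ isoGroup hf := famU_mem hf _ _ hstr
  have hBm : B ∈ isoGroup hf := famU_mem hf _ _ hc
  have hA : ∀ x, ((A : GL ι F) : Matrix ι ι F) *ᵥ x = x + famN hf e s x := famU_mulVec hf _ _ _
  have hB : ∀ x, ((B : GL ι F) : Matrix ι ι F) *ᵥ x = x + famN hf d c₀ x := famU_mulVec hf _ _ _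
  have hτ : ∀ x, ((A * B * A : GL ι F) : Matrix ι ι F) *ᵥ x =
      ((A : GL ι F) : Matrix ι ι F) *ᵥ (((B : GL ι F) : Matrix ι ι F) *ᵥ (((A : GL ι F) : Matrix ι ι F) *ᵥ x)) := by
    intro x
    rw [Units.val_mul, Units.val_mul, Matrix.mulVec_mulVec, Matrix.mulVec_mulVec, Matrix.mul_assoc]
  refine ⟨A * B * A, mul_mem (mul_mem hAm hBm) hAm, fun x hx => ?_, fun y hy => ?_⟩
  · rw [hτ, hA x, vanX hx, add_zero, hB, hA, map_add, vanX hx, zero_add]
    rw [scale d c₀ x, map_smul, scale e s, N12 x hx, smul_smul, mul_comm c₀, hsc]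
    have : x + c₀ • famN hf d 1 x + (-1 : F) • x = c₀ • famN hf d 1 x := by module
    rw [this]
    exact Y.smul_mem _ inY
  · rw [hτ, hA y, hB, map_add, vanY hy, zero_add, scale d c₀ (famN hf e s y), scale e s y, map_smul,
      N21 y hy, smul_smul, mul_comm c₀, hsc]
    have : y + s • famN hf e 1 y + (-1 : F) • y = s • famN hf e 1 y := by module
    rw [this, hA, map_smul, vanX inX, smul_zero, add_zero]
    exact X.smul_mem _ inX

end Swap

/-- Independent images. -/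
theorem exists_good_pair (P : Pair f X Y) {Z : Submodule F (ι → F)} (T : (ι → F) →ₗ[F] (ι → F))
    (hsurj : Z ≤ LinearMap.range T) (hZ : 4 < finrank F Z) {a₀ b₀ : ι → F} (ha₀ : a₀ ∈ X) (hb₀ : b₀ ∈ Y)
    (hT₀ : T a₀ ≠ 0) (hT₁ : T b₀ ≠ 0) :
    ∃ a ∈ X, ∃ b ∈ Y, f a b = 0 ∧ T a ≠ 0 ∧ T b ∉ Submodule.span F {T a} := by
  by_contra hcon
  push Not at hcon
  have ha₀0 : a₀ ≠ 0 := by
    rintro rfl
    simp at hT₀
  have hb₀0 : b₀ ≠ 0 := by
    rintro rfl
    simp at hT₁
  obtain ⟨a₁, ha₁, -, -, ha₁1⟩ := P.symm.prescribe hf (S := ⊥) hb₀ (by simpa using hb₀0)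
  obtain ⟨b₁, hb₁, -, -, hb₁1⟩ := P.prescribe hf (S := ⊥) ha₀ (by simpa using ha₀0)
  let S : Submodule F (ι → F) := Submodule.span F {T b₀, T a₁} ⊔ Submodule.span F {T a₀, T b₁}
  have hS : finrank F S ≤ 4 := by
    have h1 := Submodule.finrank_add_le_finrank_add_finrank (Submodule.span F {T b₀, T a₁})
      (Submodule.span F {T a₀, T b₁})
    have h2 := finrank_span_pair_le (T b₀) (T a₁)
    have h3 := finrank_span_pair_le (T a₀) (T b₁)
    change finrank F ↥(Submodule.span F {T b₀, T a₁} ⊔ Submodule.span F {T a₀, T b₁}) ≤ 4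
    omega
  have hSX : ∀ a ∈ X, T a ∈ S := by
    intro a ha
    have hmem : a - f a b₀ • a₁ ∈ X := X.sub_mem ha (X.smul_mem _ ha₁)
    have h0 : f (a - f a b₀ • a₁) b₀ = 0 := by
      rw [sub_left hf, hf.smul_left, ha₁1, mul_one, sub_self]
    have hin : T (a - f a b₀ • a₁) ∈ Submodule.span F {T b₀} := by
      by_cases hz : T (a - f a b₀ • a₁) = 0
      · rw [hz]
        exact Submodule.zero_mem _
      · exact by_contra fun hnot => not_mem_singleton_symm hT₁ hnot (hcon _ hmem _ hb₀ h0 hz)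
    have e : T a = T (a - f a b₀ • a₁) + f a b₀ • T a₁ := by
      rw [map_sub, map_smul]
      abel
    rw [e]
    refine S.add_mem ?_ (S.smul_mem _ ?_)
    · exact Submodule.mem_sup_left (Submodule.span_mono (by simp) hin)
    · exact Submodule.mem_sup_left (Submodule.span_mono (by simp) (Submodule.mem_span_singleton_self _))
  have hSY : ∀ b ∈ Y, T b ∈ S := by
    intro b hb
    have hmem : b - f b a₀ • b₁ ∈ Y := Y.sub_mem hb (Y.smul_mem _ hb₁)
    have h0 : f a₀ (b - f b a₀ • b₁) = 0 := by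
      apply swap_zero hf
      rw [sub_left hf, hf.smul_left, hb₁1, mul_one, sub_self]
    have hin := hcon _ ha₀ _ hmem h0 hT₀
    have e : T b = T (b - f b a₀ • b₁) + f b a₀ • T b₁ := by
      rw [map_sub, map_smul]
      abel
    rw [e]
    refine S.add_mem ?_ (S.smul_mem _ ?_)
    · exact Submodule.mem_sup_right (Submodule.span_mono (by simp) hin)
    · exact Submodule.mem_sup_right (Submodule.span_mono (by simp) (Submodule.mem_span_singleton_self _))
  have hZS : Z ≤ S := by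
    intro z hz
    obtain ⟨x, rfl⟩ := hsurj hz
    obtain ⟨x₁, h₁, x₂, h₂, rfl⟩ := P.decomp x
    rw [map_add]
    exact S.add_mem (hSX _ h₁) (hSY _ h₂)
  have := Submodule.finrank_mono hZS
  omega

omit hf in
theorem prop_blocks {p q r s : Prop} (n1 : p ∨ r) (n2 : q ∨ s) (n3 : r ∨ q) (n4 : p ∨ s) :
    p ∧ q ∨ r ∧ s := by
  tauto

/-- The main theorem, given the generation of the isometry group by transvections. -/
theorem isMaximalIn_pair {k : ℕ} (hk : 7 ≤ k) (D : Fin 2 → Submodule F (ι → F))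
    (hD : IsMDecomposition k D) (hts : ∀ i, IsTotallySingularFor f (D i))
    (hgen : ∀ M : Subgroup (GL ι F), (∀ w, f w w = 0 → w ∈ vecs hf M) → isoGroup hf ≤ M) :
    IsMaximalIn (isoGroup hf) (decompositionStabilizer D ⊓ isoGroup hf) := by
  set X := D 0 with hX
  set Y := D 1 with hY
  have hdimX : finrank F X = k := hD.finrank_eq 0
  have hdimY : finrank F Y = k := hD.finrank_eq 1
  have hdim' : ∀ i j, finrank F (D i) = finrank F (D j) := fun i j => by
    rw [hD.finrank_eq, hD.finrank_eq]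
  have P : Pair f X Y := by
    refine ⟨hts 0, hts 1, ⟨hD.indep.pairwiseDisjoint (by simp), ?_⟩⟩
    rw [codisjoint_iff, eq_top_iff, ← hD.iSup_eq_top]
    apply iSup_le
    intro i
    fin_cases i
    · exact le_sup_left
    · exact le_sup_right
  have hX7 : 7 ≤ finrank F X := by omega
  have hY7 : 7 ≤ finrank F Y := by omega
  -- the elements `E(p, q)` and the swap lie in the stabiliser
  have hEH : ∀ p ∈ X, ∀ q ∈ Y, ∀ h : f p q = 0, E hf p q h ∈ decompositionStabilizer D ⊓ isoGroup hf := by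
    intro p hp q hq h
    have hpp := P.tsX _ hp _ hp
    have hqq := P.tsY _ hq _ hq
    refine ⟨mem_stab hdim' _ 1 ?_, E_mem hf hpp hqq h⟩
    intro i
    fin_cases i
    · intro x hx
      change _ ∈ X
      rw [E_mulVec hf h hqq, P.tsX _ hx _ hp, zero_smul, sub_zero]
      exact X.add_mem hx (X.smul_mem _ hp)
    · intro x hx
      change _ ∈ Y
      rw [E_mulVec hf h hqq, P.tsY _ hx _ hq, zero_smul, add_zero]
      exact Y.sub_mem hx (Y.smul_mem _ hq)
  obtain ⟨τ, hτS, hτ1, hτ2⟩ := exists_swap hf P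
  have hτH : τ ∈ decompositionStabilizer D ⊓ isoGroup hf := by
    refine ⟨mem_stab hdim' _ (Equiv.swap 0 1) ?_, hτS⟩
    intro i
    fin_cases i
    · simpa using hτ1
    · simpa using hτ2
  have hτiso := ((mem_isoGroup hf).1 hτS).1
  have hτact : act τ X = Y := by
    apply Submodule.eq_of_le_of_finrank_eq
    · rintro _ ⟨x, hx, rfl⟩
      exact hτ1 x hx
    · rw [finrank_act, hdimX, hdimY]
  -- strictness
  have hpos : X ≠ ⊥ := by
    intro h
    rw [h, finrank_bot] at hdimX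
    omega
  obtain ⟨a, ha, ha0⟩ := Submodule.exists_mem_ne_zero_of_ne_bot hpos
  obtain ⟨b, hb, -, -, hb1⟩ := P.prescribe hf (S := ⊥) ha (by simpa using ha0)
  obtain ⟨c₀, hc0, hc⟩ := exists_tr0 hf.ne_refl hf.involutive
  have haa := P.tsX _ ha _ ha
  refine ⟨lt_of_le_of_mem_not_mem inf_le_right (T_mem_isoGroup hf a c₀ haa hc) ?_, ?_⟩
  · rintro ⟨⟨π, hπ⟩, -⟩
    have hb' : c₀⁻¹ • b ∈ Y := Y.smul_mem _ hb
    have h1 : ((T hf (c₀ • a) a (by rw [hf.smul_left, haa, mul_zero]) : GL ι F) : Matrix ι ι F) *ᵥ (c₀⁻¹ • b)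
        ∈ D (π 1) := by
      rw [← hπ 1]
      exact ⟨_, hb', rfl⟩
    have e : f (c₀⁻¹ • b) a • c₀ • a = a := by
      rw [hf.smul_left, hb1, mul_one, smul_smul, inv_mul_cancel₀ hc0, one_smul]
    rw [T_mulVec, e] at h1
    have hdisj : ∀ z, z ∈ X → z ∈ Y → z = 0 := fun z h₁ h₂ =>
      (Submodule.disjoint_def.1 P.compl.disjoint) z h₁ h₂
    have hs : π 1 = 0 ∨ π 1 = 1 := by
      generalize π 1 = s
      fin_cases s <;> simp
    rcases hs with hs | hs
    · rw [hs] at h1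
      have : c₀⁻¹ • b ∈ X := by
        have := X.sub_mem h1 ha
        simpa using this
      have h0 := hdisj _ this hb'
      have h5 : b = 0 := (smul_eq_zero.1 h0).resolve_left (inv_ne_zero hc0)
      rw [h5, zero_left hf] at hb1
      exact zero_ne_one hb1
    · rw [hs] at h1
      have : a ∈ Y := by
        have := Y.sub_mem h1 hb'
        simpa using this
      exact ha0 (hdisj a ha this)
  · intro M hHM hMS
    by_cases hMH : M ≤ decompositionStabilizer D ⊓ isoGroup hf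
    · exact Or.inl (le_antisymm hMH hHM)
    right
    apply le_antisymm hMS
    obtain ⟨g, hgM, hgH⟩ := SetLike.not_le_iff_exists.1 hMH
    have hgS := hMS hgM
    have hgiso := ((mem_isoGroup hf).1 hgS).1
    have hg0 : g ∉ decompositionStabilizer D := fun h => hgH ⟨h, hgS⟩
    obtain ⟨π, hπ1, hπ2, hπ3, hπ4⟩ := Decomp.exists_projections hD.indep hD.iSup_eq_top
    have hsum : ∀ x, π 0 x + π 1 x = x := fun x => by
      have := hπ4 x
      rwa [Fin.sum_univ_two] at this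
    have hE : ∀ p ∈ X, ∀ q ∈ Y, ∀ h : f p q = 0, E hf p q h ∈ M := fun p hp q hq h => hHM (hEH p hp q hq h)
    -- on the other side the element `E(p, q)` is inverted
    have hE' : ∀ p ∈ Y, ∀ q ∈ X, ∀ h : f p q = 0, E hf p q h ∈ M := fun p hp q hq h => by
      have h0 := swap_zero hf h
      have hpp := P.tsY _ hp _ hp
      have hqq := P.tsX _ hq _ hq
      have e : E hf p q h = (E hf q p h0)⁻¹ := by
        apply eq_inv_of_mul_eq_one_left
        apply gl_ext
        intro x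
        simp only [Units.val_mul, ← Matrix.mulVec_mulVec, E_mulVec hf h hqq, E_mulVec hf h0 hpp, Units.val_one,
          Matrix.one_mulVec, sub_left hf, hf.add_left, hf.smul_left, hpp, hqq, h, h0]
        module
      rw [e]
      exact inv_mem (hE q hq p hp h0)
    -- the blocks
    let G : (ι → F) →ₗ[F] (ι → F) := Matrix.toLin' (g : Matrix ι ι F)
    have hG : ∀ x, G x = (g : Matrix ι ι F) *ᵥ x := fun x => rfl
    have hcases : (∃ a ∈ X, π 0 (G a) ≠ 0) ∧ (∃ b ∈ Y, π 0 (G b) ≠ 0) ∨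
        (∃ a ∈ X, π 1 (G a) ≠ 0) ∧ (∃ b ∈ Y, π 1 (G b) ≠ 0) := by
      have n1 : (∃ a ∈ X, π 0 (G a) ≠ 0) ∨ (∃ a ∈ X, π 1 (G a) ≠ 0) := by
        by_contra hh
        push Not at hh
        apply ha0
        have := hsum (G a)
        rw [hh.1 a ha, hh.2 a ha, add_zero] at this
        exact mulVec_injective g (by simpa [hG] using this.symm)
      have n2 : (∃ a ∈ Y, π 0 (G a) ≠ 0) ∨ (∃ a ∈ Y, π 1 (G a) ≠ 0) := by
        by_contra hh
        push Not at hh
        have hb0 : b = 0 := by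
          have := hsum (G b)
          rw [hh.1 b hb, hh.2 b hb, add_zero] at this
          exact mulVec_injective g (by simpa [hG] using this.symm)
        rw [hb0, zero_left hf] at hb1
        exact zero_ne_one hb1
      have n3 : (∃ a ∈ X, π 1 (G a) ≠ 0) ∨ (∃ a ∈ Y, π 0 (G a) ≠ 0) := by
        by_contra hh
        push Not at hh
        apply hg0
        refine mem_stab hdim' g 1 ?_
        intro i
        fin_cases i
        · intro x hx
          have := hsum (G x)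
          rw [hh.1 x hx, add_zero] at this
          rw [← hG, ← this]
          exact hπ1 _ _
        · intro x hx
          have := hsum (G x)
          rw [hh.2 x hx, zero_add] at this
          rw [← hG, ← this]
          exact hπ1 _ _
      have n4 : (∃ a ∈ X, π 0 (G a) ≠ 0) ∨ (∃ a ∈ Y, π 1 (G a) ≠ 0) := by
        by_contra hh
        push Not at hh
        apply hg0
        refine mem_stab hdim' g (Equiv.swap 0 1) ?_
        intro i
        fin_cases i
        · intro x hx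
          have := hsum (G x)
          rw [hh.1 x hx, zero_add] at this
          simp only [Fin.zero_eta, Equiv.swap_apply_left]
          rw [← hG, ← this]
          exact hπ1 _ _
        · intro x hx
          have := hsum (G x)
          rw [hh.2 x hx, add_zero] at this
          simp only [Fin.mk_one, Equiv.swap_apply_right]
          rw [← hG, ← this]
          exact hπ1 _ _
      exact prop_blocks n1 n2 n3 n4
    have hrange : ∀ i, D i ≤ LinearMap.range (π i ∘ₗ G) := by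
      intro i z hz
      refine ⟨((g⁻¹ : GL ι F) : Matrix ι ι F) *ᵥ z, ?_⟩
      change π i ((g : Matrix ι ι F) *ᵥ (((g⁻¹ : GL ι F) : Matrix ι ι F) *ᵥ z)) = z
      rw [mulVec_inv_mulVec, hπ2 i z hz]
    have hconj : ∀ a b : ι → F, f b b = 0 → ∀ h : f a b = 0, E hf a b h ∈ M →
        ∀ h' : f ((g : Matrix ι ι F) *ᵥ a) ((g : Matrix ι ι F) *ᵥ b) = 0, E hf _ _ h' ∈ M := by
      intro a b hbb h hM h'
      rw [← conj_E hf hgiso h hbb h']
      exact mul_mem (mul_mem hgM hM) (inv_mem hgM)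
    -- a vector in `X` or `Y`
    have tovec : ∀ {a : ι → F} (ha : f a a = 0),
        (∀ t : F, E hf (t • a) a (by rw [hf.smul_left, ha, mul_zero]) ∈ M) → a ∈ vecs hf M := by
      intro a ha h
      refine ⟨ha, fun c hc' => ?_⟩
      obtain ⟨t, rfl⟩ := exists_sub_sigma hf hc'
      rw [← E_smul_self hf ha]
      exact h t
    have hfin : (∃ a ∈ X, a ≠ 0 ∧ a ∈ vecs hf M) ∨ (∃ a ∈ Y, a ≠ 0 ∧ a ∈ vecs hf M) := by
      rcases hcases with ⟨⟨a₀, ha₀, h₀⟩, ⟨b₀, hb₀, h₁⟩⟩ | ⟨⟨a₀, ha₀, h₀⟩, ⟨b₀, hb₀, h₁⟩⟩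
      · left
        obtain ⟨a', ha', b', hb', hab, hn, hi⟩ := exists_good_pair hf P (π 0 ∘ₗ G) (hrange 0)
          (by rw [hdimX]; omega) ha₀ hb₀ h₀ h₁
        have hcd : f (π 0 (G a') + π 1 (G a')) (π 0 (G b') + π 1 (G b')) = 0 := by
          rw [hsum, hsum, hG, hG, hgiso, hab]
        have hcc : f (π 0 (G a') + π 1 (G a')) (π 0 (G a') + π 1 (G a')) = 0 := by
          rw [hsum, hG, hgiso]
          exact P.tsX _ ha' _ ha'
        have hdd : f (π 0 (G b') + π 1 (G b')) (π 0 (G b') + π 1 (G b')) = 0 := by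
          rw [hsum, hG, hgiso]
          exact P.tsY _ hb' _ hb'
        have hM := hconj a' b' (P.tsY _ hb' _ hb') hab (hE a' ha' b' hb' hab)
          (by rw [hgiso, hab])
        obtain ⟨z, hz, hz0, hzz, hzt⟩ := chain hf P hX7 hE (hπ1 0 _) (hπ1 1 _) (hπ1 0 _) (hπ1 1 _) hcc hdd hcd
          (by
            simp only [hsum, ← hG] at hM ⊢
            exact hM) hn hi
        exact ⟨z, hz, hz0, tovec hzz hzt⟩
      · right
        obtain ⟨a', ha', b', hb', hab, hn, hi⟩ := exists_good_pair hf P (π 1 ∘ₗ G) (hrange 1)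
          (by rw [hdimY]; omega) ha₀ hb₀ h₀ h₁
        have e1 : ∀ x, π 1 x + π 0 x = x := fun x => by rw [add_comm, hsum]
        have hcd : f (π 1 (G a') + π 0 (G a')) (π 1 (G b') + π 0 (G b')) = 0 := by
          rw [e1, e1, hG, hG, hgiso, hab]
        have hcc : f (π 1 (G a') + π 0 (G a')) (π 1 (G a') + π 0 (G a')) = 0 := by
          rw [e1, hG, hgiso]
          exact P.tsX _ ha' _ ha'
        have hdd : f (π 1 (G b') + π 0 (G b')) (π 1 (G b') + π 0 (G b')) = 0 := by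
          rw [e1, hG, hgiso]
          exact P.tsY _ hb' _ hb'
        have hM := hconj a' b' (P.tsY _ hb' _ hb') hab (hE a' ha' b' hb' hab)
          (by rw [hgiso, hab])
        obtain ⟨z, hz, hz0, hzz, hzt⟩ := chain hf P.symm hY7 hE' (hπ1 1 _) (hπ1 0 _) (hπ1 1 _) (hπ1 0 _) hcc hdd hcd
          (by
            simp only [e1, ← hG] at hM ⊢
            exact hM) hn hi
        exact ⟨z, hz, hz0, tovec hzz hzt⟩
    have hτM : τ ∈ M := hHM hτH
    -- both `X` and `Y` consist of centres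
    have hboth : (∀ a ∈ X, a ∈ vecs hf M) ∧ (∀ a ∈ Y, a ∈ vecs hf M) := by
      rcases hfin with ⟨a₀, ha₀, h0, hT⟩ | ⟨b₀, hb₀, h0, hT⟩
      · have hx := all_X hf P hX7 hE ha₀ h0 hT
        refine ⟨hx, fun y hy => ?_⟩
        rw [← hτact] at hy
        obtain ⟨x, hx', rfl⟩ := (mem_act_iff τ X y).1 hy
        exact mulVec_mem_vecs hf (hx x hx') hτM hτiso
      · have hy := all_X hf P.symm hY7 hE' hb₀ h0 hT
        have hτb : (τ : Matrix ι ι F) *ᵥ b₀ ∈ X := hτ2 _ hb₀
        have hτb0 : (τ : Matrix ι ι F) *ᵥ b₀ ≠ 0 := by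
          intro h
          apply h0
          apply mulVec_injective τ
          simpa using h
        have hT' : (τ : Matrix ι ι F) *ᵥ b₀ ∈ vecs hf M := mulVec_mem_vecs hf hT hτM hτiso
        exact ⟨all_X hf P hX7 hE hτb hτb0 hT', hy⟩
    exact hgen M fun w hw => all_vecs hf P hboth.1 hboth.2 hw

end Cfsg.Agent.Lib.Classical.Geo.UPair
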