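/-
The standard Hermitian form as an `IsUnitaryForm`, and the generation of `GU ⊓ SL` by unitary transvections in `GL`.
-/
import Mathlib
import Cfsg.Agent.Lib.Classical.Geo.UPair
import Cfsg.Agent.Lib.Classical.Geo.HermTv
import Cfsg.Agent.Lib.Classical.Herm.Gen

set_option autoImplicit false
set_option linter.unusedSectionVars false

namespace Cfsg.Agent.Lib.Classical.Geo.HermBridge

open scoped Matrix
open Module Cfsg Cfsg.Geo Cfsg.Agent.Lib.Classical.Geo.Basic Cfsg.Agent.Lib.Classical.Geo.SympSim
open Cfsg.Agent.Lib.Classical.Geo.UForm Cfsg.Agent.Lib.Classical.Geo.HermTv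
open Cfsg.Agent.Lib.Classical.Herm.Basic Cfsg.Agent.Lib.Classical.Herm.GU Cfsg.Agent.Lib.Classical.Herm.SU
open Cfsg.Agent.Lib.Classical.Herm.Tv

variable {F : Type*} [Field F] [Fintype F] {n q : ℕ}

/-- The automorphism `x ↦ x ^ q`. -/
noncomputable def sigmaEquiv (hF : Fintype.card F = q ^ 2) : F ≃+* F :=
  RingEquiv.ofRingHom (sigma hF) (sigma hF) (by ext x; exact sigma_sigma hF x) (by ext x; exact sigma_sigma hF x)

@[simp] theorem sigmaEquiv_apply (hF : Fintype.card F = q ^ 2) (x : F) : sigmaEquiv hF x = x ^ q := rfl

theorem isUnitaryForm (hF : Fintype.card F = q ^ 2) (n : ℕ) :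
    IsUnitaryForm (sigmaEquiv hF) (hermForm n F q) where
  ne_refl := by
    intro h
    apply sigma_ne_id hF
    ext x
    have := congrArg (fun e : F ≃+* F => e x) h
    exact this
  involutive a := sigma_sigma hF a
  add_left x y v := hermForm_add_left n x y v
  smul_left c x v := hermForm_smul_left n c x v
  herm v w := (hermForm_pow_q hF n w v).symm
  nondegenerate := by
    intro v hv
    constructor
    · by_contra hcon
      push Not at hcon
      exact hv (hermForm_nondegenerate_right hF n v hcon)
    · by_contra hcon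
      push Not at hcon
      exact hv (hermForm_nondegenerate_left hF n v hcon)

/-- The embedding of the abstract special unitary group into `GL`. -/
noncomputable def suToGL : SU n F q →* GL (Fin n) F :=
  (Matrix.SpecialLinearGroup.toGL).comp (SU n F q).subtype

theorem suToGL_coe (A : SU n F q) :
    ((suToGL A : GL (Fin n) F) : Matrix (Fin n) (Fin n) F) = mat A := rfl

/-- Transvections generate `GU ⊓ SL`. -/
theorem su_le (hF : Fintype.card F = q ^ 2) (hn : 3 ≤ n) (h32 : ¬ (n = 3 ∧ q = 2)) (M : Subgroup (GL (Fin n) F))
    (h : ∀ (a : Fin n → F) (c : F) (ha : hermForm n F q a a = 0), c + c ^ q = 0 → hT q c a ha ∈ M) :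
    GU n F q ⊓ specialLinear (Fin n) F ≤ M := by
  have hK : Cfsg.Agent.Lib.Classical.Herm.Tv.T n F q ≤ M.comap suToGL := by
    apply (Subgroup.closure_le _).2
    rintro A ⟨v, c, hv, hA⟩
    change suToGL A ∈ M
    by_cases hv0 : v = 0
    · have h1 : suToGL A = 1 := by
        apply gl_ext
        intro x
        rw [suToGL_coe, hA, unitaryTransvection_mulVec, hv0]
        simp
      rw [h1]
      exact one_mem _
    · have hc : c + c ^ q = 0 := by
        by_contra hne
        apply hv0
        apply hermForm_nondegenerate_right hF n v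
        intro x
        have h2 := preserves_su A x x
        have h3 : ((A : Matrix.SpecialLinearGroup (Fin n) F) : Matrix (Fin n) (Fin n) F) = unitaryTransvection n q v c := hA
        rw [h3, unitaryTransvection_mulVec, hermForm_add_left, hermForm_add_right hF, hermForm_add_right hF,
          hermForm_smul_left, hermForm_smul_left, hermForm_smul_right, hermForm_smul_right, hv, mul_pow,
          hermForm_pow_q hF] at h2
        have h4 : (c + c ^ q) * (hermForm n F q x v * hermForm n F q v x) = 0 := by linear_combination h2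
        have h5 := (mul_eq_zero.1 h4).resolve_left hne
        rcases mul_eq_zero.1 h5 with h6 | h6
        · exact h6
        · rw [← hermForm_pow_q hF, h6, zero_pow_q hF]
      have h1 : suToGL A = hT q c v hv := by
        apply gl_ext
        intro x
        rw [suToGL_coe, hA, unitaryTransvection_mulVec, hT_mulVec]
      rw [h1]
      exact h v c hv hc
  intro g hg
  have hgS : (g : Matrix (Fin n) (Fin n) F).det = 1 := (mem_specialLinear_iff g).1 hg.2
  let A : SU n F q := mkSU (g : Matrix (Fin n) (Fin n) F) hgS ((mem_GU_iff g).1 hg.1)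
  have hA : A ∈ Cfsg.Agent.Lib.Classical.Herm.Tv.T n F q := by
    rw [Cfsg.Agent.Lib.Classical.Herm.Gen.T_eq_top hF hn h32]
    trivial
  have := hK hA
  have e : suToGL A = g := Units.ext rfl
  rw [Subgroup.mem_comap, e] at this
  exact this

/-- The generation hypothesis of `UPair`. -/
theorem hgen (hF : Fintype.card F = q ^ 2) (hn : 3 ≤ n) (h32 : ¬ (n = 3 ∧ q = 2)) (M : Subgroup (GL (Fin n) F))
    (h : ∀ w, hermForm n F q w w = 0 → w ∈ UPair.vecs (isUnitaryForm hF n) M) :
    isoGroup (isUnitaryForm hF n) ≤ M := by
  have := su_le hF hn h32 M (fun a c ha hc => by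
    obtain ⟨_, h2⟩ := h a ha
    have h3 := h2 c hc
    have e : T (isUnitaryForm hF n) (c • a) a (by rw [(isUnitaryForm hF n).smul_left, ha, mul_zero]) = hT q c a ha := by
      apply gl_ext
      intro x
      rw [T_mulVec, hT_mulVec]
      module
    rwa [e] at h3)
  exact this

end Cfsg.Agent.Lib.Classical.Geo.HermBridge
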