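/-
The Eichler transformations inside an overgroup: a subgroup of the orthogonal group containing, for every singular vector
`a`, the full group of Eichler transformations `E(a, b)`, contains `Ω`.  It is enough to have a hyperbolic pair of such
singular vectors.
-/
import Mathlib
import Cfsg.Agent.Lib.Classical.Orth.Simple
import Cfsg.Agent.Lib.Classical.Geo.Basic

set_option autoImplicit false
set_option linter.unusedSectionVars false

namespace Cfsg.Agent.Lib.Classical.Geo.OPts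

open scoped Matrix
open Module Cfsg Cfsg.Geo QuadraticMap
open Cfsg.Agent.Lib.Classical.Orth.Basic
open Cfsg.Agent.Lib.Classical.Orth.CartanDieudonne
open Cfsg.Agent.Lib.Classical.Orth.Adjust
open Cfsg.Agent.Lib.Classical.Orth.Siegel
open Cfsg.Agent.Lib.Classical.Orth.Generation
open Cfsg.Agent.Lib.Classical.Orth.Simple
open Cfsg.Agent.Lib.Classical.Witt.TS
open Cfsg.Agent.Lib.Classical.Witt.Hyp

variable {ι : Type} [Fintype ι] [DecidableEq ι] {F : Type*} [Field F] [Fintype F]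
variable {Q : QuadraticForm F (ι → F)}

set_option quotPrecheck false in
local notation "𝔣" => polar (⇑Q)

/-- The Eichler transformation as an element of `GL`. -/
noncomputable abbrev eG {z b : ι → F} (hz : Q z = 0) (hb : 𝔣 z b = 0) : GL ι F :=
  ((eichlerIso hz hb : ↥(Cfsg.isometryGroup F (⇑Q))) : GL ι F)

theorem eG_mulVec {z b : ι → F} (hz : Q z = 0) (hb : 𝔣 z b = 0) (x : ι → F) :
    (eG hz hb : Matrix ι ι F) *ᵥ x = x + (𝔣 z x) • b - (𝔣 b x) • z - (Q b * 𝔣 z x) • z :=
  act_eichlerIso hz hb x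

/-- The singular vectors `a` such that a group contains all the Eichler transformations `E(a, b)`. -/
def pts (M : Subgroup (GL ι F)) : Set (ι → F) :=
  {a | ∃ ha : Q a = 0, ∀ b, ∀ hb : 𝔣 a b = 0, eG ha hb ∈ M}

theorem smul_mem_pts {M : Subgroup (GL ι F)} {a : ι → F} (ha : a ∈ pts (Q := Q) M) (t : F) :
    t • a ∈ pts (Q := Q) M := by
  obtain ⟨h0, hE⟩ := ha
  have h1 : Q (t • a) = 0 := by rw [Q_smul, h0, mul_zero]
  refine ⟨h1, fun b hb => ?_⟩
  have hb' : 𝔣 a (t • b) = 0 := by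
    rw [polar_smul_left'] at hb
    rw [polar_smul_right', hb]
  have e : eichlerIso h1 hb = eichlerIso h0 hb' := eichlerIso_smul t h0 hb h1 hb'
  rw [eG, e]
  exact hE _ hb'

theorem act_mem_pts {M : Subgroup (GL ι F)} {a : ι → F} (ha : a ∈ pts (Q := Q) M)
    (g : ↥(Cfsg.isometryGroup F (⇑Q))) (hg : (g : GL ι F) ∈ M) : act g a ∈ pts (Q := Q) M := by
  obtain ⟨h0, hE⟩ := ha
  have h1 : Q (act g a) = 0 := by rw [Q_act, h0]
  refine ⟨h1, fun b hb => ?_⟩
  have hb' : 𝔣 a (act g⁻¹ b) = 0 := by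
    rw [← polar_act g, act_act_inv]
    exact hb
  have e := conj_eichlerIso g h0 hb'
  have e' : eichlerIso h1 hb = g * eichlerIso h0 hb' * g⁻¹ := by
    rw [e]
    exact eichlerIso_congr rfl (by rw [act_act_inv]) _ _ _ _
  rw [eG, e']
  have := M.mul_mem (M.mul_mem hg (hE _ hb')) (M.inv_mem hg)
  simpa using this

theorem zero_mem_pts (M : Subgroup (GL ι F)) : (0 : ι → F) ∈ pts (Q := Q) M := by
  have h0 : Q (0 : ι → F) = 0 := by simp
  refine ⟨h0, fun b hb => ?_⟩
  rw [eG, eichlerIso_zero_left h0 hb]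
  exact M.one_mem

/-- The basic step: `E(p, _)` is transitive on the singular vectors with a given polar value against `p`. -/
theorem pts_step {M : Subgroup (GL ι F)} {p z y : ι → F} (hp : p ∈ pts (Q := Q) M) (hz : z ∈ pts (Q := Q) M)
    (hy : Q y = 0) (hpz : 𝔣 p z ≠ 0) (hpy : 𝔣 p y ≠ 0) : y ∈ pts (Q := Q) M := by
  obtain ⟨hp0, hE⟩ := hp
  have hz0 := hz.1
  set s := (𝔣 p z)⁻¹ with hs
  set t := (𝔣 p y)⁻¹ with ht
  have hs0 : s ≠ 0 := inv_ne_zero hpz
  have ht0 : t ≠ 0 := inv_ne_zero hpy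
  have h1 : 𝔣 p (s • z) = 1 := by
    rw [polar_smul_right', hs, inv_mul_cancel₀ hpz]
  have h2 : 𝔣 p (t • y) = 1 := by
    rw [polar_smul_right', ht, inv_mul_cancel₀ hpy]
  have hb : 𝔣 p (t • y - s • z) = 0 := by
    rw [polar_sub_right, h1, h2, sub_self]
  have hz' : Q (s • z) = 0 := by rw [Q_smul, hz0, mul_zero]
  have hy' : Q (t • y) = 0 := by rw [Q_smul, hy, mul_zero]
  have hm := eichler_move hp0 hz' hy' h1 h2 hb
  have h3 : t • y ∈ pts (Q := Q) M := by
    rw [← hm]
    exact act_mem_pts (smul_mem_pts hz s) _ (hE _ hb)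
  have h4 := smul_mem_pts h3 t⁻¹
  rwa [smul_smul, inv_mul_cancel₀ ht0, one_smul] at h4

/-- A hyperbolic pair gives all the singular vectors. -/
theorem pts_all (hQ : (polarBilin Q).Nondegenerate) {M : Subgroup (GL ι F)} {p z y : ι → F}
    (hp : p ∈ pts (Q := Q) M) (hz : z ∈ pts (Q := Q) M) (hpz : 𝔣 p z ≠ 0) (hy : Q y = 0) :
    y ∈ pts (Q := Q) M := by
  by_cases hy0 : y = 0
  · rw [hy0]
    exact zero_mem_pts M
  by_cases hpy : 𝔣 p y = 0
  swap
  · exact pts_step hp hz hy hpz hpy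
  have hp0 : p ≠ 0 := by
    rintro rfl
    apply hpz
    simp [polar]
  obtain ⟨w, -, hw, h1, h2⟩ := exists_common_nonperp hQ hp0 hy0 hp.1 (by rw [polar_comm]; exact hpy)
  have hwp : w ∈ pts (Q := Q) M := pts_step hp hz hw hpz h1
  exact pts_step hwp hp hy (by rw [polar_comm]; exact h1) (by rw [polar_comm]; exact h2)

/-- All the singular vectors give `Ω`. -/
theorem omegaGL_le (hQ : (polarBilin Q).Nondegenerate) (hn : 5 ≤ Fintype.card ι) {M : Subgroup (GL ι F)}
    (h : ∀ a, Q a = 0 → a ∈ pts (Q := Q) M) : omegaGL (⇑Q) ≤ M := by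
  rw [omegaGL, Subgroup.map_le_iff_le_comap, omega_eq_rootGroup' hQ hn, rootGroup, Subgroup.closure_le]
  intro g hg
  obtain ⟨u, v, c, hu, hv, huv, rfl⟩ := mem_siegelSet_iff.1 hg
  exact (h u hu).2 _ (by rw [polar_smul_right', huv, mul_zero])

theorem eG_mem_omegaGL (hQ : (polarBilin Q).Nondegenerate) (hn : 5 ≤ Fintype.card ι) {z b : ι → F}
    (hz : Q z = 0) (hb : 𝔣 z b = 0) : eG hz hb ∈ omegaGL (⇑Q) :=
  ⟨eichlerIso hz hb, eichler_mem_omega hQ hn hz hb, rfl⟩

theorem omegaGL_le_iso : omegaGL (⇑Q) ≤ Cfsg.isometryGroup F (⇑Q) := by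
  rintro _ ⟨g, -, rfl⟩
  exact g.2

omit [Fintype F] in
theorem two_ne_zero_of_odd [Fintype F] (hodd : Odd (Fintype.card F)) : (2 : F) ≠ 0 := by
  intro h
  haveI : CharP F 2 := CharTwo.of_one_ne_zero_of_two_eq_zero one_ne_zero h
  have hc : ringChar F = 2 := ringChar.eq F 2
  have h1 := FiniteField.even_card_iff_char_two.1 hc
  exact (Nat.not_even_iff_odd.2 hodd) (Nat.even_iff.2 h1)

/-- A non-degenerate quadratic form, as a function, is a `QuadraticForm`. -/
theorem exists_quadraticForm {Q₀ : (ι → F) → F} (h : IsNondegenerateQuadraticForm Q₀) :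
    ∃ Q : QuadraticForm F (ι → F), ⇑Q = Q₀ ∧ (polarBilin Q).Nondegenerate := by
  let B : LinearMap.BilinForm F (ι → F) := LinearMap.mk₂ F (polar Q₀) h.polar_bilinear.add_left
    (fun c x y => by rw [h.polar_bilinear.smul_left, smul_eq_mul]) h.polar_bilinear.add_right
    (fun c x y => by rw [h.polar_bilinear.smul_right, smul_eq_mul])
  let Q : QuadraticForm F (ι → F) :=
    { toFun := Q₀
      toFun_smul := fun c x => by rw [h.smul, smul_eq_mul]; ring
      exists_companion' := ⟨B, fun x y => by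
        change Q₀ (x + y) = Q₀ x + Q₀ y + polar Q₀ x y
        rw [polar]
        ring⟩ }
  have hcoe : ⇑Q = Q₀ := rfl
  refine ⟨Q, hcoe, ⟨?_, ?_⟩⟩
  · intro x hx
    by_contra h0
    obtain ⟨y, hy⟩ := (h.nondegenerate x h0).2
    apply hy
    have := hx y
    rwa [polarBilin_apply_apply] at this
  · intro x hx
    by_contra h0
    obtain ⟨y, hy⟩ := (h.nondegenerate x h0).1
    apply hy
    have := hx y
    rwa [polarBilin_apply_apply] at this

/-- A polar value as a difference. -/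
theorem polar_eG_self {y b a : ι → F} (hy : Q y = 0) (hb : 𝔣 y b = 0) (ha : Q a = 0) :
    𝔣 a ((eG hy hb : Matrix ι ι F) *ᵥ a) = - (Q b * (𝔣 y a) ^ 2) := by
  rw [eG_mulVec]
  simp only [polar_sub_right, polar_add_right, polar_smul_right', polar_zero_of_singular ha]
  rw [polar_comm (⇑Q) a y, polar_comm (⇑Q) a b]
  ring

/-- The stabiliser of a totally singular subspace is maximal in `Ω`, unless the subspace has dimension `n/2 - 1`. -/
theorem isMaximalIn_parabolic (hQ : (polarBilin Q).Nondegenerate) (hn : 5 ≤ Fintype.card ι)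
    {W : Submodule F (ι → F)} (hW0 : W ≠ ⊥) (hW : ∀ w ∈ W, Q w = 0)
    (hdim : 2 * (finrank F W + 1) = Fintype.card ι → ∀ T : Submodule F (ι → F), (∀ t ∈ T, Q t = 0) →
      2 * finrank F T ≠ Fintype.card ι) :
    IsMaximalIn (omegaGL (⇑Q)) (subspaceStabilizer W ⊓ omegaGL (⇑Q)) := by
  set B : LinearMap.BilinForm F (ι → F) := polarBilin Q with hB
  have hBnd : B.Nondegenerate := hQ
  have hsymm : B.IsSymm := ⟨fun x y => by
    simp only [hB, polarBilin_apply_apply, RingHom.id_apply]; exact polar_comm _ _ _⟩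
  have hrefl : B.IsRefl := hsymm.isRefl
  have hWts : ∀ x ∈ W, ∀ y ∈ W, 𝔣 x y = 0 := by
    intro x hx y hy
    rw [polar, hW _ (W.add_mem hx hy), hW x hx, hW y hy]
    ring
  -- `W` lies in `pts`
  have hWH : ∀ a ∈ W, a ∈ pts (Q := Q) (subspaceStabilizer W ⊓ omegaGL (⇑Q)) := by
    intro a ha
    refine ⟨hW a ha, fun b hb => ⟨?_, eG_mem_omegaGL hQ hn _ _⟩⟩
    apply Basic.mem_subspaceStabilizer_of_le
    intro x hx
    rw [eG_mulVec, hWts a ha x hx, zero_smul, add_zero, mul_zero, zero_smul, sub_zero]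
    exact W.sub_mem hx (W.smul_mem _ ha)
  obtain ⟨a, ha, ha0⟩ := Submodule.exists_mem_ne_zero_of_ne_bot hW0
  -- strictness
  refine ⟨lt_of_le_of_ne inf_le_right ?_, ?_⟩
  · intro heq
    -- a partner of `a`
    have hpart : ∃ y, Q y = 0 ∧ 𝔣 y a ≠ 0 := by
      obtain ⟨y, -, hy, -, h⟩ := exists_common_nonperp hQ ha0 ha0 (hW a ha) (hWts a ha a ha)
      exact ⟨y, hy, by rw [polar_comm]; exact h⟩
    obtain ⟨y, hy, hya⟩ := hpart
    have hlt : 2 * finrank F (Submodule.span F {y}) < Fintype.card ι := by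
      have := finrank_span_le_card (R := F) ({y} : Set (ι → F))
      simp only [Set.toFinset_singleton, Finset.card_singleton] at this
      omega
    obtain ⟨b, hb, hyb⟩ := exists_nonsingular_orth hQ hlt
    have hb' : 𝔣 y b = 0 := by
      rw [polar_comm]
      exact hyb y (Submodule.mem_span_singleton_self y)
    have hm : eG hy hb' ∈ subspaceStabilizer W ⊓ omegaGL (⇑Q) := by
      rw [heq]
      exact eG_mem_omegaGL hQ hn _ _
    have h1 := ((Basic.mem_subspaceStabilizer_iff _ W).1 hm.1 a).1 ha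
    have h2 := hWts a ha _ h1
    rw [polar_eG_self hy hb' (hW a ha)] at h2
    have h3 : Q b * 𝔣 y a ^ 2 ≠ 0 := mul_ne_zero hb (pow_ne_zero 2 hya)
    exact h3 (neg_eq_zero.1 h2)
  · intro M hHM hMS
    by_cases hMH : M ≤ subspaceStabilizer W ⊓ omegaGL (⇑Q)
    · exact Or.inl (le_antisymm hMH hHM)
    right
    apply le_antisymm hMS
    obtain ⟨g, hgM, hgH⟩ := SetLike.not_le_iff_exists.1 hMH
    have hWM : ∀ a ∈ W, a ∈ pts (Q := Q) M := by
      intro a ha
      obtain ⟨h0, h1⟩ := hWH a ha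
      exact ⟨h0, fun b hb => hHM (h1 b hb)⟩
    apply omegaGL_le hQ hn
    by_cases hcase : ∃ g : ↥(Cfsg.isometryGroup F (⇑Q)), (g : GL ι F) ∈ M ∧ ∃ w ∈ W, ∃ w' ∈ W, 𝔣 w' (act g w) ≠ 0
    · obtain ⟨g, hg, w, hw, w', hw', h⟩ := hcase
      intro y hy
      exact pts_all hQ (hWM w' hw') (act_mem_pts (hWM w hw) g hg) h hy
    exfalso
    push Not at hcase
    have hgΩ := hMS hgM
    have hgiso : g ∈ Cfsg.isometryGroup F (⇑Q) := omegaGL_le_iso hgΩ
    set g₀ : ↥(Cfsg.isometryGroup F (⇑Q)) := ⟨g, hgiso⟩ with hg₀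
    have hg₀M : (g₀ : GL ι F) ∈ M := hgM
    obtain ⟨w, hw, hgw⟩ : ∃ w ∈ W, act g₀ w ∉ W := by
      by_contra hcon
      push Not at hcon
      exact hgH ⟨Basic.mem_subspaceStabilizer_of_le _ _ hcon, hgΩ⟩
    set z := act g₀ w with hz
    have hQz : Q z = 0 := by rw [hz, Q_act]; exact hW w hw
    have hzW : z ∈ B.orthogonal W := by
      intro w' hw'
      exact hcase g₀ hg₀M w hw w' hw'
    -- a singular vector of `W^⊥` not orthogonal to `z`
    obtain ⟨u₁, hu₁, hu₁z⟩ : ∃ u₁ ∈ B.orthogonal W, 𝔣 u₁ z ≠ 0 := by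
      by_contra hcon
      push Not at hcon
      apply hgw
      rw [← LinearMap.BilinForm.orthogonal_orthogonal hBnd hrefl W]
      intro u₁ hu₁
      exact hcon u₁ hu₁
    set u := u₁ - (Q u₁ / 𝔣 u₁ z) • z with hu
    have huW : u ∈ B.orthogonal W := Submodule.sub_mem _ hu₁ (Submodule.smul_mem _ _ hzW)
    have hQu : Q u = 0 := by
      rw [hu, Q_sub, Q_smul, hQz, mul_zero, polar_smul_right']
      field_simp
      ring
    have huz : 𝔣 u z ≠ 0 := by
      rw [hu, polar_sub_left, polar_smul_left', polar_zero_of_singular hQz, mul_zero, sub_zero]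
      exact hu₁z
    have huW' : u ∉ W := by
      intro h
      apply huz
      exact hzW u h
    have hTts : IsTS Q (W ⊔ Submodule.span F {u}) := by
      intro t ht
      obtain ⟨x, hx, y, hy, rfl⟩ := Submodule.mem_sup.1 ht
      obtain ⟨c, rfl⟩ := Submodule.mem_span_singleton.1 hy
      rw [Q_add, Q_smul, hQu, hW x hx, polar_smul_right', polar_comm]
      have : 𝔣 u x = 𝔣 x u := polar_comm _ _ _
      rw [mul_zero, zero_add, zero_add]
      have h9 : 𝔣 x u = 0 := huW x hx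
      rw [this, h9, mul_zero]
    have hfT : finrank F ↥(W ⊔ Submodule.span F {u}) = finrank F W + 1 :=
      Submodule.finrank_sup_span_singleton huW'
    have hle := hTts.two_mul_finrank_le (polarNondeg_of_nondeg Q hQ)
    rw [hfT, Module.finrank_fintype_fun_eq_card] at hle
    have hne : 2 * (finrank F W + 1) ≠ Fintype.card ι := by
      intro he
      apply hdim he _ hTts
      rw [hfT, he]
    obtain ⟨v, hv, hvT⟩ := exists_nonsingular_orth hQ (U := W ⊔ Submodule.span F {u}) (by rw [hfT]; omega)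
    have huv : 𝔣 u v = 0 := by
      rw [polar_comm]
      exact hvT u (Submodule.mem_sup_right (Submodule.mem_span_singleton_self u))
    have hvW : ∀ x ∈ W, 𝔣 v x = 0 := fun x hx => hvT x (Submodule.mem_sup_left hx)
    -- the element of the stabiliser
    have hhH : eG hQu huv ∈ subspaceStabilizer W ⊓ omegaGL (⇑Q) := by
      refine ⟨Basic.mem_subspaceStabilizer_of_le _ _ fun x hx => ?_, eG_mem_omegaGL hQ hn _ _⟩
      have h9 : 𝔣 u x = 0 := by
        rw [polar_comm]
        exact huW x hx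
      rw [eG_mulVec, h9, hvW x hx]
      simpa using hx
    set h₀ : ↥(Cfsg.isometryGroup F (⇑Q)) := eichlerIso hQu huv with hh₀
    have hcon := hcase (g₀⁻¹ * h₀ * g₀) (by
      have h8 : ((g₀⁻¹ * h₀ * g₀ : ↥(Cfsg.isometryGroup F (⇑Q))) : GL ι F) =
          (g₀ : GL ι F)⁻¹ * (h₀ : GL ι F) * (g₀ : GL ι F) := rfl
      rw [h8]
      exact M.mul_mem (M.mul_mem (M.inv_mem hg₀M) (hHM hhH)) hg₀M) w hw w hw
    have e : 𝔣 w (act (g₀⁻¹ * h₀ * g₀) w) = 𝔣 z (act h₀ z) := by
      rw [act_mul, act_mul, hz, ← polar_act g₀ w, act_act_inv]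
    rw [e] at hcon
    have h7 := polar_eG_self hQu huv hQz
    have h6 : Q v * 𝔣 u z ^ 2 ≠ 0 := mul_ne_zero hv (pow_ne_zero 2 huz)
    apply h6
    apply neg_eq_zero.1
    rw [← h7]
    exact hcon

end Cfsg.Agent.Lib.Classical.Geo.OPts
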