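/-
The stabiliser of a line is maximal in `Ω`.
-/
import Mathlib
import Cfsg.Agent.Lib.Classical.Geo.OPts

set_option autoImplicit false
set_option linter.unusedSectionVars false

namespace Cfsg.Agent.Lib.Classical.Geo.OLine

open scoped Matrix
open Module Cfsg Cfsg.Geo QuadraticMap
open Cfsg.Agent.Lib.Classical.Orth.Basic
open Cfsg.Agent.Lib.Classical.Orth.CartanDieudonne
open Cfsg.Agent.Lib.Classical.Orth.Adjust
open Cfsg.Agent.Lib.Classical.Orth.Siegel
open Cfsg.Agent.Lib.Classical.Orth.Generation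
open Cfsg.Agent.Lib.Classical.Orth.Simple
open Cfsg.Agent.Lib.Classical.Witt.TS
open Cfsg.Agent.Lib.Classical.Witt.Hyp
open Cfsg.Agent.Lib.Classical.Geo.OPts

variable {ι : Type} [Fintype ι] [DecidableEq ι] {F : Type*} [Field F] [Fintype F]
variable {Q : QuadraticForm F (ι → F)}

set_option quotPrecheck false in
local notation "𝔣" => polar (⇑Q)

/-- Riesz: a vector outside a subspace is not orthogonal to its orthogonal complement. -/
theorem riesz (hQ : (polarBilin Q).Nondegenerate) {X : Submodule F (ι → F)} {x : ι → F} (hx : x ∉ X) :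
    ∃ c, (∀ y ∈ X, 𝔣 y c = 0) ∧ 𝔣 x c = 1 := by
  set B : LinearMap.BilinForm F (ι → F) := polarBilin Q with hB
  have hBnd : B.Nondegenerate := hQ
  have hsymm : B.IsSymm := ⟨fun x y => by
    simp only [hB, polarBilin_apply_apply, RingHom.id_apply]; exact polar_comm _ _ _⟩
  have hrefl : B.IsRefl := hsymm.isRefl
  rw [← LinearMap.BilinForm.orthogonal_orthogonal hBnd hrefl X] at hx
  have h : ∃ c ∈ B.orthogonal X, B c x ≠ 0 := by
    by_contra hcon
    push Not at hcon
    exact hx hcon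
  obtain ⟨c, hc, hcx⟩ := h
  have hcx' : 𝔣 c x ≠ 0 := hcx
  refine ⟨(𝔣 c x)⁻¹ • c, fun y hy => ?_, ?_⟩
  · rw [polar_smul_right']
    have : B y c = 0 := hc y hy
    rw [hB, polarBilin_apply_apply] at this
    rw [this, mul_zero]
  · have e : 𝔣 x c = 𝔣 c x := polar_comm _ _ _
    rw [polar_smul_right', e, inv_mul_cancel₀ hcx']

/-- A hyperbolic pair orthogonal to a small subspace. -/
theorem exists_hyp_perp (hQ : (polarBilin Q).Nondegenerate) (X : Submodule F (ι → F))
    (hk : 3 + 2 * finrank F X ≤ Fintype.card ι) :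
    ∃ a₁ a₂ : ι → F, (∀ x ∈ X, 𝔣 x a₁ = 0) ∧ (∀ x ∈ X, 𝔣 x a₂ = 0) ∧ Q a₁ = 0 ∧ Q a₂ = 0 ∧ 𝔣 a₁ a₂ = 1 := by
  set B : LinearMap.BilinForm F (ι → F) := polarBilin Q with hB
  have hBnd : B.Nondegenerate := hQ
  have hsymm : B.IsSymm := ⟨fun x y => by
    simp only [hB, polarBilin_apply_apply, RingHom.id_apply]; exact polar_comm _ _ _⟩
  have hrefl : B.IsRefl := hsymm.isRefl
  set T := B.orthogonal X with hT
  have hfT : finrank F T + finrank F X = Fintype.card ι := by
    have h6 := LinearMap.BilinForm.finrank_orthogonal hBnd X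
    rw [Module.finrank_fintype_fun_eq_card, ← hT] at h6
    have : finrank F X ≤ finrank F (ι → F) := Submodule.finrank_le X
    rw [Module.finrank_fintype_fun_eq_card] at this
    omega
  obtain ⟨q, hq⟩ := Submodule.exists_isCompl X
  have hfq : finrank F X + finrank F q = Fintype.card ι := by
    rw [Submodule.finrank_add_eq_of_isCompl hq, Module.finrank_fintype_fun_eq_card]
  have hfY : 3 ≤ finrank F ↥(T ⊓ q) := by
    have h1 := Submodule.finrank_sup_add_finrank_inf_eq T q
    have h2 : finrank F ↥(T ⊔ q) ≤ Fintype.card ι := by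
      have := Submodule.finrank_le (T ⊔ q)
      rwa [Module.finrank_fintype_fun_eq_card] at this
    omega
  obtain ⟨⟨y, hy⟩, hy0, hQy⟩ := exists_singular_of_three_le (Q.comp (T ⊓ q).subtype) hfY
  have hy0' : y ≠ 0 := fun h => hy0 (Subtype.ext h)
  have hQy' : Q y = 0 := hQy
  have hyX : y ∉ X := by
    intro h
    apply hy0'
    have : y ∈ X ⊓ q := ⟨h, hy.2⟩
    rw [hq.inf_eq_bot] at this
    exact this
  have hyT : ∀ x ∈ X, 𝔣 x y = 0 := fun x hx => by
    have : B x y = 0 := hy.1 x hx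
    rwa [hB, polarBilin_apply_apply] at this
  -- a partner in `T`
  obtain ⟨x, hxT, hxy⟩ : ∃ x ∈ T, 𝔣 x y ≠ 0 := by
    by_contra hcon
    push Not at hcon
    apply hyX
    rw [← LinearMap.BilinForm.orthogonal_orthogonal hBnd hrefl X]
    intro x hx
    exact hcon x hx
  have hxT' : ∀ a ∈ X, 𝔣 a x = 0 := fun a ha => by
    have : B a x = 0 := hxT a ha
    rwa [hB, polarBilin_apply_apply] at this
  refine ⟨y, (𝔣 x y)⁻¹ • (x - (Q x / 𝔣 x y) • y), ?_, ?_, hQy', ?_, ?_⟩
  · exact hyT
  · intro a ha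
    rw [polar_smul_right', polar_sub_right, polar_smul_right', hxT' a ha, hyT a ha]
    ring
  · rw [Q_smul, Q_sub, Q_smul, hQy', mul_zero, polar_smul_right', polar_comm (⇑Q) x y]
    have : 𝔣 y x ≠ 0 := by rw [polar_comm]; exact hxy
    field_simp
    ring
  · rw [polar_smul_right', polar_sub_right, polar_smul_right', polar_zero_of_singular hQy', mul_zero, sub_zero,
      polar_comm (⇑Q) y x, inv_mul_cancel₀ hxy]

theorem eG_mul {M : Subgroup (GL ι F)} {z b b' : ι → F} (hz : Q z = 0) (hb : 𝔣 z b = 0) (hb' : 𝔣 z b' = 0)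
    (hb'' : 𝔣 z (b + b') = 0) (h1 : eG hz hb ∈ M) (h2 : eG hz hb' ∈ M) : eG hz hb'' ∈ M := by
  have e : eichlerIso hz hb * eichlerIso hz hb' = eichlerIso hz hb'' := eichlerIso_mul hz hb hb'
  rw [eG, ← e]
  exact M.mul_mem h1 h2

/-- Splitting the second argument of `E(a, b)`. -/
theorem mem_pts_of_two (hQ : (polarBilin Q).Nondegenerate) {M : Subgroup (GL ι F)} {a u v : ι → F} (ha : Q a = 0)
    (hEv : ∀ b, ∀ hb : 𝔣 a b = 0, 𝔣 b v = 0 → eG ha hb ∈ M)
    (hEu : ∀ b, ∀ hb : 𝔣 a b = 0, 𝔣 b u = 0 → eG ha hb ∈ M)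
    (hv : v ∉ Submodule.span F {a, u}) : a ∈ pts (Q := Q) M := by
  obtain ⟨c, hc, hvc⟩ := riesz hQ hv
  have hac : 𝔣 a c = 0 := hc a (Submodule.subset_span (by simp))
  have huc : 𝔣 u c = 0 := hc u (Submodule.subset_span (by simp))
  refine ⟨ha, fun b hb => ?_⟩
  have e : (b - 𝔣 b v • c) + 𝔣 b v • c = b := by abel
  have h1 : 𝔣 a (b - 𝔣 b v • c) = 0 := by
    rw [polar_sub_right, polar_smul_right', hac, hb]
    ring
  have h2 : 𝔣 a (𝔣 b v • c) = 0 := by
    rw [polar_smul_right', hac, mul_zero]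
  have h3 : eG ha (by rw [e]; exact hb : 𝔣 a ((b - 𝔣 b v • c) + 𝔣 b v • c) = 0) ∈ M := by
    apply eG_mul ha h1 h2
    · apply hEv
      rw [polar_sub_left, polar_smul_left', polar_comm (⇑Q) c v, hvc]
      ring
    · apply hEu
      rw [polar_smul_left', polar_comm (⇑Q) c u, huc, mul_zero]
  have e' : eichlerIso ha hb = eichlerIso ha (by rw [e]; exact hb : 𝔣 a ((b - 𝔣 b v • c) + 𝔣 b v • c) = 0) :=
    eichlerIso_congr rfl e.symm _ _ _ _
  rw [eG, e']
  exact h3

/-- The stabiliser of a line is maximal in `Ω`. -/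
theorem isMaximalIn_line (hQ : (polarBilin Q).Nondegenerate) (hn : 7 ≤ Fintype.card ι) {v : ι → F} (hv0 : v ≠ 0) :
    IsMaximalIn (omegaGL (⇑Q)) (subspaceStabilizer (Submodule.span F {v}) ⊓ omegaGL (⇑Q)) := by
  have hn5 : 5 ≤ Fintype.card ι := by omega
  refine ⟨lt_of_le_of_ne inf_le_right ?_, ?_⟩
  · intro heq
    obtain ⟨y, hy, hyv⟩ := exists_singular_not_orth (polarNondeg_of_nondeg Q hQ)
      (by rw [Module.finrank_fintype_fun_eq_card]; omega) hv0
    -- a second vector
    have hX : finrank F ↥(Submodule.span F {v, y}) ≤ 2 := finrank_span_pair_le v y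
    obtain ⟨b, b', h1, h2, h3, h4, h5⟩ := exists_hyp_perp hQ (Submodule.span F {v, y}) (by omega)
    have hyb : 𝔣 y b = 0 := h1 y (Submodule.subset_span (by simp))
    have hm : eG hy hyb ∈ subspaceStabilizer (Submodule.span F {v}) ⊓ omegaGL (⇑Q) := by
      rw [heq]
      exact eG_mem_omegaGL hQ hn5 _ _
    have h6 := ((Basic.mem_subspaceStabilizer_iff _ _).1 hm.1 v).1 (Submodule.mem_span_singleton_self v)
    rw [eG_mulVec] at h6
    obtain ⟨c, hc⟩ := Submodule.mem_span_singleton.1 h6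
    set s := 𝔣 y v with hs
    have hs0 : s ≠ 0 := by
      rw [hs, polar_comm]
      exact hyv
    have h7 : s • b = (c - 1) • v + (𝔣 b v + Q b * s) • y := by
      have e : s • b = (v + s • b - 𝔣 b v • y - (Q b * s) • y) - v + (𝔣 b v + Q b * s) • y := by
        module
      rw [e, ← hc]
      module
    have h8 : 𝔣 (s • b) b' = s := by
      rw [polar_smul_left', h5, mul_one]
    have h9 : 𝔣 v b' = 0 := h2 v (Submodule.subset_span (by simp))
    have h10 : 𝔣 y b' = 0 := h2 y (Submodule.subset_span (by simp))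
    rw [h7, polar_add_left, polar_smul_left', polar_smul_left', h9, h10] at h8
    apply hs0
    rw [← h8]
    ring
  · intro M hHM hMS
    by_cases hMH : M ≤ subspaceStabilizer (Submodule.span F {v}) ⊓ omegaGL (⇑Q)
    · exact Or.inl (le_antisymm hMH hHM)
    right
    apply le_antisymm hMS
    obtain ⟨g, hgM, hgH⟩ := SetLike.not_le_iff_exists.1 hMH
    have hgΩ := hMS hgM
    have hgiso : g ∈ Cfsg.isometryGroup F (⇑Q) := omegaGL_le_iso hgΩ
    set g₀ : ↥(Cfsg.isometryGroup F (⇑Q)) := ⟨g, hgiso⟩ with hg₀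
    have hg₀M : (g₀ : GL ι F) ∈ M := hgM
    set u := act g₀ v with hu
    have huv : u ∉ Submodule.span F {v} := by
      intro h
      apply hgH
      refine ⟨Basic.mem_subspaceStabilizer_of_le _ _ fun x hx => ?_, hgΩ⟩
      obtain ⟨c, rfl⟩ := Submodule.mem_span_singleton.1 hx
      rw [Matrix.mulVec_smul]
      exact Submodule.smul_mem _ _ h
    have hu0 : u ≠ 0 := by
      intro h
      apply huv
      rw [h]
      exact Submodule.zero_mem _
    -- fixing `v`
    have hEfix : ∀ {a : ι → F} (ha : Q a = 0), 𝔣 a v = 0 → ∀ b, ∀ hb : 𝔣 a b = 0, 𝔣 b v = 0 → eG ha hb ∈ M := by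
      intro a ha hav b hb hbv
      apply hHM
      refine ⟨Basic.mem_subspaceStabilizer_of_le _ _ fun x hx => ?_, eG_mem_omegaGL hQ hn5 _ _⟩
      obtain ⟨c, rfl⟩ := Submodule.mem_span_singleton.1 hx
      rw [Matrix.mulVec_smul, eG_mulVec, hav, hbv]
      simpa using Submodule.smul_mem _ _ (Submodule.mem_span_singleton_self v)
    have hEfix' : ∀ {a : ι → F} (ha : Q a = 0), 𝔣 a u = 0 → ∀ b, ∀ hb : 𝔣 a b = 0, 𝔣 b u = 0 → eG ha hb ∈ M := by
      intro a ha hau b hb hbu
      have hQa' : Q (act g₀⁻¹ a) = 0 := by rw [Q_act, ha]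
      have hav : 𝔣 (act g₀⁻¹ a) v = 0 := by
        rw [← polar_act g₀, act_act_inv]
        exact hau
      have hb' : 𝔣 (act g₀⁻¹ a) (act g₀⁻¹ b) = 0 := by
        rw [polar_act]
        exact hb
      have hbv : 𝔣 (act g₀⁻¹ b) v = 0 := by
        rw [← polar_act g₀, act_act_inv]
        exact hbu
      have h1 := hEfix hQa' hav _ hb' hbv
      have e := conj_eichlerIso g₀ hQa' hb'
      have e' : eichlerIso ha hb = g₀ * eichlerIso hQa' hb' * g₀⁻¹ := by
        rw [e]
        exact eichlerIso_congr (by rw [act_act_inv]) (by rw [act_act_inv]) _ _ _ _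
      rw [eG, e']
      have := M.mul_mem (M.mul_mem hg₀M h1) (M.inv_mem hg₀M)
      simpa using this
    -- the hyperbolic pair
    have hX : finrank F ↥(Submodule.span F {u, v}) ≤ 2 := finrank_span_pair_le u v
    obtain ⟨a₁, a₂, h1, h2, h3, h4, h5⟩ := exists_hyp_perp hQ (Submodule.span F {u, v}) (by omega)
    have key : ∀ {a a' : ι → F}, Q a = 0 → 𝔣 a' a ≠ 0 → (∀ x ∈ Submodule.span F {u, v}, 𝔣 x a = 0) →
        (∀ x ∈ Submodule.span F {u, v}, 𝔣 x a' = 0) → a ∈ pts (Q := Q) M := by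
      intro a a' ha haa' hx hx'
      have hau : 𝔣 a u = 0 := by
        rw [polar_comm]
        exact hx u (Submodule.subset_span (by simp))
      have hav : 𝔣 a v = 0 := by
        rw [polar_comm]
        exact hx v (Submodule.subset_span (by simp))
      apply mem_pts_of_two hQ ha (hEfix ha hav) (hEfix' ha hau)
      intro hmem
      obtain ⟨α, β, e⟩ := Submodule.mem_span_pair.1 hmem
      have h1' : 𝔣 a' u = 0 := by
        rw [polar_comm]
        exact hx' u (Submodule.subset_span (by simp))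
      have h2' : 𝔣 a' v = 0 := by
        rw [polar_comm]
        exact hx' v (Submodule.subset_span (by simp))
      have h3' : α * 𝔣 a' a = 0 := by
        rw [← e, polar_add_right, polar_smul_right', polar_smul_right', h1', mul_zero, add_zero] at h2'
        exact h2'
      have hα : α = 0 := (mul_eq_zero.1 h3').resolve_right haa'
      rw [hα, zero_smul, zero_add] at e
      have hβ : β ≠ 0 := by
        rintro rfl
        apply hv0
        rw [← e, zero_smul]
      apply huv
      have : u = β⁻¹ • v := by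
        rw [← e, smul_smul, inv_mul_cancel₀ hβ, one_smul]
      rw [this]
      exact Submodule.smul_mem _ _ (Submodule.mem_span_singleton_self v)
    have ha₁ : a₁ ∈ pts (Q := Q) M := key h3 (by rw [polar_comm, h5]; exact one_ne_zero) h1 h2
    have ha₂ : a₂ ∈ pts (Q := Q) M := key h4 (by rw [h5]; exact one_ne_zero) h2 h1
    apply omegaGL_le hQ hn5
    intro y hy
    exact pts_all hQ ha₁ ha₂ (by rw [h5]; exact one_ne_zero) hy

end Cfsg.Agent.Lib.Classical.Geo.OLine
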