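/-
The stabiliser in `Ω` of a pair of complementary maximal totally singular subspaces is maximal, when their dimension
is even.
-/
import Mathlib
import Cfsg.Agent.Lib.Classical.Geo.OLine
import Cfsg.Agent.Lib.Classical.Geo.UPair

set_option autoImplicit false
set_option linter.unusedSectionVars false

namespace Cfsg.Agent.Lib.Classical.Geo.OPair

open scoped Matrix commutatorElement
open Module Cfsg Cfsg.Geo QuadraticMap
open Cfsg.Agent.Lib.Classical.Orth.Basic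
open Cfsg.Agent.Lib.Classical.Orth.CartanDieudonne
open Cfsg.Agent.Lib.Classical.Orth.Adjust
open Cfsg.Agent.Lib.Classical.Orth.Siegel
open Cfsg.Agent.Lib.Classical.Orth.Generation
open Cfsg.Agent.Lib.Classical.Orth.Simple
open Cfsg.Agent.Lib.Classical.Witt.TS
open Cfsg.Agent.Lib.Classical.Witt.Hyp
open Cfsg.Agent.Lib.Classical.Geo.OPts
open Cfsg.Agent.Lib.Classical.Geo.OLine

variable {ι : Type} [Fintype ι] [DecidableEq ι] {F : Type*} [Field F] [Fintype F]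
variable {Q : QuadraticForm F (ι → F)}

set_option quotPrecheck false in
local notation "𝔣" => polar (⇑Q)

/-- A pair of complementary totally singular subspaces. -/
structure OP (Q : QuadraticForm F (ι → F)) (X Y : Submodule F (ι → F)) : Prop where
  tsX : ∀ x ∈ X, Q x = 0
  tsY : ∀ x ∈ Y, Q x = 0
  compl : IsCompl X Y

variable {X Y : Submodule F (ι → F)}

theorem polar_of_ts {X : Submodule F (ι → F)} (h : ∀ x ∈ X, Q x = 0) {x y : ι → F} (hx : x ∈ X) (hy : y ∈ X) :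
    𝔣 x y = 0 := by
  rw [polar, h _ (X.add_mem hx hy), h x hx, h y hy]
  ring

theorem OP.polX (P : OP Q X Y) {x y : ι → F} (hx : x ∈ X) (hy : y ∈ X) : 𝔣 x y = 0 := polar_of_ts P.tsX hx hy

theorem OP.polY (P : OP Q X Y) {x y : ι → F} (hx : x ∈ Y) (hy : y ∈ Y) : 𝔣 x y = 0 := polar_of_ts P.tsY hx hy

theorem OP.symm (P : OP Q X Y) : OP Q Y X := ⟨P.tsY, P.tsX, P.compl.symm⟩

theorem OP.decomp (P : OP Q X Y) (x : ι → F) : ∃ x₁ ∈ X, ∃ x₂ ∈ Y, x = x₁ + x₂ := by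
  have hx : x ∈ X ⊔ Y := by rw [P.compl.sup_eq_top]; trivial
  obtain ⟨x₁, h₁, x₂, h₂, e⟩ := Submodule.mem_sup.1 hx
  exact ⟨x₁, h₁, x₂, h₂, e.symm⟩

/-- Prescribing values on `X` by a vector of `Y`. -/
theorem OP.prescribe (hQ : (polarBilin Q).Nondegenerate) (P : OP Q X Y) {u : ι → F} (hu : u ∈ X)
    {S : Submodule F (ι → F)} (huS : u ∉ S) : ∃ y ∈ Y, (∀ s ∈ X, s ∈ S → 𝔣 s y = 0) ∧ 𝔣 u y = 1 := by
  obtain ⟨w, hw0, hw1⟩ := riesz hQ huS
  obtain ⟨w₁, h₁, w₂, h₂, rfl⟩ := P.decomp w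
  have key : ∀ s ∈ X, 𝔣 s (w₁ + w₂) = 𝔣 s w₂ := fun s hs => by
    rw [polar_add_right, P.polX hs h₁, zero_add]
  refine ⟨w₂, h₂, fun s hs hsS => ?_, ?_⟩
  · rw [← key s hs, hw0 s hsS]
  · rw [← key u hu, hw1]

theorem exists_mem_orth (X : Submodule F (ι → F)) (u v : ι → F) (S : Submodule F (ι → F))
    (h : finrank F S + 2 < finrank F X) : ∃ x ∈ X, 𝔣 x u = 0 ∧ 𝔣 x v = 0 ∧ x ∉ S := by
  by_contra hcon
  push Not at hcon
  let L : X →ₗ[F] F × F := (((polarBilin Q).flip u).domRestrict X).prod (((polarBilin Q).flip v).domRestrict X)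
  have h1 := LinearMap.finrank_range_add_finrank_ker L
  have h2 : finrank F (LinearMap.range L) ≤ 2 := (Submodule.finrank_le _).trans (by simp)
  have h3 : (LinearMap.ker L).map X.subtype ≤ S := by
    rintro _ ⟨x, hx, rfl⟩
    have hx' : L x = 0 := hx
    have a1 : 𝔣 x u = 0 := congrArg Prod.fst hx'
    have a2 : 𝔣 x v = 0 := congrArg Prod.snd hx'
    exact hcon x x.2 a1 a2
  have h4 := Submodule.finrank_mono h3
  have h5 : finrank F ((LinearMap.ker L).map X.subtype) = finrank F (LinearMap.ker L) :=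
    (Submodule.equivMapOfInjective _ X.injective_subtype _).finrank_eq.symm
  omega

/-- The commutator relation in a group. -/
theorem comm_mem {M : Subgroup (GL ι F)} {u v w₁ w₂ : ι → F} (hu : Q u = 0) (hv : Q v = 0) (huv : 𝔣 u v = 0)
    (hu1 : 𝔣 u w₁ = 0) (hu2 : 𝔣 u w₂ = 0) (hv1 : 𝔣 v w₁ = 0) (hv2 : 𝔣 v w₂ = 0)
    (h1 : eG hu hu1 ∈ M) (h2 : eG hv hv2 ∈ M) :
    eG hu (by rw [polar_smul_right', huv, mul_zero] : 𝔣 u ((𝔣 w₁ w₂) • v) = 0) ∈ M := by
  have e := commutator_eichler hu hv huv hu1 hu2 hv1 hv2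
  rw [eG, ← e, commutatorElement_def]
  simpa using M.mul_mem (M.mul_mem (M.mul_mem h1 h2) (M.inv_mem h1)) (M.inv_mem h2)

theorem comm_mem' {M : Subgroup (GL ι F)} {u v w₁ w₂ : ι → F} (hu : Q u = 0) (hv : Q v = 0) (huv : 𝔣 u v = 0)
    (hu1 : 𝔣 u w₁ = 0) (hu2 : 𝔣 u w₂ = 0) (hv1 : 𝔣 v w₁ = 0) (hv2 : 𝔣 v w₂ = 0) (h12 : 𝔣 w₁ w₂ = 1)
    (h1 : eG hu hu1 ∈ M) (h2 : eG hv hv2 ∈ M) : eG hu huv ∈ M := by
  have := comm_mem hu hv huv hu1 hu2 hv1 hv2 h1 h2
  have e : eichlerIso hu (by rw [polar_smul_right', huv, mul_zero] : 𝔣 u ((𝔣 w₁ w₂) • v) = 0) = eichlerIso hu huv :=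
    eichlerIso_congr rfl (by rw [h12, one_smul]) _ _ _ _
  rw [eG, e] at this
  exact this

/-- `E(a, b) = E(b, -a)` for singular orthogonal vectors. -/
theorem eichler_swap {a b : ι → F} (ha : Q a = 0) (hb : Q b = 0) (hab : 𝔣 a b = 0) (hba : 𝔣 b (-a) = 0) :
    eichlerIso ha hab = eichlerIso hb hba := by
  apply ext_act
  intro x
  have h : Q (-a) = 0 := by rw [QuadraticMap.map_neg, ha]
  rw [act_eichlerIso, act_eichlerIso, hb, h, polar_neg_left]
  module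

/-- The chain of commutators. -/
theorem chain (hQ : (polarBilin Q).Nondegenerate) (P : OP Q X Y) (hdim : 7 ≤ finrank F X) {M : Subgroup (GL ι F)}
    (hE : ∀ p, ∀ hp : p ∈ X, ∀ q ∈ Y, ∀ h : 𝔣 p q = 0, eG (P.tsX p hp) h ∈ M) {c₁ c₂ d₁ d₂ : ι → F} (hc₁ : c₁ ∈ X)
    (hc₂ : c₂ ∈ Y) (hd₁ : d₁ ∈ X) (hd₂ : d₂ ∈ Y) (hcc : Q (c₁ + c₂) = 0) (hcd : 𝔣 (c₁ + c₂) (d₁ + d₂) = 0)
    (hM : eG hcc hcd ∈ M) (hc0 : c₁ ≠ 0) (hind : d₁ ∉ Submodule.span F {c₁}) :
    ∃ a₁ ∈ X, ∃ a₂, ∃ ha₂ : a₂ ∈ X, a₂ ≠ 0 ∧ a₁ ∉ Submodule.span F {a₂} ∧ ∃ h : 𝔣 a₂ a₁ = 0, eG (P.tsX a₂ ha₂) h ∈ M := by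
  have span2 := finrank_span_pair_le (F := F) (ι := ι)
  -- first step
  obtain ⟨a₁, ha₁, a₁c, a₁d, a₁S⟩ := exists_mem_orth (Q := Q) X c₂ d₂ (Submodule.span F {c₁, d₁})
    (by have := span2 c₁ d₁; omega)
  have hnp := UPair.not_mem_pair hind a₁S
  obtain ⟨b₁, hb₁, hb₁0, hb₁1⟩ := P.prescribe hQ hd₁ hnp
  have hb₁a : 𝔣 a₁ b₁ = 0 := hb₁0 a₁ ha₁ (Submodule.mem_span_of_mem (by simp))
  have hb₁c : 𝔣 c₁ b₁ = 0 := hb₁0 c₁ hc₁ (Submodule.mem_span_of_mem (by simp))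
  have iso₁ := P.tsX _ ha₁
  have hac : 𝔣 a₁ (c₁ + c₂) = 0 := by rw [polar_add_right, P.polX ha₁ hc₁, a₁c, add_zero]
  have s1 : eG iso₁ hac ∈ M := comm_mem' (w₁ := b₁) (w₂ := d₁ + d₂) iso₁ hcc hac hb₁a
    (by rw [polar_add_right, P.polX ha₁ hd₁, a₁d, add_zero])
    (by rw [polar_add_left, hb₁c, P.polY hc₂ hb₁, add_zero])
    hcd
    (by rw [polar_add_right, polar_comm (⇑Q) b₁ d₁, hb₁1, P.polY hb₁ hd₂, add_zero])
    (hE _ ha₁ _ hb₁ _) hM
  -- second step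
  have ha₁0 : a₁ ≠ 0 := by
    rintro rfl
    exact a₁S (Submodule.zero_mem _)
  obtain ⟨a₂, ha₂, a₂c, -, a₂S⟩ := exists_mem_orth (Q := Q) X c₂ c₂ (Submodule.span F {a₁, c₁})
    (by have := span2 a₁ c₁; omega)
  have hc₁a₁ : c₁ ∉ Submodule.span F {a₁} :=
    UPair.not_mem_singleton_symm hc0 fun hmem => a₁S (Submodule.span_mono (by simp) hmem)
  have hnp2 := UPair.not_mem_pair hc₁a₁ a₂S
  obtain ⟨b₂, hb₂, hb₂0, hb₂1⟩ := P.prescribe hQ hc₁ hnp2
  have hb₂a₁ : 𝔣 a₁ b₂ = 0 := hb₂0 a₁ ha₁ (Submodule.mem_span_of_mem (by simp))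
  have hb₂a₂ : 𝔣 a₂ b₂ = 0 := hb₂0 a₂ ha₂ (Submodule.mem_span_of_mem (by simp))
  have iso₂ := P.tsX _ ha₂
  have ha₁₂ : a₁ ∉ Submodule.span F {a₂} := by
    refine UPair.not_mem_singleton_symm ?_ fun hmem => a₂S (Submodule.span_mono (by simp) hmem)
    exact ha₁0
  have ha₂0 : a₂ ≠ 0 := by
    rintro rfl
    exact a₂S (Submodule.zero_mem _)
  refine ⟨a₁, ha₁, a₂, ha₂, ha₂0, ha₁₂, P.polX ha₂ ha₁, ?_⟩
  exact comm_mem' (w₁ := b₂) (w₂ := c₁ + c₂) iso₂ iso₁ (P.polX ha₂ ha₁) hb₂a₂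
    (by rw [polar_add_right, P.polX ha₂ hc₁, a₂c, add_zero]) hb₂a₁ hac
    (by rw [polar_add_right, polar_comm (⇑Q) b₂ c₁, hb₂1, P.polY hb₂ hc₂, add_zero])
    (hE _ ha₂ _ hb₂ _) s1

/-- Spreading the second argument. -/
theorem spread (hQ : (polarBilin Q).Nondegenerate) (P : OP Q X Y) (hdim : 7 ≤ finrank F X) {M : Subgroup (GL ι F)}
    (hE : ∀ p, ∀ hp : p ∈ X, ∀ q ∈ Y, ∀ h : 𝔣 p q = 0, eG (P.tsX p hp) h ∈ M) {a₁ a₂ : ι → F} (ha₁ : a₁ ∈ X)
    (ha₂ : a₂ ∈ X) (hne : a₁ ∉ Submodule.span F {a₂}) (h0 : 𝔣 a₂ a₁ = 0) (hM : eG (P.tsX a₂ ha₂) h0 ∈ M)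
    {b : ι → F} (hb : b ∈ X) : eG (P.tsX a₂ ha₂) (P.polX ha₂ hb) ∈ M := by
  -- the generic case
  have key : ∀ b, ∀ hb : b ∈ X, a₁ ∉ Submodule.span F {a₂, b} → eG (P.tsX a₂ ha₂) (P.polX ha₂ hb) ∈ M := by
    intro b hb hnot
    obtain ⟨q, hq, hq0, hq1⟩ := P.prescribe hQ ha₁ hnot
    have h1 := hq0 a₂ ha₂ (Submodule.mem_span_of_mem (by simp))
    have h2 := hq0 b hb (Submodule.mem_span_of_mem (by simp))
    have := comm_mem' (v := b) (w₁ := a₁) (w₂ := q) (P.tsX a₂ ha₂) (P.tsX b hb) (P.polX ha₂ hb) h0 h1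
      (P.polX hb ha₁) h2 hq1 hM (hE _ hb _ hq _)
    exact this
  by_cases hgen : a₁ ∈ Submodule.span F {a₂, b}
  swap
  · exact key b hb hgen
  -- a third vector
  obtain ⟨c, hc, -, -, hcS⟩ := exists_mem_orth (Q := Q) X 0 0 (Submodule.span F {a₁, a₂} ⊔ Submodule.span F {b})
    (by
      have h1 := Submodule.finrank_add_le_finrank_add_finrank (Submodule.span F {a₁, a₂}) (Submodule.span F {b})
      have h2 := finrank_span_pair_le a₁ a₂
      have h3 : finrank F (Submodule.span F {b}) ≤ 2 :=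
        (Submodule.finrank_mono (Submodule.span_mono (by simp))).trans (finrank_span_pair_le b b)
      omega)
  have hnot : ∀ z, z ∉ Submodule.span F {a₁, a₂} → a₁ ∉ Submodule.span F {a₂, z} := by
    intro z hz hmem
    obtain ⟨α, β, e⟩ := Submodule.mem_span_pair.1 hmem
    by_cases hβ : β = 0
    · subst hβ
      apply hne
      rw [← e, zero_smul, add_zero]
      exact Submodule.smul_mem _ _ (Submodule.mem_span_singleton_self _)
    · apply hz
      have : z = β⁻¹ • a₁ - (β⁻¹ * α) • a₂ := by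
        rw [← e]
        have h3 : β⁻¹ • (α • a₂ + β • z) = (β⁻¹ * α) • a₂ + (β⁻¹ * β) • z := by module
        rw [h3, inv_mul_cancel₀ hβ]
        module
      rw [this]
      exact Submodule.sub_mem _ (Submodule.smul_mem _ _ (Submodule.subset_span (by simp)))
        (Submodule.smul_mem _ _ (Submodule.subset_span (by simp)))
  have hc1 : c ∉ Submodule.span F {a₁, a₂} := fun h => hcS (Submodule.mem_sup_left h)
  have hc2 : c + b ∉ Submodule.span F {a₁, a₂} := by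
    intro h
    apply hcS
    have : c = (c + b) - b := by abel
    rw [this]
    exact Submodule.sub_mem _ (Submodule.mem_sup_left h) (Submodule.mem_sup_right (Submodule.mem_span_singleton_self b))
  have hnc : -c ∉ Submodule.span F {a₁, a₂} := fun h => hc1 (by simpa using Submodule.neg_mem _ h)
  have hm1 := key (c + b) (X.add_mem hc hb) (hnot _ hc2)
  have hm2 := key (-c) (X.neg_mem hc) (hnot _ hnc)
  have e : (c + b) + (-c) = b := by abel
  have h3 := OLine.eG_mul (P.tsX a₂ ha₂) (P.polX ha₂ (X.add_mem hc hb)) (P.polX ha₂ (X.neg_mem hc))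
    (by rw [e]; exact P.polX ha₂ hb) hm1 hm2
  have e' : eichlerIso (P.tsX a₂ ha₂) (P.polX ha₂ hb) = eichlerIso (P.tsX a₂ ha₂)
      (by rw [e]; exact P.polX ha₂ hb : 𝔣 a₂ ((c + b) + (-c)) = 0) := eichlerIso_congr rfl e.symm _ _ _ _
  rw [eG, e']
  exact h3

/-- From one root element in `X` to `X ⊆ pts`. -/
theorem all_X (hQ : (polarBilin Q).Nondegenerate) (P : OP Q X Y) (hdim : 7 ≤ finrank F X) {M : Subgroup (GL ι F)}
    (hE : ∀ p, ∀ hp : p ∈ X, ∀ q ∈ Y, ∀ h : 𝔣 p q = 0, eG (P.tsX p hp) h ∈ M) {a₁ a₂ : ι → F} (ha₁ : a₁ ∈ X)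
    (ha₂ : a₂ ∈ X) (ha20 : a₂ ≠ 0) (hne : a₁ ∉ Submodule.span F {a₂}) (h0 : 𝔣 a₂ a₁ = 0)
    (hM : eG (P.tsX a₂ ha₂) h0 ∈ M) : ∀ a ∈ X, a ∈ pts (Q := Q) M := by
  have hs1 : ∀ {b : ι → F}, ∀ hb : b ∈ X, eG (P.tsX a₂ ha₂) (P.polX ha₂ hb) ∈ M := fun hb =>
    spread hQ P hdim hE ha₁ ha₂ hne h0 hM hb
  -- second arguments for an arbitrary first argument
  have hs2 : ∀ a, ∀ ha : a ∈ X, ∀ b, ∀ hb : b ∈ X, eG (P.tsX a ha) (P.polX ha hb) ∈ M := by
    intro a ha b hb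
    by_cases hmem : a ∈ Submodule.span F {a₂}
    · obtain ⟨s, rfl⟩ := Submodule.mem_span_singleton.1 hmem
      have h1 := hs1 (X.smul_mem s hb)
      have e : eichlerIso (P.tsX _ ha) (P.polX ha hb) = eichlerIso (P.tsX a₂ ha₂) (P.polX ha₂ (X.smul_mem s hb)) :=
        eichlerIso_smul s (P.tsX a₂ ha₂) _ _ _
      rw [eG, e]
      exact h1
    · have h1 := hs1 ha
      have hna : -a₂ ∉ Submodule.span F {a} := fun h => UPair.not_mem_singleton_symm ha20 hmem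
        (by simpa using Submodule.neg_mem _ h)
      have h2 : 𝔣 a (-a₂) = 0 := P.polX ha (X.neg_mem ha₂)
      have e : eichlerIso (P.tsX a₂ ha₂) (P.polX ha₂ ha) = eichlerIso (P.tsX a ha) h2 :=
        eichler_swap (P.tsX a₂ ha₂) (P.tsX a ha) _ _
      have h3 : eG (P.tsX a ha) h2 ∈ M := by
        rw [eG, ← e]
        exact h1
      exact spread hQ P hdim hE (X.neg_mem ha₂) ha hna h2 h3 hb
  intro a ha
  refine ⟨P.tsX a ha, fun b hb => ?_⟩
  obtain ⟨b₁, h₁, b₂, h₂, rfl⟩ := P.decomp b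
  have h3 : 𝔣 a b₂ = 0 := by
    rw [polar_add_right, P.polX ha h₁, zero_add] at hb
    exact hb
  exact OLine.eG_mul (P.tsX a ha) (P.polX ha h₁) h3 hb (hs2 a ha b₁ h₁) (hE a ha b₂ h₂ h3)

section Swap

/-- The nilpotent map of a family. -/
noncomputable def fN {r : ℕ} (a b : Fin r → ι → F) (Q : QuadraticForm F (ι → F)) (x : ι → F) : ι → F :=
  ∑ i, (polar (⇑Q) (a i) x • b i - polar (⇑Q) (b i) x • a i)

theorem fN_add {r : ℕ} (a b : Fin r → ι → F) (x y : ι → F) : fN a b Q (x + y) = fN a b Q x + fN a b Q y := by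
  simp only [fN, polar_add_right, ← Finset.sum_add_distrib]
  refine Finset.sum_congr rfl fun i _ => ?_
  module

theorem fN_of_orth {r : ℕ} (a b : Fin r → ι → F) {x : ι → F} (h1 : ∀ i, 𝔣 (a i) x = 0) (h2 : ∀ i, 𝔣 (b i) x = 0) :
    fN a b Q x = 0 := by
  simp [fN, h1, h2]

theorem fN_mem {r : ℕ} {X : Submodule F (ι → F)} {a b : Fin r → ι → F} (ha : ∀ i, a i ∈ X) (hb : ∀ i, b i ∈ X)
    (x : ι → F) : fN a b Q x ∈ X :=
  X.sum_mem fun i _ => X.sub_mem (X.smul_mem _ (hb i)) (X.smul_mem _ (ha i))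

/-- A product of commuting Eichler transformations. -/
theorem exists_fam (hQ : (polarBilin Q).Nondegenerate) (hn : 5 ≤ Fintype.card ι) {X : Submodule F (ι → F)}
    (hX : ∀ x ∈ X, Q x = 0) {r : ℕ} (a b : Fin r → ι → F) (ha : ∀ i, a i ∈ X) (hb : ∀ i, b i ∈ X) :
    ∃ A ∈ omegaGL (⇑Q), ∀ x, (A : Matrix ι ι F) *ᵥ x = x + fN a b Q x := by
  induction r with
  | zero => exact ⟨1, one_mem _, fun x => by simp [fN]⟩
  | succ r ih =>
    obtain ⟨A, hA, hAx⟩ := ih (fun i => a i.succ) (fun i => b i.succ) (fun i => ha _) (fun i => hb _)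
    have h0 := polar_of_ts hX (ha 0) (hb 0)
    refine ⟨eG (hX _ (ha 0)) h0 * A, mul_mem (eG_mem_omegaGL hQ hn _ _) hA, fun x => ?_⟩
    rw [Units.val_mul, ← Matrix.mulVec_mulVec, hAx, eG_mulVec, hX _ (hb 0)]
    have hm := fN_mem (Q := Q) (X := X) (a := fun i => a i.succ) (b := fun i => b i.succ) (fun i => ha _)
      (fun i => hb _) x
    rw [polar_add_right, polar_add_right, polar_of_ts hX (ha 0) hm, polar_of_ts hX (hb 0) hm]
    simp only [fN, Fin.sum_univ_succ]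
    module

theorem polar_sum_left {J : Type*} (s : Finset J) (g : J → ι → F) (y : ι → F) :
    𝔣 (∑ i ∈ s, g i) y = ∑ i ∈ s, 𝔣 (g i) y :=
  map_sum ((polarBilin Q).flip y) g s

theorem polar_sum_right {J : Type*} (s : Finset J) (g : J → ι → F) (y : ι → F) :
    𝔣 y (∑ i ∈ s, g i) = ∑ i ∈ s, 𝔣 y (g i) :=
  map_sum (polarBilin Q y) g s

/-- The composition of two family maps. -/
theorem fN_fN {r : ℕ} {a a' c c' : Fin r → ι → F} (h00 : ∀ i j, 𝔣 (a i) (c j) = if i = j then 1 else 0)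
    (h01 : ∀ i j, 𝔣 (a i) (c' j) = 0) (h10 : ∀ i j, 𝔣 (a' i) (c j) = 0)
    (h11 : ∀ i j, 𝔣 (a' i) (c' j) = if i = j then 1 else 0) (x : ι → F) :
    fN a a' Q (fN c c' Q x) = - ∑ i, (𝔣 (c i) x • a i + 𝔣 (c' i) x • a' i) := by
  have h1 : ∀ i, 𝔣 (a i) (fN c c' Q x) = - 𝔣 (c' i) x := by
    intro i
    rw [fN, polar_sum_right]
    simp only [polar_sub_right, polar_smul_right', h00, h01]
    simp
  have h2 : ∀ i, 𝔣 (a' i) (fN c c' Q x) = 𝔣 (c i) x := by
    intro i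
    rw [fN, polar_sum_right]
    simp only [polar_sub_right, polar_smul_right', h10, h11]
    simp
  rw [fN]
  simp only [h1, h2]
  rw [← Finset.sum_neg_distrib]
  refine Finset.sum_congr rfl fun i _ => ?_
  module

/-- A swap of `X` and `Y` in `Ω`. -/
theorem exists_swap (hQ : (polarBilin Q).Nondegenerate) (hn : 5 ≤ Fintype.card ι) (P : OP Q X Y) {r : ℕ}
    (hr : finrank F X = 2 * r) :
    ∃ τ ∈ omegaGL (⇑Q), (∀ x ∈ X, (τ : Matrix ι ι F) *ᵥ x ∈ Y) ∧ (∀ x ∈ Y, (τ : Matrix ι ι F) *ᵥ x ∈ X) := by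
  have hJ : Fintype.card (Fin (finrank F X)) = Fintype.card (Fin r ⊕ Fin r) := by
    simp [hr]
    ring
  let b : Basis (Fin r ⊕ Fin r) F X := (Module.finBasis F X).reindex (Fintype.equivOfCardEq hJ)
  let e : Fin r ⊕ Fin r → ι → F := fun i => (b i : ι → F)
  have he : ∀ i, e i ∈ X := fun i => (b i).2
  have hli : LinearIndependent F e := b.linearIndependent.map' X.subtype (by simp)
  -- the dual family
  have hdual : ∀ j : Fin r ⊕ Fin r, ∃ y ∈ Y, ∀ i, 𝔣 (e i) y = if i = j then 1 else 0 := by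
    intro j
    have hnot : e j ∉ Submodule.span F (e '' {i | i ≠ j}) :=
      hli.notMem_span_image (by simp)
    obtain ⟨y, hy, h0, h1⟩ := P.prescribe hQ (he j) hnot
    refine ⟨y, hy, fun i => ?_⟩
    split_ifs with h
    · rw [h, h1]
    · exact h0 _ (he i) (Submodule.subset_span ⟨i, h, rfl⟩)
  choose d hdY hd using hdual
  have hd' : ∀ i j, 𝔣 (d j) (e i) = if i = j then 1 else 0 := fun i j => by rw [polar_comm, hd]
  -- expansions
  have expX : ∀ x ∈ X, x = ∑ i, 𝔣 (d i) x • e i := by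
    intro x hx
    have e1 := b.sum_repr ⟨x, hx⟩
    have e2 : x = ∑ i, b.repr ⟨x, hx⟩ i • e i := by
      have e3 := congrArg Subtype.val e1
      simp only [AddSubmonoidClass.coe_finsetSum, Submodule.coe_smul] at e3
      exact e3.symm
    have e4 : ∀ j, 𝔣 (d j) x = b.repr ⟨x, hx⟩ j := by
      intro j
      conv_lhs => rw [e2]
      rw [polar_sum_right]
      simp only [polar_smul_right', hd']
      simp
    simp only [e4]
    exact e2
  have expY : ∀ y ∈ Y, y = ∑ i, 𝔣 (e i) y • d i := by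
    intro y hy
    rw [← sub_eq_zero]
    apply eq_zero_of_polar hQ
    intro v
    have hmem : y - ∑ i, 𝔣 (e i) y • d i ∈ Y := Y.sub_mem hy (Y.sum_mem fun i _ => Y.smul_mem _ (hdY i))
    obtain ⟨x₁, h₁, x₂, h₂, rfl⟩ := P.decomp v
    rw [polar_add_right, P.polY hmem h₂, add_zero, polar_comm]
    have hxe : ∀ j, 𝔣 (e j) (y - ∑ i, 𝔣 (e i) y • d i) = 0 := by
      intro j
      rw [polar_sub_right, polar_sum_right]
      simp only [polar_smul_right', hd]
      simp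
    rw [expX x₁ h₁, polar_sum_left]
    refine Finset.sum_eq_zero fun i _ => ?_
    rw [polar_smul_left', hxe, mul_zero]
  -- the families
  let a : Fin r → ι → F := fun i => e (Sum.inl i)
  let a' : Fin r → ι → F := fun i => e (Sum.inr i)
  let c : Fin r → ι → F := fun i => d (Sum.inl i)
  let c' : Fin r → ι → F := fun i => d (Sum.inr i)
  have ha : ∀ i, a i ∈ X := fun i => he _
  have ha' : ∀ i, a' i ∈ X := fun i => he _
  have hc : ∀ i, c i ∈ Y := fun i => hdY _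
  have hc' : ∀ i, c' i ∈ Y := fun i => hdY _
  have h00 : ∀ i j, 𝔣 (a i) (c j) = if i = j then 1 else 0 := fun i j => by simp [a, c, hd]
  have h01 : ∀ i j, 𝔣 (a i) (c' j) = 0 := fun i j => by simp [a, c', hd]
  have h10 : ∀ i j, 𝔣 (a' i) (c j) = 0 := fun i j => by simp [a', c, hd]
  have h11 : ∀ i j, 𝔣 (a' i) (c' j) = if i = j then 1 else 0 := fun i j => by simp [a', c', hd]
  have k00 : ∀ i j, 𝔣 (c i) (a j) = if i = j then 1 else 0 := fun i j => by
    rw [polar_comm, h00]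
    simp [eq_comm]
  have k01 : ∀ i j, 𝔣 (c i) (a' j) = 0 := fun i j => by rw [polar_comm, h10]
  have k10 : ∀ i j, 𝔣 (c' i) (a j) = 0 := fun i j => by rw [polar_comm, h01]
  have k11 : ∀ i j, 𝔣 (c' i) (a' j) = if i = j then 1 else 0 := fun i j => by
    rw [polar_comm, h11]
    simp [eq_comm]
  have N12 : ∀ x ∈ X, fN a a' Q (fN c c' Q x) = - x := by
    intro x hx
    rw [fN_fN h00 h01 h10 h11, Finset.sum_add_distrib]
    congr 1
    conv_rhs => rw [expX x hx]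
    rw [Fintype.sum_sum_type]
  have N21 : ∀ y ∈ Y, fN c c' Q (fN a a' Q y) = - y := by
    intro y hy
    rw [fN_fN k00 k01 k10 k11, Finset.sum_add_distrib]
    congr 1
    conv_rhs => rw [expY y hy]
    rw [Fintype.sum_sum_type]
  have van1 : ∀ x ∈ X, fN a a' Q x = 0 := fun x hx =>
    fN_of_orth _ _ (fun i => P.polX (ha i) hx) (fun i => P.polX (ha' i) hx)
  have van2 : ∀ x ∈ Y, fN c c' Q x = 0 := fun x hx =>
    fN_of_orth _ _ (fun i => P.polY (hc i) hx) (fun i => P.polY (hc' i) hx)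
  have m1 : ∀ x, fN a a' Q x ∈ X := fN_mem ha ha'
  have m2 : ∀ x, fN c c' Q x ∈ Y := fN_mem hc hc'
  obtain ⟨A, hA, hAx⟩ := exists_fam hQ hn P.tsX a a' ha ha'
  obtain ⟨B, hB, hBx⟩ := exists_fam hQ hn P.tsY c c' hc hc'
  have hτ : ∀ x, ((A * B * A : GL ι F) : Matrix ι ι F) *ᵥ x =
      ((A : GL ι F) : Matrix ι ι F) *ᵥ (((B : GL ι F) : Matrix ι ι F) *ᵥ (((A : GL ι F) : Matrix ι ι F) *ᵥ x)) := by
    intro x
    rw [Units.val_mul, Units.val_mul, Matrix.mulVec_mulVec, Matrix.mulVec_mulVec, Matrix.mul_assoc]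
  refine ⟨A * B * A, mul_mem (mul_mem hA hB) hA, fun x hx => ?_, fun y hy => ?_⟩
  · rw [hτ, hAx x, van1 x hx, add_zero, hBx, hAx, fN_add, van1 x hx, zero_add, N12 x hx]
    have e' : x + fN c c' Q x + -x = fN c c' Q x := by abel
    rw [e']
    exact m2 x
  · rw [hτ, hAx y, hBx, fN_add, van2 y hy, zero_add, N21 y hy, hAx]
    have e' : y + fN a a' Q y + -y = fN a a' Q y := by abel
    rw [e', van1 _ (m1 y), add_zero]
    exact m1 y

end Swap

/-- Independent images. -/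
theorem exists_good_pair (hQ : (polarBilin Q).Nondegenerate) (P : OP Q X Y) {Z : Submodule F (ι → F)}
    (T : (ι → F) →ₗ[F] (ι → F)) (hsurj : Z ≤ LinearMap.range T) (hZ : 4 < finrank F Z) {a₀ b₀ : ι → F}
    (ha₀ : a₀ ∈ X) (hb₀ : b₀ ∈ Y) (hT₀ : T a₀ ≠ 0) (hT₁ : T b₀ ≠ 0) :
    ∃ a ∈ X, ∃ b ∈ Y, 𝔣 a b = 0 ∧ T a ≠ 0 ∧ T b ∉ Submodule.span F {T a} := by
  by_contra hcon
  push Not at hcon
  have ha₀0 : a₀ ≠ 0 := by
    rintro rfl
    simp at hT₀
  have hb₀0 : b₀ ≠ 0 := by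
    rintro rfl
    simp at hT₁
  obtain ⟨a₁, ha₁, -, ha₁1⟩ := P.symm.prescribe hQ (S := ⊥) hb₀ (by simpa using hb₀0)
  obtain ⟨b₁, hb₁, -, hb₁1⟩ := P.prescribe hQ (S := ⊥) ha₀ (by simpa using ha₀0)
  let S : Submodule F (ι → F) := Submodule.span F {T b₀, T a₁} ⊔ Submodule.span F {T a₀, T b₁}
  have hS : finrank F S ≤ 4 := by
    have h1 := Submodule.finrank_add_le_finrank_add_finrank (Submodule.span F {T b₀, T a₁})
      (Submodule.span F {T a₀, T b₁})
    have h2 := finrank_span_pair_le (T b₀) (T a₁)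
    have h3 := finrank_span_pair_le (T a₀) (T b₁)
    change finrank F ↥(Submodule.span F {T b₀, T a₁} ⊔ Submodule.span F {T a₀, T b₁}) ≤ 4
    omega
  have hSX : ∀ a ∈ X, T a ∈ S := by
    intro a ha
    have hmem : a - 𝔣 b₀ a • a₁ ∈ X := X.sub_mem ha (X.smul_mem _ ha₁)
    have h0 : 𝔣 (a - 𝔣 b₀ a • a₁) b₀ = 0 := by
      rw [polar_sub_left, polar_smul_left', polar_comm (⇑Q) a₁ b₀, ha₁1, mul_one, polar_comm, sub_self]
    have hin : T (a - 𝔣 b₀ a • a₁) ∈ Submodule.span F {T b₀} := by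
      by_cases hz : T (a - 𝔣 b₀ a • a₁) = 0
      · rw [hz]
        exact Submodule.zero_mem _
      · exact by_contra fun hnot => UPair.not_mem_singleton_symm hT₁ hnot (hcon _ hmem _ hb₀ h0 hz)
    have e : T a = T (a - 𝔣 b₀ a • a₁) + 𝔣 b₀ a • T a₁ := by
      rw [map_sub, map_smul]
      abel
    rw [e]
    refine S.add_mem ?_ (S.smul_mem _ ?_)
    · exact Submodule.mem_sup_left (Submodule.span_mono (by simp) hin)
    · exact Submodule.mem_sup_left (Submodule.span_mono (by simp) (Submodule.mem_span_singleton_self _))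
  have hSY : ∀ b ∈ Y, T b ∈ S := by
    intro b hb
    have hmem : b - 𝔣 a₀ b • b₁ ∈ Y := Y.sub_mem hb (Y.smul_mem _ hb₁)
    have h0 : 𝔣 a₀ (b - 𝔣 a₀ b • b₁) = 0 := by
      rw [polar_sub_right, polar_smul_right', hb₁1, mul_one, sub_self]
    have hin := hcon _ ha₀ _ hmem h0 hT₀
    have e : T b = T (b - 𝔣 a₀ b • b₁) + 𝔣 a₀ b • T b₁ := by
      rw [map_sub, map_smul]
      abel
    rw [e]
    refine S.add_mem ?_ (S.smul_mem _ ?_)
    · exact Submodule.mem_sup_right (Submodule.span_mono (by simp) hin)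
    · exact Submodule.mem_sup_right (Submodule.span_mono (by simp) (Submodule.mem_span_singleton_self _))
  have hZS : Z ≤ S := by
    intro z hz
    obtain ⟨x, rfl⟩ := hsurj hz
    obtain ⟨x₁, h₁, x₂, h₂, rfl⟩ := P.decomp x
    rw [map_add]
    exact S.add_mem (hSX _ h₁) (hSY _ h₂)
  have := Submodule.finrank_mono hZS
  omega

/-- `X` and `Y` consist of centres. -/
theorem isMaximalIn_pair (hQ : (polarBilin Q).Nondegenerate) (hn : 5 ≤ Fintype.card ι) {r : ℕ} (hk : 4 ≤ r)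
    (D : Fin 2 → Submodule F (ι → F)) (hD : IsMDecomposition (2 * r) D) (hts : ∀ i, ∀ x ∈ D i, Q x = 0) :
    IsMaximalIn (omegaGL (⇑Q)) (decompositionStabilizer D ⊓ omegaGL (⇑Q)) := by
  set X := D 0 with hX
  set Y := D 1 with hY
  have hdimX : finrank F X = 2 * r := hD.finrank_eq 0
  have hdimY : finrank F Y = 2 * r := hD.finrank_eq 1
  have hdim' : ∀ i j, finrank F (D i) = finrank F (D j) := fun i j => by
    rw [hD.finrank_eq, hD.finrank_eq]
  have P : OP Q X Y := by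
    refine ⟨hts 0, hts 1, ⟨hD.indep.pairwiseDisjoint (by simp), ?_⟩⟩
    rw [codisjoint_iff, eq_top_iff, ← hD.iSup_eq_top]
    apply iSup_le
    intro i
    fin_cases i
    · exact le_sup_left
    · exact le_sup_right
  have hX7 : 7 ≤ finrank F X := by omega
  have hY7 : 7 ≤ finrank F Y := by omega
  -- the elements `E(p, q)` and the swap lie in the stabiliser
  have hEH : ∀ p, ∀ hp : p ∈ X, ∀ q ∈ Y, ∀ h : 𝔣 p q = 0,
      eG (P.tsX p hp) h ∈ decompositionStabilizer D ⊓ omegaGL (⇑Q) := by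
    intro p hp q hq h
    refine ⟨UPair.mem_stab hdim' _ 1 ?_, eG_mem_omegaGL hQ hn _ _⟩
    intro i
    fin_cases i
    · intro x hx
      change _ ∈ X
      rw [eG_mulVec, P.polX hp hx, P.tsY q hq]
      simpa using X.sub_mem hx (X.smul_mem _ hp)
    · intro x hx
      change _ ∈ Y
      rw [eG_mulVec, P.polY hq hx, P.tsY q hq]
      simpa using Y.add_mem hx (Y.smul_mem _ hq)
  have hEH' : ∀ p, ∀ hp : p ∈ Y, ∀ q ∈ X, ∀ h : 𝔣 p q = 0,
      eG (P.tsY p hp) h ∈ decompositionStabilizer D ⊓ omegaGL (⇑Q) := by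
    intro p hp q hq h
    refine ⟨UPair.mem_stab hdim' _ 1 ?_, eG_mem_omegaGL hQ hn _ _⟩
    intro i
    fin_cases i
    · intro x hx
      change _ ∈ X
      rw [eG_mulVec, P.polX hq hx, P.tsX q hq]
      simpa using X.add_mem hx (X.smul_mem _ hq)
    · intro x hx
      change _ ∈ Y
      rw [eG_mulVec, P.polY hp hx, P.tsX q hq]
      simpa using Y.sub_mem hx (Y.smul_mem _ hp)
  obtain ⟨τ, hτS, hτ1, hτ2⟩ := exists_swap hQ hn P hdimX
  have hτH : τ ∈ decompositionStabilizer D ⊓ omegaGL (⇑Q) := by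
    refine ⟨UPair.mem_stab hdim' _ (Equiv.swap 0 1) ?_, hτS⟩
    intro i
    fin_cases i
    · simpa using hτ1
    · simpa using hτ2
  -- strictness
  have hpos : X ≠ ⊥ := by
    intro h
    rw [h, finrank_bot] at hdimX
    omega
  obtain ⟨a, ha, ha0⟩ := Submodule.exists_mem_ne_zero_of_ne_bot hpos
  obtain ⟨a', ha', -, -, ha'S⟩ := exists_mem_orth (Q := Q) X 0 0 (Submodule.span F {a}) (by
    have h3 : finrank F (Submodule.span F {a}) ≤ 2 :=
      (Submodule.finrank_mono (Submodule.span_mono (by simp))).trans (finrank_span_pair_le a a)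
    omega)
  obtain ⟨b, hb, hb0, hb1⟩ := P.prescribe hQ ha (S := Submodule.span F {a'})
    (UPair.not_mem_singleton_symm ha0 ha'S)
  have hb2 : 𝔣 a' b = 0 := hb0 a' ha' (Submodule.mem_span_singleton_self _)
  have hdisj : ∀ z, z ∈ X → z ∈ Y → z = 0 := fun z h₁ h₂ =>
    (Submodule.disjoint_def.1 P.compl.disjoint) z h₁ h₂
  have ha'0 : a' ≠ 0 := by
    rintro rfl
    exact ha'S (Submodule.zero_mem _)
  have hsymm : ∀ z, z ∈ X → z ∈ Y → z = 0 := hdisj
  refine ⟨lt_of_le_of_ne inf_le_right ?_, ?_⟩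
  · intro heq
    have hm : eG (P.tsX a ha) (P.polX ha ha') ∈ decompositionStabilizer D ⊓ omegaGL (⇑Q) := by
      rw [heq]
      exact eG_mem_omegaGL hQ hn _ _
    obtain ⟨π, hπ⟩ := hm.1
    have h1 : (eG (P.tsX a ha) (P.polX ha ha') : Matrix ι ι F) *ᵥ b ∈ D (π 1) := by
      rw [← hπ 1]
      exact ⟨_, hb, rfl⟩
    have h2 : (eG (P.tsX a ha) (P.polX ha ha') : Matrix ι ι F) *ᵥ a = a := by
      rw [eG_mulVec, P.polX ha ha, P.polX ha' ha]
      simp
    have h3 : a ∈ D (π 0) := by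
      rw [← hπ 0, Submodule.mem_map]
      exact ⟨a, ha, h2⟩
    have h0 : π 0 = 0 := by
      have hs : π 0 = 0 ∨ π 0 = 1 := by
        generalize π 0 = s
        fin_cases s <;> simp
      rcases hs with hs | hs
      · exact hs
      · rw [hs] at h3
        exact absurd (hdisj a ha h3) ha0
    have h4 : π 1 = 1 := by
      have hne : π 1 ≠ π 0 := fun h => by
        have := π.injective h
        simp at this
      rw [h0] at hne
      generalize π 1 = s at hne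
      fin_cases s
      · simp at hne
      · rfl
    rw [h4, eG_mulVec, hb1, hb2] at h1
    have hQa' : Q a' = 0 := P.tsX a' ha'
    rw [hQa'] at h1
    have h5 : a' ∈ Y := by
      have e : a' = b + (1 : F) • a' - (0 : F) • a - (0 * 1 : F) • a - b := by module
      rw [e]
      exact Y.sub_mem h1 hb
    exact ha'0 (hdisj a' ha' h5)
  · intro M hHM hMS
    by_cases hMH : M ≤ decompositionStabilizer D ⊓ omegaGL (⇑Q)
    · exact Or.inl (le_antisymm hMH hHM)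
    right
    apply le_antisymm hMS
    obtain ⟨g, hgM, hgH⟩ := SetLike.not_le_iff_exists.1 hMH
    have hgΩ := hMS hgM
    have hgiso : g ∈ Cfsg.isometryGroup F (⇑Q) := omegaGL_le_iso hgΩ
    set g₀ : ↥(Cfsg.isometryGroup F (⇑Q)) := ⟨g, hgiso⟩ with hg₀
    have hg₀M : (g₀ : GL ι F) ∈ M := hgM
    have hg0 : g ∉ decompositionStabilizer D := fun h => hgH ⟨h, hgΩ⟩
    obtain ⟨π, hπ1, hπ2, hπ3, hπ4⟩ := Decomp.exists_projections hD.indep hD.iSup_eq_top
    have hsum : ∀ x, π 0 x + π 1 x = x := fun x => by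
      have := hπ4 x
      rwa [Fin.sum_univ_two] at this
    have hE : ∀ p, ∀ hp : p ∈ X, ∀ q ∈ Y, ∀ h : 𝔣 p q = 0, eG (P.tsX p hp) h ∈ M :=
      fun p hp q hq h => hHM (hEH p hp q hq h)
    have hE' : ∀ p, ∀ hp : p ∈ Y, ∀ q ∈ X, ∀ h : 𝔣 p q = 0, eG (P.tsY p hp) h ∈ M :=
      fun p hp q hq h => hHM (hEH' p hp q hq h)
    have hb0' : b ≠ 0 := by
      rintro rfl
      rw [polar_comm] at hb1
      simp [polar] at hb1
    -- the blocks
    let G : (ι → F) →ₗ[F] (ι → F) := Matrix.toLin' (g : Matrix ι ι F)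
    have hG : ∀ x, G x = (g : Matrix ι ι F) *ᵥ x := fun x => rfl
    have hcases : (∃ a ∈ X, π 0 (G a) ≠ 0) ∧ (∃ b ∈ Y, π 0 (G b) ≠ 0) ∨
        (∃ a ∈ X, π 1 (G a) ≠ 0) ∧ (∃ b ∈ Y, π 1 (G b) ≠ 0) := by
      have n1 : (∃ a ∈ X, π 0 (G a) ≠ 0) ∨ (∃ a ∈ X, π 1 (G a) ≠ 0) := by
        by_contra hh
        push Not at hh
        apply ha0
        have := hsum (G a)
        rw [hh.1 a ha, hh.2 a ha, add_zero] at this
        exact Basic.mulVec_injective g (by simpa [hG] using this.symm)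
      have n2 : (∃ a ∈ Y, π 0 (G a) ≠ 0) ∨ (∃ a ∈ Y, π 1 (G a) ≠ 0) := by
        by_contra hh
        push Not at hh
        apply hb0'
        have := hsum (G b)
        rw [hh.1 b hb, hh.2 b hb, add_zero] at this
        exact Basic.mulVec_injective g (by simpa [hG] using this.symm)
      have n3 : (∃ a ∈ X, π 1 (G a) ≠ 0) ∨ (∃ a ∈ Y, π 0 (G a) ≠ 0) := by
        by_contra hh
        push Not at hh
        apply hg0
        refine UPair.mem_stab hdim' g 1 ?_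
        intro i
        fin_cases i
        · intro x hx
          have := hsum (G x)
          rw [hh.1 x hx, add_zero] at this
          rw [← hG, ← this]
          exact hπ1 _ _
        · intro x hx
          have := hsum (G x)
          rw [hh.2 x hx, zero_add] at this
          rw [← hG, ← this]
          exact hπ1 _ _
      have n4 : (∃ a ∈ X, π 0 (G a) ≠ 0) ∨ (∃ a ∈ Y, π 1 (G a) ≠ 0) := by
        by_contra hh
        push Not at hh
        apply hg0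
        refine UPair.mem_stab hdim' g (Equiv.swap 0 1) ?_
        intro i
        fin_cases i
        · intro x hx
          have := hsum (G x)
          rw [hh.1 x hx, zero_add] at this
          simp only [Fin.zero_eta, Equiv.swap_apply_left]
          rw [← hG, ← this]
          exact hπ1 _ _
        · intro x hx
          have := hsum (G x)
          rw [hh.2 x hx, add_zero] at this
          simp only [Fin.mk_one, Equiv.swap_apply_right]
          rw [← hG, ← this]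
          exact hπ1 _ _
      exact UPair.prop_blocks n1 n2 n3 n4
    have hrange : ∀ i, D i ≤ LinearMap.range (π i ∘ₗ G) := by
      intro i z hz
      refine ⟨((g⁻¹ : GL ι F) : Matrix ι ι F) *ᵥ z, ?_⟩
      change π i ((g : Matrix ι ι F) *ᵥ (((g⁻¹ : GL ι F) : Matrix ι ι F) *ᵥ z)) = z
      rw [Basic.mulVec_inv_mulVec, hπ2 i z hz]
    have hconj : ∀ {a b : ι → F} (ha : Q a = 0) (hb : 𝔣 a b = 0), eG ha hb ∈ M →
        eG (by rwa [Q_act] : Q (act g₀ a) = 0) (by rwa [polar_act] : 𝔣 (act g₀ a) (act g₀ b) = 0) ∈ M := by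
      intro a b ha hb h
      rw [eG, ← conj_eichlerIso g₀ ha hb]
      simpa using M.mul_mem (M.mul_mem hg₀M h) (M.inv_mem hg₀M)
    have hτiso : τ ∈ Cfsg.isometryGroup F (⇑Q) := omegaGL_le_iso hτS
    set τ₀ : ↥(Cfsg.isometryGroup F (⇑Q)) := ⟨τ, hτiso⟩ with hτ₀
    have hτ₀M : (τ₀ : GL ι F) ∈ M := hHM hτH
    have hτ₀M' : ((τ₀⁻¹ : ↥(Cfsg.isometryGroup F (⇑Q))) : GL ι F) ∈ M := by
      simpa using M.inv_mem hτ₀M
    have hpts : (∀ a ∈ X, a ∈ pts (Q := Q) M) ∧ (∀ a ∈ Y, a ∈ pts (Q := Q) M) := by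
      rcases hcases with ⟨⟨a₀, ha₀, h₀⟩, ⟨b₀, hb₀, h₁⟩⟩ | ⟨⟨a₀, ha₀, h₀⟩, ⟨b₀, hb₀, h₁⟩⟩
      · obtain ⟨a', ha', b', hb', hab, hn, hi⟩ := exists_good_pair hQ P (π 0 ∘ₗ G) (hrange 0)
          (by rw [show finrank F ↥(D 0) = 2 * r from hdimX]; omega) ha₀ hb₀ h₀ h₁
        have hcc : Q (π 0 (G a') + π 1 (G a')) = 0 := by
          rw [hsum]
          exact (Q_act g₀ a').trans (P.tsX a' ha')
        have hcd : 𝔣 (π 0 (G a') + π 1 (G a')) (π 0 (G b') + π 1 (G b')) = 0 := by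
          rw [hsum, hsum]
          exact (polar_act g₀ a' b').trans hab
        have hM0 : eG hcc hcd ∈ M := by
          have h3 := hconj (P.tsX a' ha') hab (hE a' ha' b' hb' hab)
          have e : eichlerIso hcc hcd = eichlerIso (by rw [Q_act]; exact P.tsX a' ha' : Q (act g₀ a') = 0)
              (by rw [polar_act]; exact hab : 𝔣 (act g₀ a') (act g₀ b') = 0) :=
            eichlerIso_congr (hsum _) (hsum _) _ _ _ _
          rw [eG, e]
          exact h3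
        obtain ⟨a₁, ha₁, a₂, ha₂, ha20, hne, h0, hM1⟩ := chain hQ P hX7 hE (hπ1 0 _) (hπ1 1 _) (hπ1 0 _) (hπ1 1 _)
          hcc hcd hM0 hn hi
        have hXp := all_X hQ P hX7 hE ha₁ ha₂ ha20 hne h0 hM1
        refine ⟨hXp, fun y hy => ?_⟩
        have h3 := act_mem_pts (hXp _ (hτ2 y hy)) τ₀⁻¹ hτ₀M'
        have e : act τ₀⁻¹ ((τ : Matrix ι ι F) *ᵥ y) = y := act_inv_act τ₀ y
        rwa [e] at h3
      · obtain ⟨a', ha', b', hb', hab, hn, hi⟩ := exists_good_pair hQ P (π 1 ∘ₗ G) (hrange 1)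
          (by rw [show finrank F ↥(D 1) = 2 * r from hdimY]; omega) ha₀ hb₀ h₀ h₁
        have e1 : ∀ x, π 1 x + π 0 x = x := fun x => by rw [add_comm, hsum]
        have hcc : Q (π 1 (G a') + π 0 (G a')) = 0 := by
          rw [e1]
          exact (Q_act g₀ a').trans (P.tsX a' ha')
        have hcd : 𝔣 (π 1 (G a') + π 0 (G a')) (π 1 (G b') + π 0 (G b')) = 0 := by
          rw [e1, e1]
          exact (polar_act g₀ a' b').trans hab
        have hM0 : eG hcc hcd ∈ M := by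
          have h3 := hconj (P.tsX a' ha') hab (hE a' ha' b' hb' hab)
          have e : eichlerIso hcc hcd = eichlerIso (by rw [Q_act]; exact P.tsX a' ha' : Q (act g₀ a') = 0)
              (by rw [polar_act]; exact hab : 𝔣 (act g₀ a') (act g₀ b') = 0) :=
            eichlerIso_congr (e1 _) (e1 _) _ _ _ _
          rw [eG, e]
          exact h3
        obtain ⟨a₁, ha₁, a₂, ha₂, ha20, hne, h0, hM1⟩ := chain hQ P.symm hY7 hE' (hπ1 1 _) (hπ1 0 _) (hπ1 1 _) (hπ1 0 _)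
          hcc hcd hM0 hn hi
        have hYp := all_X hQ P.symm hY7 hE' ha₁ ha₂ ha20 hne h0 hM1
        refine ⟨fun y hy => ?_, hYp⟩
        have h3 := act_mem_pts (hYp _ (hτ1 y hy)) τ₀⁻¹ hτ₀M'
        have e : act τ₀⁻¹ ((τ : Matrix ι ι F) *ᵥ y) = y := act_inv_act τ₀ y
        rwa [e] at h3
    apply omegaGL_le hQ hn
    intro y hy
    exact pts_all hQ (hpts.1 a ha) (hpts.2 b hb) (by rw [hb1]; exact one_ne_zero) hy

end Cfsg.Agent.Lib.Classical.Geo.OPair
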