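/-
The stabiliser in `Ω` of a non-degenerate subspace is maximal, apart from small exceptions.
-/
import Mathlib
import Cfsg.Agent.Lib.Classical.Geo.OPair

set_option autoImplicit false
set_option linter.unusedSectionVars false

namespace Cfsg.Agent.Lib.Classical.Geo.ONondeg

open scoped Matrix
open Module Cfsg Cfsg.Geo QuadraticMap
open Cfsg.Agent.Lib.Classical.Orth.Basic
open Cfsg.Agent.Lib.Classical.Orth.CartanDieudonne
open Cfsg.Agent.Lib.Classical.Orth.Adjust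
open Cfsg.Agent.Lib.Classical.Orth.Siegel
open Cfsg.Agent.Lib.Classical.Orth.Generation
open Cfsg.Agent.Lib.Classical.Orth.Simple
open Cfsg.Agent.Lib.Classical.Witt.TS
open Cfsg.Agent.Lib.Classical.Witt.Hyp
open Cfsg.Agent.Lib.Classical.Geo.OPts
open Cfsg.Agent.Lib.Classical.Geo.OLine
open Cfsg.Agent.Lib.Classical.Geo.OPair

variable {ι : Type} [Fintype ι] [DecidableEq ι] {F : Type*} [Field F] [Fintype F]
variable {Q : QuadraticForm F (ι → F)}

set_option quotPrecheck false in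
local notation "𝔣" => polar (⇑Q)

/-- An orthogonal decomposition. -/
structure OD (Q : QuadraticForm F (ι → F)) (S R : Submodule F (ι → F)) : Prop where
  orth : ∀ a ∈ S, ∀ b ∈ R, polar (⇑Q) a b = 0
  compl : IsCompl S R

variable {S R : Submodule F (ι → F)}

theorem OD.orth' (P : OD Q S R) {a b : ι → F} (ha : a ∈ R) (hb : b ∈ S) : 𝔣 a b = 0 := by
  rw [polar_comm]
  exact P.orth b hb a ha

theorem OD.symm (P : OD Q S R) : OD Q R S := ⟨fun _ ha _ hb => P.orth' ha hb, P.compl.symm⟩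

theorem OD.decomp (P : OD Q S R) (x : ι → F) : ∃ x₁ ∈ S, ∃ x₂ ∈ R, x = x₁ + x₂ := by
  have hx : x ∈ S ⊔ R := by rw [P.compl.sup_eq_top]; trivial
  obtain ⟨x₁, h₁, x₂, h₂, e⟩ := Submodule.mem_sup.1 hx
  exact ⟨x₁, h₁, x₂, h₂, e.symm⟩

/-- Riesz in a part. -/
theorem OD.riesz (hQ : (polarBilin Q).Nondegenerate) (P : OD Q S R) {x : ι → F} (hx : x ∈ S)
    {X : Submodule F (ι → F)} (hxX : x ∉ X) : ∃ w ∈ S, (∀ a ∈ S, a ∈ X → 𝔣 a w = 0) ∧ 𝔣 x w = 1 := by
  obtain ⟨w, h1, h2⟩ := OLine.riesz hQ hxX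
  obtain ⟨w₁, h₁, w₂, h₂, rfl⟩ := P.decomp w
  have key : ∀ a ∈ S, 𝔣 a (w₁ + w₂) = 𝔣 a w₁ := fun a ha => by
    rw [polar_add_right, P.orth a ha w₂ h₂, add_zero]
  refine ⟨w₁, h₁, fun a ha haX => ?_, ?_⟩
  · rw [← key a ha, h1 a haX]
  · rw [← key x hx, h2]

/-- Non-degeneracy of a part. -/
theorem OD.nd (hQ : (polarBilin Q).Nondegenerate) (P : OD Q S R) {x : ι → F} (hx : x ∈ S) (hx0 : x ≠ 0) :
    ∃ y ∈ S, 𝔣 y x ≠ 0 := by
  obtain ⟨w, hw0, -, hw⟩ := P.riesz hQ hx (X := ⊥) (by simpa using hx0)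
  refine ⟨w, hw0, ?_⟩
  rw [polar_comm, hw]
  exact one_ne_zero

/-- A hyperbolic pair in a part, orthogonal to two given vectors. -/
theorem OD.exists_hyp (hQ : (polarBilin Q).Nondegenerate) (P : OD Q S R) (hdim : 7 ≤ finrank F S) {x₁ x₂ : ι → F}
    (h₁ : x₁ ∈ S) (h₂ : x₂ ∈ S) :
    ∃ z₁ ∈ S, ∃ z₂ ∈ S, 𝔣 x₁ z₁ = 0 ∧ 𝔣 x₂ z₁ = 0 ∧ 𝔣 x₁ z₂ = 0 ∧ 𝔣 x₂ z₂ = 0 ∧ Q z₁ = 0 ∧ Q z₂ = 0 ∧ 𝔣 z₁ z₂ = 1 := by
  set B : LinearMap.BilinForm F (ι → F) := polarBilin Q with hB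
  have hBnd : B.Nondegenerate := hQ
  set X := Submodule.span F {x₁, x₂} with hX
  have hXd : finrank F X ≤ 2 := finrank_span_pair_le x₁ x₂
  set T := B.orthogonal X with hT
  have hfT : finrank F T + finrank F X = Fintype.card ι := by
    have h6 := LinearMap.BilinForm.finrank_orthogonal hBnd X
    rw [Module.finrank_fintype_fun_eq_card, ← hT] at h6
    have : finrank F X ≤ finrank F (ι → F) := Submodule.finrank_le X
    rw [Module.finrank_fintype_fun_eq_card] at this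
    omega
  obtain ⟨q, hq⟩ := Submodule.exists_isCompl X
  have hfq : finrank F X + finrank F q = Fintype.card ι := by
    rw [Submodule.finrank_add_eq_of_isCompl hq, Module.finrank_fintype_fun_eq_card]
  have hup : ∀ A : Submodule F (ι → F), finrank F A ≤ Fintype.card ι := fun A => by
    have := Submodule.finrank_le A
    rwa [Module.finrank_fintype_fun_eq_card] at this
  have hfST : finrank F S + finrank F T ≤ finrank F ↥(S ⊓ T) + Fintype.card ι := by
    have h1 := Submodule.finrank_sup_add_finrank_inf_eq S T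
    have h2 := hup (S ⊔ T)
    omega
  have hfY : 3 ≤ finrank F ↥((S ⊓ T) ⊓ q) := by
    have h1 := Submodule.finrank_sup_add_finrank_inf_eq (S ⊓ T) q
    have h2 := hup ((S ⊓ T) ⊔ q)
    omega
  obtain ⟨⟨y, hy⟩, hy0, hQy⟩ := exists_singular_of_three_le (Q.comp ((S ⊓ T) ⊓ q).subtype) hfY
  have hy0' : y ≠ 0 := fun h => hy0 (Subtype.ext h)
  have hQy' : Q y = 0 := hQy
  have hyX : y ∉ X := by
    intro h
    apply hy0'
    have : y ∈ X ⊓ q := ⟨h, hy.2⟩
    rw [hq.inf_eq_bot] at this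
    exact this
  have hyS : y ∈ S := hy.1.1
  have hyT : ∀ x ∈ X, 𝔣 x y = 0 := fun x hx => by
    have : B x y = 0 := hy.1.2 x hx
    rwa [hB, polarBilin_apply_apply] at this
  obtain ⟨w, hw, hw0, hyw⟩ := P.riesz hQ hyS hyX
  have h1X : x₁ ∈ X := Submodule.subset_span (by simp)
  have h2X : x₂ ∈ X := Submodule.subset_span (by simp)
  refine ⟨y, hyS, w - Q w • y, S.sub_mem hw (S.smul_mem _ hyS), hyT _ h1X, hyT _ h2X, ?_, ?_, hQy', ?_, ?_⟩
  · rw [polar_sub_right, polar_smul_right', hw0 _ h₁ h1X, hyT _ h1X]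
    ring
  · rw [polar_sub_right, polar_smul_right', hw0 _ h₂ h2X, hyT _ h2X]
    ring
  · rw [Q_sub, Q_smul, hQy', polar_smul_right', polar_comm (⇑Q) w y, hyw]
    ring
  · rw [polar_sub_right, polar_smul_right', polar_zero_of_singular hQy', hyw]
    ring

/-- Vectors of a part with prescribed inner products and norm. -/
theorem OD.exists_u (hQ : (polarBilin Q).Nondegenerate) (P : OD Q S R) (hdim : 7 ≤ finrank F S) {x e : ι → F}
    (hx : x ∈ S) (he : e ∈ S) (hxe : x ∉ Submodule.span F {e}) (hex : e ∉ Submodule.span F {x}) (s₁ s₂ t : F) :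
    ∃ u ∈ S, 𝔣 x u = s₁ ∧ 𝔣 e u = s₂ ∧ Q u = t := by
  obtain ⟨w₁, hw₁, h10, h11⟩ := P.riesz hQ hx hxe
  obtain ⟨w₂, hw₂, h20, h21⟩ := P.riesz hQ he hex
  have h12 : 𝔣 e w₁ = 0 := h10 e he (Submodule.mem_span_singleton_self _)
  have h22 : 𝔣 x w₂ = 0 := h20 x hx (Submodule.mem_span_singleton_self _)
  obtain ⟨y, hyS, ey1, ey2⟩ : ∃ y ∈ S, 𝔣 x y = s₁ ∧ 𝔣 e y = s₂ := by
    refine ⟨s₁ • w₁ + s₂ • w₂, S.add_mem (S.smul_mem _ hw₁) (S.smul_mem _ hw₂), ?_, ?_⟩
    · rw [polar_add_right, polar_smul_right', polar_smul_right', h11, h22]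
      ring
    · rw [polar_add_right, polar_smul_right', polar_smul_right', h12, h21]
      ring
  obtain ⟨g₁, m₁, g₂, m₂, a1, a2, b1, b2, n₁, n₂, hg⟩ := P.exists_hyp hQ hdim hx he
  set α := 1 - 𝔣 y g₂ with hα
  set β := t - Q y - α * 𝔣 y g₁ with hβ
  refine ⟨y + α • g₁ + β • g₂, S.add_mem (S.add_mem hyS (S.smul_mem _ m₁)) (S.smul_mem _ m₂), ?_, ?_, ?_⟩
  · rw [polar_add_right, polar_add_right, polar_smul_right', polar_smul_right', ey1, a1, b1]
    ring
  · rw [polar_add_right, polar_add_right, polar_smul_right', polar_smul_right', ey2, a2, b2]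
    ring
  · rw [Q_add, Q_add, Q_smul, Q_smul, n₁, n₂, polar_add_left, polar_smul_right', polar_smul_right',
      polar_smul_right', polar_smul_left', hg]
    ring_nf
    rw [hβ, hα]
    ring

/-- A nonzero vector of a part with a given norm. -/
theorem OD.exists_ne (hQ : (polarBilin Q).Nondegenerate) (P : OD Q S R) (hdim : 7 ≤ finrank F S) (t : F) :
    ∃ u ∈ S, u ≠ 0 ∧ Q u = t := by
  obtain ⟨g₁, m₁, g₂, m₂, -, -, -, -, n₁, n₂, hg⟩ := P.exists_hyp hQ hdim (Submodule.zero_mem _) (Submodule.zero_mem _)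
  refine ⟨g₁ + t • g₂, S.add_mem m₁ (S.smul_mem _ m₂), ?_, ?_⟩
  · intro h
    have := congrArg (fun z => 𝔣 z g₂) h
    simp only [polar_add_left, polar_smul_left', polar_zero_of_singular n₂, hg] at this
    simp [polar] at this
  · rw [Q_add, Q_smul, n₁, n₂, polar_smul_right', hg]
    ring

/-- A singular vector orthogonal to two vectors, but not to a third one. -/
theorem OD.exists_sing_nonperp (hQ : (polarBilin Q).Nondegenerate) (P : OD Q S R) (hdim : 7 ≤ finrank F S)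
    {a b w : ι → F} (ha : a ∈ S) (hb : b ∈ S) (hw : w ∈ S) (hn : w ∉ Submodule.span F {a, b}) :
    ∃ c ∈ S, Q c = 0 ∧ 𝔣 a c = 0 ∧ 𝔣 b c = 0 ∧ 𝔣 w c ≠ 0 := by
  obtain ⟨g₁, m₁, g₂, m₂, a1, a2, b1, b2, n₁, n₂, hg⟩ := P.exists_hyp hQ hdim ha hb
  obtain ⟨v, hv, hv0, hwv⟩ := P.riesz hQ hw hn
  have hav : 𝔣 a v = 0 := hv0 a ha (Submodule.subset_span (by simp))
  have hbv : 𝔣 b v = 0 := hv0 b hb (Submodule.subset_span (by simp))
  by_cases h1 : 𝔣 w g₁ = 0
  swap
  · exact ⟨g₁, m₁, n₁, a1, a2, h1⟩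
  by_cases h2 : 𝔣 w g₂ = 0
  swap
  · exact ⟨g₂, m₂, n₂, b1, b2, h2⟩
  have hg' : 𝔣 g₂ g₁ = 1 := by rw [polar_comm]; exact hg
  set v' := v - 𝔣 v g₂ • g₁ - 𝔣 v g₁ • g₂ with hv'
  have e1 : 𝔣 v' g₁ = 0 := by
    rw [hv', polar_sub_left, polar_sub_left, polar_smul_left', polar_smul_left', polar_zero_of_singular n₁, hg']
    ring
  have e2 : 𝔣 v' g₂ = 0 := by
    rw [hv', polar_sub_left, polar_sub_left, polar_smul_left', polar_smul_left', polar_zero_of_singular n₂, hg]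
    ring
  refine ⟨v' + g₁ - Q v' • g₂, S.sub_mem (S.add_mem (S.sub_mem (S.sub_mem hv (S.smul_mem _ m₁)) (S.smul_mem _ m₂)) m₁)
    (S.smul_mem _ m₂), ?_, ?_, ?_, ?_⟩
  · rw [Q_sub, Q_add, Q_smul, n₁, n₂, polar_smul_right', polar_add_left, e1, e2, hg]
    ring
  · rw [polar_sub_right, polar_add_right, polar_smul_right', hv', polar_sub_right, polar_sub_right,
      polar_smul_right', polar_smul_right', hav, a1, b1]
    ring
  · rw [polar_sub_right, polar_add_right, polar_smul_right', hv', polar_sub_right, polar_sub_right,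
      polar_smul_right', polar_smul_right', hbv, a2, b2]
    ring
  · rw [polar_sub_right, polar_add_right, polar_smul_right', hv', polar_sub_right, polar_sub_right,
      polar_smul_right', polar_smul_right', hwv, h1, h2]
    simp

/-- A singular vector not orthogonal to two nonzero vectors. -/
theorem OD.exists_common (hQ : (polarBilin Q).Nondegenerate) (P : OD Q S R) (hdim : 7 ≤ finrank F S)
    {y p : ι → F} (hy : y ∈ S) (hp : p ∈ S) (hy0 : y ≠ 0) (hp0 : p ≠ 0) :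
    ∃ t ∈ S, Q t = 0 ∧ 𝔣 t y ≠ 0 ∧ 𝔣 t p ≠ 0 := by
  by_cases hpy : p ∈ Submodule.span F {y}
  · obtain ⟨g₁, m₁, g₂, m₂, a1, a2, b1, b2, n₁, n₂, hg⟩ := P.exists_hyp hQ hdim hy hy
    have he : g₁ ∉ Submodule.span F {y} := by
      intro h
      obtain ⟨κ, rfl⟩ := Submodule.mem_span_singleton.1 h
      rw [polar_smul_left', b1, mul_zero] at hg
      exact zero_ne_one hg
    obtain ⟨t, ht, h1, -, h3⟩ := P.exists_u hQ hdim hy m₁ (UPair.not_mem_singleton_symm hy0 he) he 1 0 0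
    refine ⟨t, ht, h3, ?_, ?_⟩
    · rw [polar_comm, h1]
      exact one_ne_zero
    · obtain ⟨κ, rfl⟩ := Submodule.mem_span_singleton.1 hpy
      have hκ : κ ≠ 0 := by
        rintro rfl
        simp at hp0
      rw [polar_comm, polar_smul_left', h1, mul_one]
      exact hκ
  · obtain ⟨t, ht, h1, h2, h3⟩ := P.exists_u hQ hdim hy hp (UPair.not_mem_singleton_symm hy0 hpy) hpy 1 1 0
    refine ⟨t, ht, h3, ?_, ?_⟩
    · rw [polar_comm, h1]
      exact one_ne_zero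
    · rw [polar_comm, h2]
      exact one_ne_zero

/-- Singular vectors span a part. -/
theorem OD.le_span (hQ : (polarBilin Q).Nondegenerate) (P : OD Q S R) (hdim : 7 ≤ finrank F S) :
    S ≤ Submodule.span F {v | v ∈ S ∧ Q v = 0} := by
  obtain ⟨g₁, m₁, g₂, m₂, -, -, -, -, n₁, n₂, hg⟩ := P.exists_hyp hQ hdim (Submodule.zero_mem _) (Submodule.zero_mem _)
  intro y hy
  have hg' : 𝔣 g₂ g₁ = 1 := by rw [polar_comm]; exact hg
  set y' := y - 𝔣 y g₂ • g₁ - 𝔣 y g₁ • g₂ with hy'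
  have e1 : 𝔣 y' g₁ = 0 := by
    rw [hy', polar_sub_left, polar_sub_left, polar_smul_left', polar_smul_left', polar_zero_of_singular n₁, hg']
    ring
  have e2 : 𝔣 y' g₂ = 0 := by
    rw [hy', polar_sub_left, polar_sub_left, polar_smul_left', polar_smul_left', polar_zero_of_singular n₂, hg]
    ring
  have hy'S : y' ∈ S := S.sub_mem (S.sub_mem hy (S.smul_mem _ m₁)) (S.smul_mem _ m₂)
  have hw : Q (y' + g₁ - Q y' • g₂) = 0 := by
    rw [Q_sub, Q_add, Q_smul, n₁, n₂, polar_smul_right', polar_add_left, e1, e2, hg]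
    ring
  set I := Submodule.span F {v | v ∈ S ∧ Q v = 0} with hI
  have m3 : y' + g₁ - Q y' • g₂ ∈ I :=
    Submodule.subset_span ⟨S.sub_mem (S.add_mem hy'S m₁) (S.smul_mem _ m₂), hw⟩
  have m4 : g₁ ∈ I := Submodule.subset_span ⟨m₁, n₁⟩
  have m5 : g₂ ∈ I := Submodule.subset_span ⟨m₂, n₂⟩
  have e : y = (y' + g₁ - Q y' • g₂) - g₁ + Q y' • g₂ + 𝔣 y g₂ • g₁ + 𝔣 y g₁ • g₂ := by
    rw [hy']
    module
  rw [e]
  exact I.add_mem (I.add_mem (I.add_mem (I.sub_mem m3 m4) (I.smul_mem _ m5)) (I.smul_mem _ m4)) (I.smul_mem _ m5)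

/-! ### The admissible second arguments -/

theorem eG_mem_congr {M : Subgroup (GL ι F)} {z z' b b' : ι → F} (hz : Q z = 0) (hb : 𝔣 z b = 0) (hz' : Q z' = 0)
    (hb' : 𝔣 z' b' = 0) (h1 : z = z') (h2 : b = b') (h : eG hz hb ∈ M) : eG hz' hb' ∈ M := by
  subst h1
  subst h2
  exact h

/-- The admissible second arguments of `E(x, _)`. -/
def adm (M : Subgroup (GL ι F)) {x : ι → F} (hx : Q x = 0) : Submodule F (ι → F) where
  carrier := {b | 𝔣 x b = 0 ∧ ∀ t : F, ∀ h : 𝔣 x (t • b) = 0, eG hx h ∈ M}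
  add_mem' := by
    rintro a b ⟨ha, ha'⟩ ⟨hb, hb'⟩
    refine ⟨by rw [polar_add_right, ha, hb, add_zero], fun t h => ?_⟩
    have h1 : 𝔣 x (t • a) = 0 := by rw [polar_smul_right', ha, mul_zero]
    have h2 : 𝔣 x (t • b) = 0 := by rw [polar_smul_right', hb, mul_zero]
    have h3 : 𝔣 x (t • a + t • b) = 0 := by rw [polar_add_right, h1, h2, add_zero]
    exact eG_mem_congr hx h3 hx h rfl (by rw [smul_add]) (eG_mul hx h1 h2 h3 (ha' t h1) (hb' t h2))
  zero_mem' := by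
    refine ⟨by simp [polar], fun t h => ?_⟩
    have h0 : 𝔣 x 0 = 0 := by simp [polar]
    have e : eichlerIso hx h = eichlerIso hx h0 := eichlerIso_congr rfl (by simp) _ _ _ _
    rw [eG, e, eichlerIso_zero_right]
    exact M.one_mem
  smul_mem' := by
    rintro c b ⟨hb, hb'⟩
    refine ⟨by rw [polar_smul_right', hb, mul_zero], fun t h => ?_⟩
    have h1 : 𝔣 x ((t * c) • b) = 0 := by rw [polar_smul_right', hb, mul_zero]
    exact eG_mem_congr hx h1 hx h rfl (by rw [smul_smul]) (hb' _ h1)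

theorem mem_adm {M : Subgroup (GL ι F)} {x b : ι → F} {hx : Q x = 0} :
    b ∈ adm M hx ↔ 𝔣 x b = 0 ∧ ∀ t : F, ∀ h : 𝔣 x (t • b) = 0, eG hx h ∈ M := Iff.rfl

theorem adm_self {M : Subgroup (GL ι F)} {x b : ι → F} {hx : Q x = 0} (hb : b ∈ adm M hx) (h : 𝔣 x b = 0) :
    eG hx h ∈ M := by
  have h1 : 𝔣 x ((1 : F) • b) = 0 := by rw [one_smul]; exact h
  exact eG_mem_congr hx h1 hx h rfl (one_smul _ _) (hb.2 1 h1)

/-- `x` is always admissible for itself. -/
theorem self_mem_adm (M : Subgroup (GL ι F)) {x : ι → F} (hx : Q x = 0) : x ∈ adm M hx := by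
  refine ⟨polar_zero_of_singular hx, fun t h => ?_⟩
  have e : eichlerIso hx h = 1 := by
    apply ext_act
    intro y
    rw [act_eichlerIso, act_one, Q_smul, hx, polar_smul_left']
    simp only [polar_comm (⇑Q) x y, mul_zero, zero_mul, zero_smul]
    module
  rw [eG, e]
  exact M.one_mem

theorem not_mem_span_pair_of_polar {a b c w : ι → F} (h1 : 𝔣 a w = 0) (h2 : 𝔣 b w = 0) (h3 : 𝔣 c w ≠ 0) :
    c ∉ Submodule.span F {a, b} := by
  intro hmem
  obtain ⟨α, β, rfl⟩ := Submodule.mem_span_pair.1 hmem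
  apply h3
  rw [polar_add_left, polar_smul_left', polar_smul_left', h1, h2]
  ring

theorem not_mem_span_singleton_of_polar {a c w : ι → F} (h1 : 𝔣 a w = 0) (h3 : 𝔣 c w ≠ 0) :
    c ∉ Submodule.span F {a} := by
  intro hmem
  obtain ⟨α, rfl⟩ := Submodule.mem_span_singleton.1 hmem
  apply h3
  rw [polar_smul_left', h1, mul_zero]

section Main

variable {M : Subgroup (GL ι F)}

/-- The commutator step. -/
theorem adm_of_perp (hQ : (polarBilin Q).Nondegenerate) (P : OD Q S R)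
    (hS : ∀ c ∈ S, ∀ hc : Q c = 0, ∀ e ∈ S, ∀ he : 𝔣 c e = 0, eG hc he ∈ M)
    {p u z v : ι → F} (hp : p ∈ R) (hu : u ∈ S) (hx : Q (p + u) = 0) (hz : z ∈ adm M hx) (hzS : z ∈ S) (hv : v ∈ S)
    (hQv : Q v = 0) (huv : 𝔣 u v = 0) (hvz : 𝔣 v z = 0) (hn : z ∉ Submodule.span F {v, u}) : v ∈ adm M hx := by
  obtain ⟨w, hw, hw0, hzw⟩ := P.riesz hQ hzS hn
  have hvw : 𝔣 v w = 0 := hw0 v hv (Submodule.subset_span (by simp))
  have huw : 𝔣 u w = 0 := hw0 u hu (Submodule.subset_span (by simp))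
  have hpw : 𝔣 p w = 0 := P.orth' hp hw
  have hxw : 𝔣 (p + u) w = 0 := by rw [polar_add_left, hpw, huw, add_zero]
  have hxv : 𝔣 (p + u) v = 0 := by rw [polar_add_left, P.orth' hp hv, huv, add_zero]
  refine ⟨hxv, fun t h => ?_⟩
  have hQtv : Q (t • v) = 0 := by rw [Q_smul, hQv, mul_zero]
  exact comm_mem' (w₁ := z) (w₂ := w) hx hQtv h hz.1 hxw (by rw [polar_smul_left', hvz, mul_zero])
    (by rw [polar_smul_left', hvw, mul_zero]) hzw (adm_self hz _) (hS _ (S.smul_mem _ hv) _ _ hw _)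

/-- The part of `S` orthogonal to `u` and `z` is admissible. -/
theorem adm_T (hQ : (polarBilin Q).Nondegenerate) (P : OD Q S R) (hdim : 7 ≤ finrank F S)
    (hS : ∀ c ∈ S, ∀ hc : Q c = 0, ∀ e ∈ S, ∀ he : 𝔣 c e = 0, eG hc he ∈ M)
    {p u z : ι → F} (hp : p ∈ R) (hu : u ∈ S) (hx : Q (p + u) = 0) (hz : z ∈ adm M hx) (hzS : z ∈ S)
    (hzu : z ∉ Submodule.span F {u}) {y : ι → F} (hy : y ∈ S) (huy : 𝔣 u y = 0) (hzy : 𝔣 z y = 0) :
    y ∈ adm M hx := by
  obtain ⟨g₁, m₁, g₂, m₂, a1, a2, b1, b2, n₁, n₂, hg⟩ := P.exists_hyp hQ hdim hu hzS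
  have hg' : 𝔣 g₂ g₁ = 1 := by rw [polar_comm]; exact hg
  have key : ∀ v ∈ S, Q v = 0 → 𝔣 u v = 0 → 𝔣 z v = 0 → v ∉ Submodule.span F {u, z} → v ∈ adm M hx := by
    intro v hv hQv huv hzv hnv
    exact adm_of_perp hQ P hS hp hu hx hz hzS hv hQv huv (by rw [polar_comm]; exact hzv)
      (by rw [Set.pair_comm]; exact UPair.not_mem_pair hzu hnv)
  have h1 : g₁ ∈ adm M hx := key g₁ m₁ n₁ a1 a2
    (not_mem_span_pair_of_polar b1 b2 (by rw [hg]; exact one_ne_zero))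
  have h2 : g₂ ∈ adm M hx := key g₂ m₂ n₂ b1 b2
    (not_mem_span_pair_of_polar a1 a2 (by rw [hg']; exact one_ne_zero))
  obtain ⟨y', hy'S, hy'u, hy'z, e1, e2, e3⟩ : ∃ y' ∈ S, 𝔣 u y' = 0 ∧ 𝔣 z y' = 0 ∧ 𝔣 y' g₁ = 0 ∧ 𝔣 y' g₂ = 0 ∧
      y = y' + 𝔣 y g₂ • g₁ + 𝔣 y g₁ • g₂ := by
    refine ⟨y - 𝔣 y g₂ • g₁ - 𝔣 y g₁ • g₂, S.sub_mem (S.sub_mem hy (S.smul_mem _ m₁)) (S.smul_mem _ m₂), ?_, ?_, ?_, ?_,
      by module⟩
    · rw [polar_sub_right, polar_sub_right, polar_smul_right', polar_smul_right', huy, a1, b1]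
      ring
    · rw [polar_sub_right, polar_sub_right, polar_smul_right', polar_smul_right', hzy, a2, b2]
      ring
    · rw [polar_sub_left, polar_sub_left, polar_smul_left', polar_smul_left', polar_zero_of_singular n₁, hg']
      ring
    · rw [polar_sub_left, polar_sub_left, polar_smul_left', polar_smul_left', polar_zero_of_singular n₂, hg]
      ring
  have hw : Q (y' + g₁ - Q y' • g₂) = 0 := by
    rw [Q_sub, Q_add, Q_smul, n₁, n₂, polar_smul_right', polar_add_left, e1, e2, hg]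
    ring
  have h3 : y' + g₁ - Q y' • g₂ ∈ adm M hx := by
    refine key _ (S.sub_mem (S.add_mem hy'S m₁) (S.smul_mem _ m₂)) hw ?_ ?_ ?_
    · rw [polar_sub_right, polar_add_right, polar_smul_right', hy'u, a1, b1]
      ring
    · rw [polar_sub_right, polar_add_right, polar_smul_right', hy'z, a2, b2]
      ring
    · apply not_mem_span_pair_of_polar b1 b2
      rw [polar_sub_left, polar_add_left, polar_smul_left', e2, hg, polar_zero_of_singular n₂]
      simp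
  have e4 : y = (y' + g₁ - Q y' • g₂) - g₁ + Q y' • g₂ + 𝔣 y g₂ • g₁ + 𝔣 y g₁ • g₂ := by
    conv_lhs => rw [e3]
    module
  rw [e4]
  exact Submodule.add_mem _ (Submodule.add_mem _ (Submodule.add_mem _ (Submodule.sub_mem _ h3 h1)
    (Submodule.smul_mem _ _ h2)) (Submodule.smul_mem _ _ h1)) (Submodule.smul_mem _ _ h2)

/-- All of `S ∩ u^⊥` is admissible. -/
theorem adm_all (hQ : (polarBilin Q).Nondegenerate) (P : OD Q S R) (hdim : 7 ≤ finrank F S)
    (hS : ∀ c ∈ S, ∀ hc : Q c = 0, ∀ e ∈ S, ∀ he : 𝔣 c e = 0, eG hc he ∈ M)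
    {p u z : ι → F} (hp : p ∈ R) (hu : u ∈ S) (hx : Q (p + u) = 0) (hz : z ∈ adm M hx) (hzS : z ∈ S)
    (hzu : z ∉ Submodule.span F {u}) {b : ι → F} (hb : b ∈ S) (hub : 𝔣 u b = 0) : b ∈ adm M hx := by
  obtain ⟨g₁, m₁, g₂, m₂, a1, a2, b1, b2, n₁, n₂, hg⟩ := P.exists_hyp hQ hdim hu hzS
  have hg' : 𝔣 g₂ g₁ = 1 := by rw [polar_comm]; exact hg
  have hg₁ : g₁ ∉ Submodule.span F {u, z} := not_mem_span_pair_of_polar b1 b2 (by rw [hg]; exact one_ne_zero)
  have h1 : g₁ ∈ adm M hx := adm_T hQ P hdim hS hp hu hx hz hzS hzu m₁ a1 a2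
  have hg₁u : g₁ ∉ Submodule.span F {u} := not_mem_span_singleton_of_polar b1 (by rw [hg]; exact one_ne_zero)
  obtain ⟨y₀, hy₀, hy₀0, hzy₀⟩ := P.riesz hQ hzS (UPair.not_mem_pair hzu hg₁)
  have h2 : y₀ ∈ adm M hx := adm_T hQ P hdim hS hp hu hx h1 m₁ hg₁u hy₀
    (hy₀0 u hu (Submodule.subset_span (by simp))) (hy₀0 g₁ m₁ (Submodule.subset_span (by simp)))
  have h3 : b - 𝔣 z b • y₀ ∈ adm M hx := by
    refine adm_T hQ P hdim hS hp hu hx hz hzS hzu (S.sub_mem hb (S.smul_mem _ hy₀)) ?_ ?_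
    · rw [polar_sub_right, polar_smul_right', hub, hy₀0 u hu (Submodule.subset_span (by simp))]
      ring
    · rw [polar_sub_right, polar_smul_right', hzy₀]
      ring
  have e : b = (b - 𝔣 z b • y₀) + 𝔣 z b • y₀ := by abel
  rw [e]
  exact Submodule.add_mem _ h3 (Submodule.smul_mem _ _ h2)

/-- The centres all of whose `S`-arguments are in the group. -/
def Good (M : Subgroup (GL ι F)) (S : Submodule F (ι → F)) (x : ι → F) : Prop :=
  ∃ hx : Q x = 0, ∀ b ∈ S, 𝔣 x b = 0 → b ∈ adm M hx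

theorem good_of_adm (hQ : (polarBilin Q).Nondegenerate) (P : OD Q S R) (hdim : 7 ≤ finrank F S)
    (hS : ∀ c ∈ S, ∀ hc : Q c = 0, ∀ e ∈ S, ∀ he : 𝔣 c e = 0, eG hc he ∈ M)
    {p u z : ι → F} (hp : p ∈ R) (hu : u ∈ S) (hx : Q (p + u) = 0) (hz : z ∈ adm M hx) (hzS : z ∈ S)
    (hzu : z ∉ Submodule.span F {u}) : Good (Q := Q) M S (p + u) := by
  refine ⟨hx, fun b hb h => ?_⟩
  refine adm_all hQ P hdim hS hp hu hx hz hzS hzu hb ?_
  rwa [polar_add_left, P.orth' hp hb, zero_add] at h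

/-- Conjugation. -/
theorem adm_conj (g : ↥(Cfsg.isometryGroup F (⇑Q))) (hg : (g : GL ι F) ∈ M) {x b : ι → F} {hx : Q x = 0}
    (hb : b ∈ adm M hx) (hgx : Q (act g x) = 0) : act g b ∈ adm M hgx := by
  refine ⟨by rw [polar_act]; exact hb.1, fun t h => ?_⟩
  have h1 : 𝔣 x (t • b) = 0 := by rw [polar_smul_right', hb.1, mul_zero]
  have e := conj_eichlerIso g hx h1
  have e' : eichlerIso hgx h = g * eichlerIso hx h1 * g⁻¹ := by
    rw [e]
    exact eichlerIso_congr rfl (by rw [act_smul]) _ _ _ _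
  rw [eG, e']
  simpa using M.mul_mem (M.mul_mem hg (hb.2 t h1)) (M.inv_mem hg)

theorem adm_conj_fix (g : ↥(Cfsg.isometryGroup F (⇑Q))) (hg : (g : GL ι F) ∈ M) {x b : ι → F} {hx : Q x = 0}
    (hb : b ∈ adm M hx) (hgx : act g x = x) : act g b ∈ adm M hx := by
  have h1 : Q (act g x) = 0 := by rw [hgx]; exact hx
  have h2 := adm_conj g hg hb h1
  refine ⟨?_, fun t h => ?_⟩
  · rw [← hgx, polar_act]
    exact hb.1
  · have h3 : 𝔣 (act g x) (t • act g b) = 0 := by rw [hgx]; exact h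
    exact eG_mem_congr h1 h3 hx h hgx rfl (h2.2 t h3)

theorem good_conj {x : ι → F} (g : ↥(Cfsg.isometryGroup F (⇑Q))) (hg : (g : GL ι F) ∈ M)
    (hS1 : ∀ b ∈ S, act g⁻¹ b ∈ S) (hx : Good (Q := Q) M S x) : Good (Q := Q) M S (act g x) := by
  obtain ⟨h0, h1⟩ := hx
  have h2 : Q (act g x) = 0 := by rw [Q_act]; exact h0
  refine ⟨h2, fun b hb h => ?_⟩
  have h3 : 𝔣 x (act g⁻¹ b) = 0 := by
    rw [← polar_act g, act_act_inv]
    exact h
  have h4 := adm_conj g hg (h1 _ (hS1 b hb) h3) h2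
  rwa [act_act_inv] at h4

theorem act_eichler_mem {c e b : ι → F} (hc : Q c = 0) (hce : 𝔣 c e = 0) (hcS : c ∈ S) (heS : e ∈ S) (hb : b ∈ S) :
    act (eichlerIso hc hce) b ∈ S := by
  rw [act_eichlerIso]
  exact S.sub_mem (S.sub_mem (S.add_mem hb (S.smul_mem _ heS)) (S.smul_mem _ hcS)) (S.smul_mem _ hcS)

theorem act_eichler_inv_mem {c e b : ι → F} (hc : Q c = 0) (hce : 𝔣 c e = 0) (hcS : c ∈ S) (heS : e ∈ S) (hb : b ∈ S) :
    act (eichlerIso hc hce)⁻¹ b ∈ S := by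
  rw [eichlerIso_inv]
  exact act_eichler_mem hc _ hcS (S.neg_mem heS) hb

/-- The move from `p + u` to `p + v`. -/
theorem good_move_step (hQ : (polarBilin Q).Nondegenerate) (P : OD Q S R) (hdim : 7 ≤ finrank F S)
    (hS : ∀ c ∈ S, ∀ hc : Q c = 0, ∀ e ∈ S, ∀ he : 𝔣 c e = 0, eG hc he ∈ M)
    {p u v : ι → F} (hp : p ∈ R) (hu : u ∈ S) (hv : v ∈ S) (huv : u ∉ Submodule.span F {v})
    (hvu : v ∉ Submodule.span F {u}) (hQuv : Q u = Q v) (hG : Good (Q := Q) M S (p + u)) :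
    Good (Q := Q) M S (p + v) := by
  obtain ⟨c, hc, h1, h2, h3⟩ := P.exists_u hQ hdim hu hv huv hvu 1 1 0
  have hce : 𝔣 c (v - u) = 0 := by
    rw [polar_sub_right, polar_comm, h2, polar_comm, h1, sub_self]
  have e : act (eichlerIso h3 hce) (p + u) = p + v := by
    rw [act_eichlerIso]
    have a1 : 𝔣 c (p + u) = 1 := by
      rw [polar_add_right, polar_comm, P.orth' hp hc, zero_add, polar_comm, h1]
    have a2 : 𝔣 (v - u) (p + u) = 𝔣 v u - 2 * Q u := by
      have b1 : 𝔣 v p = 0 := P.orth v hv p hp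
      have b2 : 𝔣 u p = 0 := P.orth u hu p hp
      rw [polar_sub_left, polar_add_right, polar_add_right, b1, b2, polar_self_eq]
      ring
    have a3 : Q (v - u) = 2 * Q u - 𝔣 v u := by
      rw [Q_sub, ← hQuv]
      ring
    rw [a1, a2, a3]
    module
  rw [← e]
  exact good_conj _ (hS c hc h3 _ (S.sub_mem hv hu) hce) (fun b hb => act_eichler_inv_mem h3 hce hc
    (S.sub_mem hv hu) hb) hG

/-- The move, general case. -/
theorem good_move (hQ : (polarBilin Q).Nondegenerate) (P : OD Q S R) (hdim : 7 ≤ finrank F S)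
    (hS : ∀ c ∈ S, ∀ hc : Q c = 0, ∀ e ∈ S, ∀ he : 𝔣 c e = 0, eG hc he ∈ M)
    {p u v : ι → F} (hp : p ∈ R) (hu : u ∈ S) (hv : v ∈ S) (hu0 : u ≠ 0) (hv0 : v ≠ 0) (hQuv : Q u = Q v)
    (hG : Good (Q := Q) M S (p + u)) : Good (Q := Q) M S (p + v) := by
  by_cases hvu : v ∈ Submodule.span F {u}
  swap
  · exact good_move_step hQ P hdim hS hp hu hv (UPair.not_mem_singleton_symm hu0 hvu) hvu hQuv hG
  obtain ⟨g₁, m₁, g₂, m₂, a1, a2, b1, b2, n₁, n₂, hg⟩ := P.exists_hyp hQ hdim hu hu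
  have he : g₁ ∉ Submodule.span F {u} := not_mem_span_singleton_of_polar b1 (by rw [hg]; exact one_ne_zero)
  obtain ⟨w, hw, -, h2, h3⟩ := P.exists_u hQ hdim hu m₁ (UPair.not_mem_singleton_symm hu0 he) he 0 1 (Q u)
  have hw0 : w ≠ 0 := by
    rintro rfl
    simp [polar] at h2
  have hwu : w ∉ Submodule.span F {u} := by
    intro hmem
    obtain ⟨κ, rfl⟩ := Submodule.mem_span_singleton.1 hmem
    rw [polar_smul_right', polar_comm, a1, mul_zero] at h2
    exact zero_ne_one h2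
  have h4 := good_move_step hQ P hdim hS hp hu hw (UPair.not_mem_singleton_symm hu0 hwu) hwu h3.symm hG
  have hwv : w ∉ Submodule.span F {v} := by
    intro hmem
    apply hwu
    have hle : Submodule.span F {v} ≤ Submodule.span F {u} := (Submodule.span_singleton_le_iff_mem _ _).2 hvu
    exact hle hmem
  exact good_move_step hQ P hdim hS hp hw hv hwv (UPair.not_mem_singleton_symm hv0 hwv) (by rw [h3, hQuv]) h4

/-! ### Calculus of the centres -/

theorem adm_congr {x x' b : ι → F} {hx : Q x = 0} (hx' : Q x' = 0) (h : x = x') (hb : b ∈ adm M hx) :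
    b ∈ adm M hx' := by
  subst h
  exact hb

/-- Eichler transformations with a singular second argument are additive in the first one. -/
theorem eichler_add_center {a b w : ι → F} (ha : Q a = 0) (hb : Q b = 0) (hab : Q (a + b) = 0) (hw : Q w = 0)
    (haw : 𝔣 a w = 0) (hbw : 𝔣 b w = 0) (habw : 𝔣 (a + b) w = 0) :
    eichlerIso hab habw = eichlerIso ha haw * eichlerIso hb hbw := by
  have h1 : 𝔣 w (-a) = 0 := by rw [polar_neg_right, polar_comm, haw, neg_zero]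
  have h2 : 𝔣 w (-b) = 0 := by rw [polar_neg_right, polar_comm, hbw, neg_zero]
  have h3 : 𝔣 w (-(a + b)) = 0 := by rw [polar_neg_right, polar_comm, habw, neg_zero]
  rw [eichler_swap hab hw habw h3, eichler_swap ha hw haw h1, eichler_swap hb hw hbw h2, eichlerIso_mul hw h1 h2]
  exact eichlerIso_congr rfl (by abel) _ _ _ _

theorem adm_add_center {x d w : ι → F} {hx : Q x = 0} {hd : Q d = 0} (hxd : Q (x + d) = 0) (hw : Q w = 0)
    (h1 : w ∈ adm M hx) (h2 : w ∈ adm M hd) : w ∈ adm M hxd := by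
  refine ⟨by rw [polar_add_left, h1.1, h2.1, add_zero], fun t h => ?_⟩
  have a1 : 𝔣 x (t • w) = 0 := by rw [polar_smul_right', h1.1, mul_zero]
  have a2 : 𝔣 d (t • w) = 0 := by rw [polar_smul_right', h2.1, mul_zero]
  have hQ' : Q (t • w) = 0 := by rw [Q_smul, hw, mul_zero]
  rw [eG, eichler_add_center hx hd hxd hQ' a1 a2 h]
  exact M.mul_mem (h1.2 t a1) (h2.2 t a2)

theorem adm_sub_center {x d w : ι → F} {hx : Q x = 0} (hd : Q d = 0) {hxd : Q (x + d) = 0} (hw : Q w = 0)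
    (h1 : w ∈ adm M hx) (h2 : w ∈ adm M hxd) : w ∈ adm M hd := by
  have h0 : 𝔣 d w = 0 := by
    have := h2.1
    rwa [polar_add_left, h1.1, zero_add] at this
  refine ⟨h0, fun t h => ?_⟩
  have a1 : 𝔣 x (t • w) = 0 := by rw [polar_smul_right', h1.1, mul_zero]
  have a2 : 𝔣 (x + d) (t • w) = 0 := by rw [polar_add_left, a1, h, add_zero]
  have hQ' : Q (t • w) = 0 := by rw [Q_smul, hw, mul_zero]
  have e := eichler_add_center hx hd hxd hQ' a1 h a2
  have e' : eichlerIso hd h = (eichlerIso hx a1)⁻¹ * eichlerIso hxd a2 := by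
    rw [e, inv_mul_cancel_left]
  rw [eG, e']
  have h3 := h1.2 t a1
  have h4 := h2.2 t a2
  simpa using M.mul_mem (M.inv_mem h3) h4

theorem adm_swap {z w : ι → F} {hz : Q z = 0} (hw : Q w = 0) (h : w ∈ adm M hz) : z ∈ adm M hw := by
  have hzw : 𝔣 w z = 0 := by rw [polar_comm]; exact h.1
  refine ⟨hzw, fun t ht => ?_⟩
  have hQ' : Q (t • z) = 0 := by rw [Q_smul, hz, mul_zero]
  have a1 : 𝔣 (t • z) (-w) = 0 := by
    rw [polar_neg_right, polar_comm, ht, neg_zero]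
  have a2 : 𝔣 z (t • -w) = 0 := by
    rw [polar_smul_right', polar_neg_right, h.1]
    simp
  have a3 : 𝔣 z ((-t) • w) = 0 := by
    rw [polar_smul_right', h.1, mul_zero]
  have e1 : eichlerIso hw ht = eichlerIso hz a3 := by
    rw [eichler_swap hw hQ' ht a1, eichlerIso_smul t hz a1 hQ' a2]
    exact eichlerIso_congr rfl (by simp) _ _ _ _
  rw [eG, e1]
  exact h.2 _ a3

theorem adm_smul_center {x b : ι → F} {hx : Q x = 0} (l : F) (hlx : Q (l • x) = 0) (h : b ∈ adm M hx) : b ∈ adm M hlx := by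
  refine ⟨by rw [polar_smul_left', h.1, mul_zero], fun t ht => ?_⟩
  have a1 : 𝔣 x (l • (t • b)) = 0 := by rw [polar_smul_right', polar_smul_right', h.1]; simp
  have a2 : 𝔣 x ((l * t) • b) = 0 := by rw [polar_smul_right', h.1, mul_zero]
  have e1 : eichlerIso hlx ht = eichlerIso hx a2 := by
    rw [eichlerIso_smul l hx ht hlx a1]
    exact eichlerIso_congr rfl (by rw [smul_smul]) _ _ _ _
  rw [eG, e1]
  exact h.2 _ a2

theorem adm_smul_center' {x b : ι → F} (hx : Q x = 0) {l : F} (hl : l ≠ 0) {hlx : Q (l • x) = 0} (h : b ∈ adm M hlx) :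
    b ∈ adm M hx := by
  have h' : b ∈ adm M (by rw [Q_smul, hlx, mul_zero] : Q (l⁻¹ • l • x) = 0) := adm_smul_center _ _ h
  exact adm_congr hx (by rw [smul_smul, inv_mul_cancel₀ hl, one_smul]) h'

theorem good_smul {x : ι → F} (hG : Good (Q := Q) M S x) {l : F} (hl : l ≠ 0) : Good (Q := Q) M S (l • x) := by
  obtain ⟨h0, h1⟩ := hG
  have h2 : Q (l • x) = 0 := by rw [Q_smul, h0, mul_zero]
  refine ⟨h2, fun b hb h => ?_⟩
  have h3 : 𝔣 x b = 0 := by
    rw [polar_smul_left'] at h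
    exact (mul_eq_zero.1 h).resolve_left hl
  exact adm_smul_center _ _ (h1 b hb h3)

end Main

/-- The data of the argument. -/
structure Ctx (Q : QuadraticForm F (ι → F)) (S R : Submodule F (ι → F)) (M : Subgroup (GL ι F)) : Prop where
  hQ : (polarBilin Q).Nondegenerate
  P : OD Q S R
  hdim : 7 ≤ finrank F S
  hHM : subspaceStabilizer S ⊓ omegaGL (⇑Q) ≤ M

section Ctx

variable {M : Subgroup (GL ι F)}

theorem Ctx.hn (C : Ctx Q S R M) : 5 ≤ Fintype.card ι := by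
  have h1 := Submodule.finrank_le S
  rw [finrank_fintype_fun_eq_card] at h1
  have h2 := C.hdim
  omega

theorem Ctx.mem (C : Ctx Q S R M) (g : ↥(Cfsg.isometryGroup F (⇑Q))) (hg : (g : GL ι F) ∈ omegaGL (⇑Q))
    (h : ∀ x ∈ S, act g x ∈ S) : (g : GL ι F) ∈ M :=
  C.hHM ⟨Basic.mem_subspaceStabilizer_of_le _ _ h, hg⟩

theorem Ctx.hS (C : Ctx Q S R M) : ∀ c ∈ S, ∀ hc : Q c = 0, ∀ e ∈ S, ∀ he : 𝔣 c e = 0, eG hc he ∈ M := by
  intro c mc hc e me he
  exact C.mem _ (eG_mem_omegaGL C.hQ C.hn _ _) (fun x hx => act_eichler_mem hc he mc me hx)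

/-- Additivity of the good vectors in the `R`-part. -/
theorem Ctx.good_add (C : Ctx Q S R M) {p p' u u' : ι → F} (hp : p ∈ R) (hp' : p' ∈ R) (hu : u ∈ S) (hu' : u' ∈ S)
    (hu0 : u ≠ 0) (hu'0 : u' ≠ 0) (hG : Good (Q := Q) M S (p + u)) (hG' : Good (Q := Q) M S (p' + u')) :
    ∃ w ∈ S, w ≠ 0 ∧ Good (Q := Q) M S ((p + p') + w) := by
  have hQ := C.hQ
  have P := C.P
  have hdim := C.hdim
  have hS := C.hS
  obtain ⟨e, m₁, e', m₂, a1, -, b1, -, n₁, n₂, hg⟩ := P.exists_hyp hQ hdim hu hu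
  have heu : e ∉ Submodule.span F {u} := not_mem_span_singleton_of_polar b1 (by rw [hg]; exact one_ne_zero)
  obtain ⟨v, hv, h1, h2, h3⟩ := P.exists_u hQ hdim hu m₁ (UPair.not_mem_singleton_symm hu0 heu) heu (-𝔣 p p') 1 (Q u')
  have hv0 : v ≠ 0 := by
    rintro rfl
    simp [polar] at h2
  have hG'' := good_move hQ P hdim hS hp' hu' hv hu'0 hv0 h3.symm hG'
  have hvu : v ∉ Submodule.span F {u} := not_mem_span_singleton_of_polar (w := e) a1
    (by rw [polar_comm, h2]; exact one_ne_zero)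
  have huv : u ∉ Submodule.span F {v} := UPair.not_mem_singleton_symm hu0 hvu
  obtain ⟨z, mz, z', mz', c1, c2, d1, d2, n3, n4, hzz⟩ := P.exists_hyp hQ hdim hu hv
  have hzn : z ∉ Submodule.span F {v, u} := not_mem_span_pair_of_polar d2 d1 (by rw [hzz]; exact one_ne_zero)
  have hun : u ∉ Submodule.span F {v, z} := UPair.not_mem_pair huv hzn
  obtain ⟨w, hw, hw0, huw⟩ := P.riesz hQ hu hun
  have hvw : 𝔣 v w = 0 := hw0 v hv (Submodule.subset_span (by simp))
  have hzw : 𝔣 z w = 0 := hw0 z mz (Submodule.subset_span (by simp))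
  obtain ⟨hx, hxG⟩ := hG
  obtain ⟨hx', hxG'⟩ := hG''
  have hx'b : 𝔣 (p' + v) (-w) = 0 := by
    rw [polar_add_left, P.orth' hp' (S.neg_mem hw), polar_neg_right, hvw]
    simp
  have hgM : eG hx' hx'b ∈ M := adm_self (hxG' _ (S.neg_mem hw) hx'b) hx'b
  have hzadm : z ∈ adm M hx := hxG z mz (by rw [polar_add_left, P.orth' hp mz, c1, add_zero])
  have hgx : Q (act (eichlerIso hx' hx'b) (p + u)) = 0 := by
    rw [Q_act]
    exact hx
  have h5 := adm_conj _ hgM hzadm hgx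
  have t1 : 𝔣 v (p + u) = 𝔣 v u := by
    have : 𝔣 v p = 0 := P.orth v hv p hp
    rw [polar_add_right, this, zero_add]
  have t2 : 𝔣 p' (p + u) = 𝔣 p' p := by
    have : 𝔣 p' u = 0 := P.orth' hp' hu
    rw [polar_add_right, this, add_zero]
  have t3 : 𝔣 (p' + v) (p + u) = 0 := by
    rw [polar_add_left, t1, t2, polar_comm (⇑Q) v u, h1, polar_comm (⇑Q) p' p]
    ring
  have t4 : 𝔣 (-w) (p + u) = -1 := by
    have : 𝔣 w p = 0 := P.orth w hw p hp
    rw [polar_neg_left, polar_add_right, this, polar_comm (⇑Q) w u, huw, zero_add]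
  have e1 : act (eichlerIso hx' hx'b) (p + u) = (p + p') + (u + v) := by
    rw [act_eichlerIso, t3, t4]
    module
  have e2 : act (eichlerIso hx' hx'b) z = z := by
    have t5 : 𝔣 (p' + v) z = 0 := by
      rw [polar_add_left, P.orth' hp' mz, c2, add_zero]
    have t6 : 𝔣 (-w) z = 0 := by
      rw [polar_neg_left, polar_comm, hzw, neg_zero]
    rw [act_eichlerIso, t5, t6]
    module
  rw [e2] at h5
  have hxnew : Q ((p + p') + (u + v)) = 0 := by
    rw [← e1]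
    exact hgx
  have h6 := adm_congr hxnew e1 h5
  refine ⟨u + v, S.add_mem hu hv, ?_, good_of_adm hQ P hdim hS (R.add_mem hp hp') (S.add_mem hu hv) hxnew h6 mz ?_⟩
  · intro h
    have h7 : 𝔣 e (u + v) = 𝔣 e 0 := by rw [h]
    rw [polar_add_right, polar_comm (⇑Q) e u, a1, h2] at h7
    simp [polar] at h7
  · apply not_mem_span_singleton_of_polar (w := z')
    · rw [polar_add_left, d1, d2, add_zero]
    · rw [hzz]
      exact one_ne_zero

theorem good_of_mem_S (C : Ctx Q S R M) {c : ι → F} (hc : c ∈ S) (hQc : Q c = 0) : Good (Q := Q) M S c :=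
  ⟨hQc, fun b hb h => ⟨h, fun t ht => C.hS c hc hQc (t • b) (S.smul_mem _ hb) ht⟩⟩

theorem Ctx.exists_good_zero (C : Ctx Q S R M) : ∃ u ∈ S, u ≠ 0 ∧ Good (Q := Q) M S (0 + u) := by
  obtain ⟨g₁, m₁, g₂, m₂, -, -, -, -, n₁, n₂, hg⟩ :=
    C.P.exists_hyp C.hQ C.hdim (Submodule.zero_mem _) (Submodule.zero_mem _)
  refine ⟨g₁, m₁, ?_, ?_⟩
  · rintro rfl
    simp [polar] at hg
  · rw [zero_add]
    exact good_of_mem_S C m₁ n₁

/-- The `R`-parts of the good vectors form a subspace. -/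
theorem Ctx.exists_proj (C : Ctx Q S R M) : ∃ 𝓟 : Submodule F (ι → F), ∀ p, p ∈ 𝓟 ↔
    p ∈ R ∧ ∃ u ∈ S, u ≠ 0 ∧ Good (Q := Q) M S (p + u) := by
  refine ⟨{ carrier := {p | p ∈ R ∧ ∃ u ∈ S, u ≠ 0 ∧ Good (Q := Q) M S (p + u)},
            add_mem' := ?_,
            zero_mem' := ?_,
            smul_mem' := ?_ }, fun p => Iff.rfl⟩
  · rintro a b ⟨ha, u, hu, hu0, hG⟩ ⟨hb, u', hu', hu'0, hG'⟩
    exact ⟨R.add_mem ha hb, C.good_add ha hb hu hu' hu0 hu'0 hG hG'⟩
  · exact ⟨R.zero_mem, C.exists_good_zero⟩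
  · rintro c a ⟨ha, u, hu, hu0, hG⟩
    by_cases hc : c = 0
    · subst hc
      rw [zero_smul]
      exact ⟨R.zero_mem, C.exists_good_zero⟩
    · refine ⟨R.smul_mem _ ha, c • u, S.smul_mem _ hu, smul_ne_zero hc hu0, ?_⟩
      rw [← smul_add]
      exact good_smul hG hc

theorem refl_pair_mem (hQ : (polarBilin Q).Nondegenerate) (hn : 5 ≤ Fintype.card ι) {a b : ι → F} (ha : Q a ≠ 0)
    (hb : Q b ≠ 0) (hab : Q a = Q b) : reflectionIso Q a ha * reflectionIso Q b hb ∈ Cfsg.Omega F (⇑Q) := by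
  by_cases h2 : (2 : F) = 0
  · haveI : CharP F 2 := CharTwo.of_one_ne_zero_of_two_eq_zero one_ne_zero h2
    exact rootGroup_le_omega' hQ hn (pair_mem_rootGroup hQ hn ha hb)
  · exact rootGroup_le_omega' hQ hn (reflection_mul_mem_rootGroup hQ h2 hn ha hb hab)

/-- The reflections in `R` act on the `R`-parts. -/
theorem Ctx.good_refl (C : Ctx Q S R M) {a p u : ι → F} (ha : a ∈ R) (hQa : Q a ≠ 0) (hp : p ∈ R) (hu : u ∈ S) (hu0 : u ≠ 0)
    (hG : Good (Q := Q) M S (p + u)) : ∃ v ∈ S, v ≠ 0 ∧ Good (Q := Q) M S ((p - ((Q a)⁻¹ * 𝔣 a p) • a) + v) := by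
  have P := C.P
  obtain ⟨c, hc, hc0, hQc⟩ := P.exists_ne C.hQ C.hdim (Q a)
  have hQc' : Q c ≠ 0 := by rwa [hQc]
  set g := reflectionIso Q a hQa * reflectionIso Q c hQc' with hg
  have hgΩ : (g : GL ι F) ∈ omegaGL (⇑Q) := ⟨g, refl_pair_mem C.hQ C.hn hQa hQc' hQc.symm, rfl⟩
  have hra : ∀ y ∈ S, act (reflectionIso Q a hQa) y = y := fun y hy => by
    rw [reflectionIso_act, P.orth' ha hy]
    simp
  have hrc : ∀ y ∈ S, act (reflectionIso Q c hQc') y ∈ S := fun y hy => by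
    rw [reflectionIso_act]
    exact S.sub_mem hy (S.smul_mem _ hc)
  have hgS : ∀ y ∈ S, act g y ∈ S := fun y hy => by
    rw [hg, act_mul, hra _ (hrc y hy)]
    exact hrc y hy
  have hgS' : ∀ y ∈ S, act g⁻¹ y ∈ S := fun y hy => by
    rw [hg, mul_inv_rev, reflectionIso_inv, reflectionIso_inv, act_mul, hra y hy]
    exact hrc y hy
  have hgM : (g : GL ι F) ∈ M := C.mem g hgΩ hgS
  have h1 := good_conj g hgM hgS' hG
  have e : act g (p + u) = (p - ((Q a)⁻¹ * 𝔣 a p) • a) + act (reflectionIso Q c hQc') u := by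
    have t1 : 𝔣 c p = 0 := P.orth c hc p hp
    have t2 : 𝔣 a c = 0 := P.orth' ha hc
    have t3 : 𝔣 a u = 0 := P.orth' ha hu
    rw [hg, act_mul, reflectionIso_act, reflectionIso_act, reflectionIso_act, polar_sub_right, polar_add_right,
      polar_add_right, polar_smul_right', t1, t2, t3]
    module
  rw [e] at h1
  refine ⟨_, hrc u hu, ?_, h1⟩
  intro h
  apply hu0
  have := act_inv_act (reflectionIso Q c hQc') u
  rw [h, act_zero] at this
  exact this.symm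

/-- The Eichler transformations in `R` act on the `R`-parts. -/
theorem Ctx.good_eichler (C : Ctx Q S R M) {a b p u : ι → F} (ha : a ∈ R) (hb : b ∈ R) (hQa : Q a = 0) (hab : 𝔣 a b = 0)
    (hp : p ∈ R) (hu : u ∈ S) (hG : Good (Q := Q) M S (p + u)) :
    Good (Q := Q) M S ((p + 𝔣 a p • b - 𝔣 b p • a - (Q b * 𝔣 a p) • a) + u) := by
  have P := C.P
  have hfix : ∀ {b : ι → F}, b ∈ R → ∀ hab : 𝔣 a b = 0, ∀ y ∈ S, act (eichlerIso hQa hab) y = y := by
    intro b hb hab y hy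
    rw [act_eichlerIso, P.orth' ha hy, P.orth' hb hy]
    simp
  have hgS : ∀ y ∈ S, act (eichlerIso hQa hab) y ∈ S := fun y hy => by
    rw [hfix hb hab y hy]
    exact hy
  have hgS' : ∀ y ∈ S, act (eichlerIso hQa hab)⁻¹ y ∈ S := fun y hy => by
    rw [eichlerIso_inv, hfix (R.neg_mem hb) _ y hy]
    exact hy
  have hgM := C.mem _ (eG_mem_omegaGL C.hQ C.hn hQa hab) hgS
  have h1 := good_conj _ hgM hgS' hG
  have e : act (eichlerIso hQa hab) (p + u) = (p + 𝔣 a p • b - 𝔣 b p • a - (Q b * 𝔣 a p) • a) + u := by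
    rw [act_add, hfix hb hab u hu, act_eichlerIso]
  rwa [e] at h1

theorem exists_param (hF : 4 ≤ Fintype.card F) {s d : F} (hs : s ≠ 0) :
    ∃ c : F, c ≠ 0 ∧ s + c * d ≠ 0 ∧ s + 2 * c * d ≠ 0 := by
  classical
  by_contra hcon
  push_neg at hcon
  have hsub : (Finset.univ : Finset F) ⊆ {0, -s / d, -s / (2 * d)} := by
    intro c _
    by_cases hc : c = 0
    · simp [hc]
    by_cases h1 : s + c * d = 0
    · have hd : d ≠ 0 := by
        rintro rfl
        simp at h1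
        exact hs h1
      have : c = -s / d := by
        rw [eq_div_iff hd]
        linear_combination h1
      simp [this]
    · have h2 := hcon c hc h1
      have h3 : 2 * d ≠ 0 := by
        intro h
        apply hs
        have : s + 2 * c * d = s + c * (2 * d) := by ring
        rw [this, h] at h2
        simpa using h2
      have : c = -s / (2 * d) := by
        rw [eq_div_iff h3]
        linear_combination h2
      simp [this]
  have := Finset.card_le_card hsub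
  have h4 : ({0, -s / d, -s / (2 * d)} : Finset F).card ≤ 3 := Finset.card_le_three
  rw [Finset.card_univ] at this
  omega

/-- The linear algebra of the `R`-parts. -/
theorem proj_eq (hR : ∀ x ∈ R, x ≠ 0 → ∃ y ∈ R, 𝔣 y x ≠ 0) {𝓟 : Submodule F (ι → F)} (hle : 𝓟 ≤ R) (hne : 𝓟 ≠ ⊥)
    (hA : ∀ a ∈ R, Q a ≠ 0 → ∀ p ∈ 𝓟, 𝔣 a p ≠ 0 → a ∈ 𝓟)
    (hB : ∀ y ∈ R, Q y = 0 → ∀ w ∈ R, 𝔣 y w = 0 → ∀ p ∈ 𝓟, 𝔣 w p = 0 → 𝔣 y p ≠ 0 → w - Q w • y ∈ 𝓟)
    (hexc : ¬ (Fintype.card F ≤ 3 ∧ finrank F R = 2 ∧ ∃ z ∈ R, z ≠ 0 ∧ Q z = 0)) : R ≤ 𝓟 := by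
  intro r₀ hr₀
  by_contra hr₀𝓟
  obtain ⟨p₀, hp₀, hp₀0⟩ : ∃ p₀ ∈ 𝓟, p₀ ≠ 0 := by
    by_contra h
    push_neg at h
    exact hne ((Submodule.eq_bot_iff _).2 h)
  obtain ⟨y, hy, hy𝓟, p, hp, hs⟩ : ∃ y ∈ R, y ∉ 𝓟 ∧ ∃ p ∈ 𝓟, 𝔣 y p ≠ 0 := by
    obtain ⟨z, hz, hz0⟩ := hR p₀ (hle hp₀) hp₀0
    by_cases hz𝓟 : z ∈ 𝓟
    · by_cases h1 : 𝔣 r₀ p₀ = 0
      · refine ⟨r₀ + z, R.add_mem hr₀ hz, fun h => hr₀𝓟 ?_, p₀, hp₀, ?_⟩
        · have := 𝓟.sub_mem h hz𝓟
          simpa using this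
        · rwa [polar_add_left, h1, zero_add]
      · exact ⟨r₀, hr₀, hr₀𝓟, p₀, hp₀, h1⟩
    · exact ⟨z, hz, hz𝓟, p₀, hp₀, hz0⟩
  have hQy : Q y = 0 := by
    by_contra h
    exact hy𝓟 (hA y hy h p hp hs)
  have hpR := hle hp
  have hpp : 𝔣 p p = 2 * Q p := polar_self_eq Q p
  by_cases hF : 4 ≤ Fintype.card F
  · obtain ⟨c, hc0, hc1, hc2⟩ := exists_param hF (d := Q p) hs
    have h1 : y + c • p ∈ 𝓟 := by
      apply hA _ (R.add_mem hy (R.smul_mem _ hpR)) _ p hp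
      · rw [polar_add_left, polar_smul_left', hpp]
        intro h
        apply hc2
        linear_combination h
      · rw [Q_add, Q_smul, hQy, polar_smul_right']
        intro h
        have : c * (𝔣 y p + c * Q p) = 0 := by linear_combination h
        rcases mul_eq_zero.1 this with h | h
        · exact hc0 h
        · exact hc1 h
    apply hy𝓟
    have := 𝓟.sub_mem h1 (𝓟.smul_mem c hp)
    simpa using this
  -- small fields
  have hy0 : y ≠ 0 := by
    rintro rfl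
    exact hy𝓟 (Submodule.zero_mem _)
  have hne2 : finrank F R ≠ 2 := fun h => hexc ⟨by omega, h, y, hy, hy0, hQy⟩
  have hyy : 𝔣 y y = 0 := polar_zero_of_singular hQy
  have hpy : p ∉ Submodule.span F {y} := not_mem_span_singleton_of_polar hyy (by rw [polar_comm]; exact hs)
  -- a vector outside the plane
  obtain ⟨r, hr, hrn⟩ : ∃ r ∈ R, r ∉ Submodule.span F {y, p} := by
    by_contra hcon
    push_neg at hcon
    have hle2 : R ≤ Submodule.span F {y, p} := hcon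
    have hle3 : Submodule.span F {y, p} ≤ R := by
      rw [Submodule.span_le]
      rintro x (rfl | rfl)
      · exact hy
      · exact hpR
    have heq : R = Submodule.span F {y, p} := le_antisymm hle2 hle3
    have hli : LinearIndependent F ![y, p] := by
      rw [LinearIndependent.pair_iff]
      intro α β h
      have h1 : 𝔣 y (α • y + β • p) = 𝔣 y 0 := by rw [h]
      rw [polar_add_right, polar_smul_right', polar_smul_right', hyy] at h1
      have h2 : β = 0 := by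
        have h3 : β * 𝔣 y p = 0 := by
          have h4 : 𝔣 y 0 = 0 := by simp [polar]
          rw [h4] at h1
          linear_combination h1
        exact (mul_eq_zero.1 h3).resolve_right hs
      subst h2
      simp only [zero_smul, add_zero] at h
      exact ⟨(smul_eq_zero.1 h).resolve_right hy0, rfl⟩
    have hfr := finrank_span_eq_card hli
    simp only [Fintype.card_fin] at hfr
    have : Set.range ![y, p] = {y, p} := by
      simp [Matrix.range_cons]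
      exact Set.pair_comm _ _
    rw [this, ← heq] at hfr
    exact hne2 hfr
  -- projection to the orthogonal complement of the plane
  have hproj : ∀ z ∈ R, ∃ z' ∈ R, ∃ α β : F, z' = z - α • y - β • p ∧ 𝔣 y z' = 0 ∧ 𝔣 p z' = 0 := by
    intro z hz
    set s := 𝔣 y p with hsd
    set β := 𝔣 y z / s with hβ
    set α := (𝔣 p z - β * (2 * Q p)) / s with hα
    have e1 : 𝔣 p y = s := by rw [polar_comm]
    refine ⟨z - α • y - β • p, R.sub_mem (R.sub_mem hz (R.smul_mem _ hy)) (R.smul_mem _ hpR), α, β, rfl, ?_, ?_⟩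
    · rw [polar_sub_right, polar_sub_right, polar_smul_right', polar_smul_right', hyy, hβ]
      field_simp
      ring
    · rw [polar_sub_right, polar_sub_right, polar_smul_right', polar_smul_right', e1, hpp, hα]
      field_simp
      ring
  obtain ⟨w₁, hw₁, α₁, β₁, e₁, h₁y, h₁p⟩ := hproj r hr
  have hw₁0 : w₁ ≠ 0 := by
    intro h
    apply hrn
    rw [e₁] at h
    rw [Submodule.mem_span_pair]
    refine ⟨α₁, β₁, ?_⟩
    have : r = (r - α₁ • y - β₁ • p) + α₁ • y + β₁ • p := by abel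
    rw [h] at this
    rw [this]
    simp
  obtain ⟨z, hz, hz0⟩ := hR w₁ hw₁ hw₁0
  obtain ⟨w₂, hw₂, α₂, β₂, e₂, h₂y, h₂p⟩ := hproj z hz
  have h12 : 𝔣 w₂ w₁ ≠ 0 := by
    rw [e₂, polar_sub_left, polar_sub_left, polar_smul_left', polar_smul_left', h₁y, h₁p]
    simpa using hz0
  have ht : ∀ w ∈ R, 𝔣 y w = 0 → 𝔣 p w = 0 → w - Q w • y ∈ 𝓟 := fun w hw h1 h2 =>
    hB y hy hQy w hw h1 p hp (by rw [polar_comm]; exact h2) hs
  have h1 := ht w₂ hw₂ h₂y h₂p
  have h2 := ht w₁ hw₁ h₁y h₁p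
  have h3 := ht (w₂ + w₁) (R.add_mem hw₂ hw₁) (by rw [polar_add_right, h₁y, h₂y, add_zero])
    (by rw [polar_add_right, h₁p, h₂p, add_zero])
  have h4 := 𝓟.sub_mem (𝓟.add_mem h1 h2) h3
  have e4 : (w₂ - Q w₂ • y) + (w₁ - Q w₁ • y) - ((w₂ + w₁) - Q (w₂ + w₁) • y) = 𝔣 w₂ w₁ • y := by
    rw [Q_add]
    module
  rw [e4] at h4
  exact hy𝓟 ((Submodule.smul_mem_iff _ h12).1 h4)

/-- Once all `R`-parts occur, all good vectors are centres. -/
theorem Ctx.good_pts (C : Ctx Q S R M) (hall : ∀ r ∈ R, ∃ v ∈ S, v ≠ 0 ∧ Good (Q := Q) M S (r + v)) {p u : ι → F}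
    (hp : p ∈ R) (hu : u ∈ S) (hu0 : u ≠ 0) (hG : Good (Q := Q) M S (p + u)) : p + u ∈ pts (Q := Q) M := by
  have hQ := C.hQ
  have P := C.P
  have hdim := C.hdim
  have hS := C.hS
  obtain ⟨hx, hxG⟩ := hG
  suffices hb : ∀ b, 𝔣 (p + u) b = 0 → b ∈ adm M hx from ⟨hx, fun b h => adm_self (hb b h) h⟩
  intro b hb
  obtain ⟨b₁, hb₁, q, hq, rfl⟩ := P.decomp b
  obtain ⟨v₀, hv₀, hv₀0, hGq⟩ := hall q hq
  obtain ⟨e, m₁, e', m₂, a1, -, b1, -, n₁, n₂, hg⟩ := P.exists_hyp hQ hdim hu hu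
  have heu : e ∉ Submodule.span F {u} := not_mem_span_singleton_of_polar b1 (by rw [hg]; exact one_ne_zero)
  obtain ⟨v, hv, h1, h2, h3⟩ := P.exists_u hQ hdim hu m₁ (UPair.not_mem_singleton_symm hu0 heu) heu (-𝔣 p q) 1 (Q v₀)
  have hv0 : v ≠ 0 := by
    rintro rfl
    simp [polar] at h2
  obtain ⟨hy, hyG⟩ := good_move hQ P hdim hS hq hv₀ hv hv₀0 hv0 h3.symm hGq
  have hxy : 𝔣 (p + u) (q + v) = 0 := by
    have t1 : 𝔣 p v = 0 := P.orth' hp hv
    have t2 : 𝔣 u q = 0 := P.orth u hu q hq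
    rw [polar_add_left, polar_add_right, polar_add_right, t1, t2, h1]
    ring
  obtain ⟨g₁, m₁', g₂, m₂', c1, c2, d1, d2, n₃, n₄, hgg⟩ := P.exists_hyp hQ hdim hu hv
  have hyadm : q + v ∈ adm M hx := by
    refine ⟨hxy, fun t h => ?_⟩
    have hQt : Q (t • (q + v)) = 0 := by rw [Q_smul, hy, mul_zero]
    have x1 : 𝔣 (p + u) g₁ = 0 := by rw [polar_add_left, P.orth' hp m₁', c1, add_zero]
    have x2 : 𝔣 (p + u) g₂ = 0 := by rw [polar_add_left, P.orth' hp m₂', d1, add_zero]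
    have y1 : 𝔣 (q + v) g₁ = 0 := by rw [polar_add_left, P.orth' hq m₁', c2, add_zero]
    have y2 : 𝔣 (q + v) g₂ = 0 := by rw [polar_add_left, P.orth' hq m₂', d2, add_zero]
    have y1' : 𝔣 (t • (q + v)) g₁ = 0 := by rw [polar_smul_left', y1, mul_zero]
    have y2' : 𝔣 (t • (q + v)) g₂ = 0 := by rw [polar_smul_left', y2, mul_zero]
    have y3 : 𝔣 (q + v) (t • g₂) = 0 := by rw [polar_smul_right', y2, mul_zero]
    apply comm_mem' hx hQt h x1 x2 y1' y2' hgg (adm_self (hxG g₁ m₁' x1) x1)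
    rw [eG, eichlerIso_smul t hy y2' hQt y3]
    exact (hyG g₂ m₂' y2).2 t y3
  have hrest : b₁ - v ∈ adm M hx := by
    apply hxG _ (S.sub_mem hb₁ hv)
    have t1 : 𝔣 p b₁ = 0 := P.orth' hp hb₁
    have t2 : 𝔣 u q = 0 := P.orth u hu q hq
    have t3 : 𝔣 p v = 0 := P.orth' hp hv
    rw [polar_add_left, polar_add_right, polar_add_right, t1, t2] at hb
    rw [polar_add_left, polar_sub_right, polar_sub_right, t1, t3, h1]
    linear_combination hb
  have e : b₁ + q = (b₁ - v) + (q + v) := by abel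
  rw [e]
  exact Submodule.add_mem _ hrest hyadm

/-- The end of the argument. -/
theorem Ctx.omega_le (C : Ctx Q S R M) (hall : ∀ r ∈ R, ∃ v ∈ S, v ≠ 0 ∧ Good (Q := Q) M S (r + v)) :
    omegaGL (⇑Q) ≤ M := by
  obtain ⟨g₁, m₁, g₂, m₂, -, -, -, -, n₁, n₂, hg⟩ :=
    C.P.exists_hyp C.hQ C.hdim (Submodule.zero_mem _) (Submodule.zero_mem _)
  have h0 : ∀ c ∈ S, c ≠ 0 → Q c = 0 → c ∈ pts (Q := Q) M := fun c hc hc0 hQc => by
    have := C.good_pts hall R.zero_mem hc hc0 (by rw [zero_add]; exact good_of_mem_S C hc hQc)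
    rwa [zero_add] at this
  have hg₁ : g₁ ≠ 0 := by
    rintro rfl
    simp [polar] at hg
  have hg₂ : g₂ ≠ 0 := by
    rintro rfl
    simp [polar] at hg
  apply omegaGL_le C.hQ C.hn
  intro a ha
  exact pts_all C.hQ (h0 g₁ m₁ hg₁ n₁) (h0 g₂ m₂ hg₂ n₂) (by rw [hg]; exact one_ne_zero) ha

/-- The first good vector with non-trivial `R`-part. -/
theorem Ctx.exists_start (C : Ctx Q S R M) (g₀ : ↥(Cfsg.isometryGroup F (⇑Q))) (hgM : (g₀ : GL ι F) ∈ M)
    (hg1 : ¬ ∀ x ∈ S, act g₀ x ∈ S) (hg2 : ¬ ∀ x ∈ S, act g₀ x ∈ R) :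
    ∃ p ∈ R, p ≠ 0 ∧ ∃ u ∈ S, u ≠ 0 ∧ Good (Q := Q) M S (p + u) := by
  have hQ := C.hQ
  have P := C.P
  have hdim := C.hdim
  have hS := C.hS
  have hspan : ∀ T : Submodule F (ι → F), (∀ z ∈ S, Q z = 0 → act g₀ z ∈ T) → ∀ x ∈ S, act g₀ x ∈ T := by
    intro T h x hx
    refine Submodule.span_induction (p := fun y _ => act g₀ y ∈ T) ?_ ?_ ?_ ?_ (P.le_span hQ hdim hx)
    · rintro y ⟨h1, h2⟩
      exact h y h1 h2
    · rw [act_zero]
      exact T.zero_mem
    · intro a b _ _ ha hb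
      rw [act_add]
      exact T.add_mem ha hb
    · intro c a _ ha
      rw [act_smul]
      exact T.smul_mem _ ha
  obtain ⟨z₁, hz₁, hQz₁, h1⟩ : ∃ z ∈ S, Q z = 0 ∧ act g₀ z ∉ S := by
    by_contra h
    push_neg at h
    exact hg1 (hspan S h)
  obtain ⟨z₂, hz₂, hQz₂, h2⟩ : ∃ z ∈ S, Q z = 0 ∧ act g₀ z ∉ R := by
    by_contra h
    push_neg at h
    exact hg2 (hspan R h)
  obtain ⟨a, ma, hQa, ha1, ha2⟩ : ∃ a ∈ S, Q a = 0 ∧ act g₀ a ∉ S ∧ act g₀ a ∉ R := by
    by_cases h3 : act g₀ z₁ ∈ R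
    swap
    · exact ⟨z₁, hz₁, hQz₁, h1, h3⟩
    by_cases h4 : act g₀ z₂ ∈ S
    swap
    · exact ⟨z₂, hz₂, hQz₂, h4, h2⟩
    have hz₁0 : z₁ ≠ 0 := by
      rintro rfl
      apply h1
      rw [act_zero]
      exact S.zero_mem
    have hz₂0 : z₂ ≠ 0 := by
      rintro rfl
      apply h2
      rw [act_zero]
      exact R.zero_mem
    obtain ⟨t, ht, hQt, ht1, ht2⟩ := P.exists_common hQ hdim hz₁ hz₂ hz₁0 hz₂0
    refine ⟨t, ht, hQt, fun hS' => ht1 ?_, fun hR' => ht2 ?_⟩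
    · rw [← polar_act g₀]
      exact P.orth _ hS' _ h3
    · rw [← polar_act g₀]
      exact P.orth' hR' h4
  obtain ⟨u, hu, p, hp, hdec⟩ := P.decomp (act g₀ a)
  have e0 : act g₀ a = p + u := by
    rw [hdec]
    abel
  have hp0 : p ≠ 0 := by
    rintro rfl
    apply ha1
    rw [e0, zero_add]
    exact hu
  have hu0 : u ≠ 0 := by
    rintro rfl
    apply ha2
    rw [e0, add_zero]
    exact hp
  have hx : Q (p + u) = 0 := by
    rw [← e0, Q_act]
    exact hQa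
  obtain ⟨b, mb, b', mb', a1, -, b1, -, nb, nb', hbb⟩ := P.exists_hyp hQ hdim ma ma
  have hbadm : b ∈ adm M hQa := ⟨a1, fun t h => hS a ma hQa _ (S.smul_mem _ mb) h⟩
  have hgx : Q (act g₀ a) = 0 := by
    rw [Q_act]
    exact hQa
  have h5 := adm_congr hx e0 (adm_conj g₀ hgM hbadm hgx)
  have hQy : Q (act g₀ b) = 0 := by
    rw [Q_act]
    exact nb
  obtain ⟨u', hu', p', hp', hdec'⟩ := P.decomp (act g₀ b)
  have e1 : act g₀ b = p' + u' := by
    rw [hdec']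
    abel
  rw [e1] at h5 hQy
  have hyx : ∀ κ : F, p' + u' ≠ κ • (p + u) := by
    intro κ h
    rw [← e0, ← e1, ← act_smul] at h
    have h6 : b = κ • a := by
      have := congrArg (act g₀⁻¹) h
      rwa [act_inv_act, act_inv_act] at this
    rw [h6, polar_smul_left', b1] at hbb
    simp at hbb
  have hxy : 𝔣 (p + u) (p' + u') = 0 := h5.1
  by_cases huu : u' ∈ Submodule.span F {u}
  · -- the `S`-part of `y` is proportional to `u`
    obtain ⟨κ, rfl⟩ := Submodule.mem_span_singleton.1 huu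
    obtain ⟨p₀, hp₀def⟩ : ∃ p₀, p₀ = (p' + κ • u) - κ • (p + u) := ⟨_, rfl⟩
    have hp₀R : p₀ ∈ R := by
      have : p₀ = p' - κ • p := by
        rw [hp₀def]
        module
      rw [this]
      exact R.sub_mem hp' (R.smul_mem _ hp)
    have hp₀0 : p₀ ≠ 0 := by
      intro h
      rw [hp₀def, sub_eq_zero] at h
      exact hyx κ h
    have hQp₀ : Q p₀ = 0 := by
      rw [hp₀def, Q_sub, Q_smul, hQy, hx, polar_smul_right', polar_comm, hxy]
      ring
    have hadm : p₀ ∈ adm M hx := by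
      rw [hp₀def]
      exact Submodule.sub_mem _ h5 (Submodule.smul_mem _ _ (self_mem_adm M hx))
    obtain ⟨e, me, e', me', c1, -, c2, -, nE, nE', hee⟩ := P.exists_hyp hQ hdim hu hu
    have hun : u ∉ Submodule.span F {e, e} := by
      intro hmem
      obtain ⟨α, β, hαβ⟩ := Submodule.mem_span_pair.1 hmem
      have h6 : 𝔣 u e' = α + β := by
        rw [← hαβ, polar_add_left, polar_smul_left', polar_smul_left', hee]
        ring
      rw [c2] at h6
      apply hu0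
      rw [← hαβ, ← add_smul, ← h6, zero_smul]
    obtain ⟨c, mc, hQc, hec, -, huc⟩ := P.exists_sing_nonperp hQ hdim me me hu hun
    have hce : 𝔣 c e = 0 := by
      rw [polar_comm]
      exact hec
    have hs : 𝔣 c u ≠ 0 := by
      rw [polar_comm]
      exact huc
    have hgM' := hS c mc hQc e me hce
    have t1 : 𝔣 c (p + u) = 𝔣 c u := by
      have : 𝔣 c p = 0 := P.orth c mc p hp
      rw [polar_add_right, this, zero_add]
    have t2 : 𝔣 e (p + u) = 0 := by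
      have : 𝔣 e p = 0 := P.orth e me p hp
      rw [polar_add_right, this, polar_comm, c1, add_zero]
    have e2 : act (eichlerIso hQc hce) (p + u) = (p + u) + 𝔣 c u • e := by
      rw [act_eichlerIso, t1, t2, nE]
      module
    have e3 : act (eichlerIso hQc hce) p₀ = p₀ := by
      have a1 : 𝔣 c p₀ = 0 := P.orth c mc p₀ hp₀R
      have a2 : 𝔣 e p₀ = 0 := P.orth e me p₀ hp₀R
      rw [act_eichlerIso, a1, a2, nE]
      module
    have hgx' : Q (act (eichlerIso hQc hce) (p + u)) = 0 := by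
      rw [Q_act]
      exact hx
    have h6 := adm_conj _ hgM' hadm hgx'
    rw [e3] at h6
    have hxs : Q ((p + u) + 𝔣 c u • e) = 0 := by
      rw [← e2]
      exact hgx'
    have h7 := adm_congr hxs e2 h6
    have hse : Q (𝔣 c u • e) = 0 := by
      rw [Q_smul, nE, mul_zero]
    have h8 : p₀ ∈ adm M hse := adm_sub_center hse hQp₀ hadm h7
    have h9 : p₀ ∈ adm M nE := adm_smul_center' nE hs h8
    have h10 : e ∈ adm M hQp₀ := adm_swap hQp₀ h9
    have h11 : Q (p₀ + 0) = 0 := by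
      rw [add_zero]
      exact hQp₀
    have h12 : e ∈ adm M h11 := adm_congr h11 (add_zero _).symm h10
    have he0 : e ≠ 0 := by
      rintro rfl
      simp [polar] at hee
    have hne : e ∉ Submodule.span F {(0 : ι → F)} := by
      simpa using he0
    have hall : ∀ b ∈ S, b ∈ adm M h11 := fun b hb =>
      adm_all hQ P hdim hS hp₀R S.zero_mem h11 h12 me hne hb (by simp [polar])
    obtain ⟨z, mz, z', mz', d1, -, d2, -, nz, nz', hzz⟩ := P.exists_hyp hQ hdim me me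
    have h13 : z ∈ adm M hQp₀ := adm_congr hQp₀ (add_zero _) (hall z mz)
    have h14 : z ∈ adm M nE := ⟨d1, fun t h => hS e me nE _ (S.smul_mem _ mz) h⟩
    have hsum : Q (p₀ + e) = 0 := by
      have : 𝔣 p₀ e = 0 := P.orth' hp₀R me
      rw [Q_add, hQp₀, nE, this]
      ring
    have h15 : z ∈ adm M hsum := adm_add_center hsum nz h13 h14
    have hzn : z ∉ Submodule.span F {e} := not_mem_span_singleton_of_polar d2 (by rw [hzz]; exact one_ne_zero)
    exact ⟨p₀, hp₀R, hp₀0, e, me, he0, good_of_adm hQ P hdim hS hp₀R me hsum h15 mz hzn⟩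
  · -- the `S`-part of `y` is not proportional to `u`
    obtain ⟨e, me, e', me', c1, c2, c3, c4, nE, nE', hee⟩ := P.exists_hyp hQ hdim hu hu'
    have hen : e ∉ Submodule.span F {u, u'} :=
      not_mem_span_pair_of_polar c3 c4 (by rw [hee]; exact one_ne_zero)
    have hn : u' ∉ Submodule.span F {e, u} := by
      rw [Set.pair_comm]
      exact UPair.not_mem_pair huu hen
    obtain ⟨c, mc, hQc, hec, huc, hsc⟩ := P.exists_sing_nonperp hQ hdim me hu hu' hn
    have hce : 𝔣 c e = 0 := by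
      rw [polar_comm]
      exact hec
    have hs : 𝔣 c u' ≠ 0 := by
      rw [polar_comm]
      exact hsc
    have hgM' := hS c mc hQc e me hce
    have t1 : 𝔣 c (p + u) = 0 := by
      have : 𝔣 c p = 0 := P.orth c mc p hp
      rw [polar_add_right, this, polar_comm, huc, zero_add]
    have t2 : 𝔣 e (p + u) = 0 := by
      have : 𝔣 e p = 0 := P.orth e me p hp
      rw [polar_add_right, this, polar_comm, c1, add_zero]
    have e2 : act (eichlerIso hQc hce) (p + u) = p + u := by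
      rw [act_eichlerIso, t1, t2, nE]
      module
    have e3 : act (eichlerIso hQc hce) (p' + u') = (p' + u') + 𝔣 c u' • e := by
      have a1 : 𝔣 c (p' + u') = 𝔣 c u' := by
        have : 𝔣 c p' = 0 := P.orth c mc p' hp'
        rw [polar_add_right, this, zero_add]
      have a2 : 𝔣 e (p' + u') = 0 := by
        have : 𝔣 e p' = 0 := P.orth e me p' hp'
        rw [polar_add_right, this, polar_comm, c2, add_zero]
      rw [act_eichlerIso, a1, a2, nE]
      module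
    have h6 := adm_conj_fix _ hgM' h5 e2
    rw [e3] at h6
    have h7 : 𝔣 c u' • e ∈ adm M hx := by
      have := Submodule.sub_mem _ h6 h5
      simpa using this
    have h8 : e ∈ adm M hx := (Submodule.smul_mem_iff _ hs).1 h7
    have hne : e ∉ Submodule.span F {u} := not_mem_span_singleton_of_polar c3 (by rw [hee]; exact one_ne_zero)
    exact ⟨p, hp, hp0, u, hu, hu0, good_of_adm hQ P hdim hS hp hu hx h8 me hne⟩

/-- All `R`-parts occur. -/
theorem Ctx.all_parts (C : Ctx Q S R M) (hexc : ¬ (Fintype.card F ≤ 3 ∧ finrank F R = 2 ∧ ∃ z ∈ R, z ≠ 0 ∧ Q z = 0))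
    (hstart : ∃ p ∈ R, p ≠ 0 ∧ ∃ u ∈ S, u ≠ 0 ∧ Good (Q := Q) M S (p + u)) :
    ∀ r ∈ R, ∃ v ∈ S, v ≠ 0 ∧ Good (Q := Q) M S (r + v) := by
  obtain ⟨𝓟, h𝓟⟩ := C.exists_proj
  obtain ⟨p, hp, hp0, u, hu, hu0, hG⟩ := hstart
  have hle : 𝓟 ≤ R := fun x hx => ((h𝓟 x).1 hx).1
  have hne : 𝓟 ≠ ⊥ := by
    intro h
    apply hp0
    have : p ∈ 𝓟 := (h𝓟 p).2 ⟨hp, u, hu, hu0, hG⟩
    rw [h] at this
    exact this
  have hall : R ≤ 𝓟 := by
    apply proj_eq (Q := Q) (fun x hx hx0 => C.P.symm.nd C.hQ hx hx0) hle hne _ _ hexc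
    · intro a ha hQa p hp hs
      obtain ⟨hpR, u, hu, hu0, hG⟩ := (h𝓟 p).1 hp
      have h1 := (h𝓟 _).2 ⟨R.sub_mem hpR (R.smul_mem _ ha), C.good_refl ha hQa hpR hu hu0 hG⟩
      have h2 := 𝓟.sub_mem hp h1
      have e : p - (p - ((Q a)⁻¹ * 𝔣 a p) • a) = ((Q a)⁻¹ * 𝔣 a p) • a := by abel
      rw [e] at h2
      exact (Submodule.smul_mem_iff _ (mul_ne_zero (inv_ne_zero hQa) hs)).1 h2
    · intro y hy hQy w hw hyw p hp hwp hs
      obtain ⟨hpR, u, hu, hu0, hG⟩ := (h𝓟 p).1 hp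
      have h1 : p + 𝔣 y p • w - 𝔣 w p • y - (Q w * 𝔣 y p) • y ∈ 𝓟 := by
        refine (h𝓟 _).2 ⟨R.sub_mem (R.sub_mem (R.add_mem hpR (R.smul_mem _ hw)) (R.smul_mem _ hy))
          (R.smul_mem _ hy), u, hu, hu0, C.good_eichler hy hw hQy hyw hpR hu hG⟩
      have h2 := 𝓟.sub_mem h1 hp
      have e : p + 𝔣 y p • w - 𝔣 w p • y - (Q w * 𝔣 y p) • y - p = 𝔣 y p • (w - Q w • y) := by
        rw [hwp]
        module
      rw [e] at h2
      exact (Submodule.smul_mem_iff _ hs).1 h2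
  exact fun r hr => ((h𝓟 r).1 (hall hr)).2

end Ctx

/-- The stabiliser in `Ω` of a non-degenerate subspace is maximal, apart from small exceptions. -/
theorem isMaximalIn_stab (hQ : (polarBilin Q).Nondegenerate) (P : OD Q S R) (hdim : 7 ≤ finrank F S) (hR0 : R ≠ ⊥)
    (hnoemb : ∀ g : ↥(Cfsg.isometryGroup F (⇑Q)), ¬ ∀ s ∈ S, act g s ∈ R)
    (hexc : ¬ (Fintype.card F ≤ 3 ∧ finrank F R = 2 ∧ ∃ z ∈ R, z ≠ 0 ∧ Q z = 0)) :
    IsMaximalIn (omegaGL (⇑Q)) (subspaceStabilizer S ⊓ omegaGL (⇑Q)) := by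
  have hn5 : 5 ≤ Fintype.card ι := by
    have h1 := Submodule.finrank_le S
    rw [finrank_fintype_fun_eq_card] at h1
    omega
  refine ⟨lt_of_le_of_ne inf_le_right ?_, ?_⟩
  · intro heq
    obtain ⟨y, hy, hy0⟩ : ∃ y ∈ R, y ≠ 0 := by
      by_contra h
      push_neg at h
      exact hR0 ((Submodule.eq_bot_iff _).2 h)
    obtain ⟨u, hu, hu0, hQu⟩ := P.exists_ne hQ hdim (-Q y)
    have hx : Q (y + u) = 0 := by
      have : 𝔣 y u = 0 := P.orth' hy hu
      rw [Q_add, hQu, this]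
      ring
    obtain ⟨e, me, e', me', c1, -, c2, -, nE, nE', hee⟩ := P.exists_hyp hQ hdim hu hu
    have hb : 𝔣 (y + u) e = 0 := by
      rw [polar_add_left, P.orth' hy me, c1, add_zero]
    have hm : eG hx hb ∈ subspaceStabilizer S ⊓ omegaGL (⇑Q) := by
      rw [heq]
      exact eG_mem_omegaGL hQ hn5 _ _
    have h1 := ((Basic.mem_subspaceStabilizer_iff _ _).1 hm.1 e').1 me'
    have h2 : 𝔣 (y + u) e' = 0 := by
      rw [polar_add_left, P.orth' hy me', c2, add_zero]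
    rw [eG_mulVec, h2, hee, nE] at h1
    have h3 : y ∈ S := by
      have h5 := S.sub_mem (S.sub_mem h1 me') (S.neg_mem hu)
      have h6 : e' + (0 : F) • e - (1 : F) • (y + u) - ((0 : F) * 0) • (y + u) - e' - -u = -y := by
        module
      rw [h6] at h5
      simpa using S.neg_mem h5
    exact hy0 (by
      have : y ∈ S ⊓ R := ⟨h3, hy⟩
      rw [P.compl.inf_eq_bot] at this
      exact this)
  · intro M hHM hMΩ
    by_cases hMH : M ≤ subspaceStabilizer S ⊓ omegaGL (⇑Q)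
    · exact Or.inl (le_antisymm hMH hHM)
    right
    apply le_antisymm hMΩ
    obtain ⟨g, hgM, hgH⟩ := SetLike.not_le_iff_exists.1 hMH
    have hgΩ := hMΩ hgM
    have hgiso : g ∈ Cfsg.isometryGroup F (⇑Q) := omegaGL_le_iso hgΩ
    have C : Ctx Q S R M := ⟨hQ, P, hdim, hHM⟩
    apply C.omega_le
    apply C.all_parts hexc
    refine C.exists_start ⟨g, hgiso⟩ hgM ?_ (hnoemb ⟨g, hgiso⟩)
    intro h
    exact hgH ⟨Basic.mem_subspaceStabilizer_of_le _ _ h, hgΩ⟩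

end Cfsg.Agent.Lib.Classical.Geo.ONondeg
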