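/-
Consequences of `ONondeg.isMaximalIn_stab`.
-/
import Mathlib
import Cfsg.Agent.Lib.Classical.Geo.ONondeg

set_option autoImplicit false
set_option linter.unusedSectionVars false

namespace Cfsg.Agent.Lib.Classical.Geo.ONondegMax

open scoped Matrix
open Module Cfsg Cfsg.Geo QuadraticMap
open Cfsg.Agent.Lib.Classical.Orth.Basic
open Cfsg.Agent.Lib.Classical.Geo.OPts
open Cfsg.Agent.Lib.Classical.Geo.ONondeg

variable {ι : Type} [Fintype ι] [DecidableEq ι] {F : Type*} [Field F] [Fintype F]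
variable {Q : QuadraticForm F (ι → F)}

set_option quotPrecheck false in
local notation "𝔣" => polar (⇑Q)

variable {S R : Submodule F (ι → F)}

/-- A non-degenerate subspace is a summand. -/
theorem exists_od (hQ : (polarBilin Q).Nondegenerate) {W : Submodule F (ι → F)}
    (hW : IsNondegenerateOn (polar (⇑Q)) W) :
    ∃ U : Submodule F (ι → F), OD Q W U ∧ finrank F W + finrank F U = Fintype.card ι := by
  set B : LinearMap.BilinForm F (ι → F) := polarBilin Q with hB
  have hBnd : B.Nondegenerate := hQ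
  set U := B.orthogonal W with hU
  have hmem : ∀ y, y ∈ U ↔ ∀ x ∈ W, 𝔣 x y = 0 := fun y => by
    rw [hU, LinearMap.BilinForm.mem_orthogonal_iff]
    rfl
  have hinf : W ⊓ U = ⊥ := by
    rw [eq_bot_iff]
    rintro y ⟨hyW, hyU⟩
    by_contra h
    obtain ⟨⟨x, hx, hxy⟩, -⟩ := hW y hyW h
    exact hxy ((hmem y).1 hyU x hx)
  have hf := LinearMap.BilinForm.finrank_orthogonal hBnd W
  rw [finrank_fintype_fun_eq_card, ← hU] at hf
  have hle := Submodule.finrank_le W
  rw [finrank_fintype_fun_eq_card] at hle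
  have hdimsum := Submodule.finrank_sup_add_finrank_inf_eq W U
  rw [hinf, finrank_bot, add_zero] at hdimsum
  have hsup : W ⊔ U = ⊤ := by
    apply Submodule.eq_top_of_finrank_eq
    rw [finrank_fintype_fun_eq_card]
    omega
  exact ⟨U, ⟨fun a ha b hb => (hmem b).1 hb a ha, ⟨disjoint_iff.2 hinf, codisjoint_iff.2 hsup⟩⟩, by omega⟩

theorem OD.nondegOn (hQ : (polarBilin Q).Nondegenerate) (P : OD Q S R) : IsNondegenerateOn (polar (⇑Q)) S := by
  intro w hw hw0
  obtain ⟨y, hy, hyw⟩ := P.nd hQ hw hw0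
  exact ⟨⟨y, hy, hyw⟩, ⟨y, hy, by rw [polar_comm]; exact hyw⟩⟩

/-- The stabiliser of `S` stabilises `R`. -/
theorem OD.stab_of_stab (hQ : (polarBilin Q).Nondegenerate) (P : OD Q S R) (g : ↥(Cfsg.isometryGroup F (⇑Q)))
    (hg : (g : GL ι F) ∈ subspaceStabilizer S) : (g : GL ι F) ∈ subspaceStabilizer R := by
  apply Basic.mem_subspaceStabilizer_of_le
  intro x hx
  obtain ⟨x₁, h₁, x₂, h₂, e⟩ := P.decomp (act g x)
  have hx₁ : x₁ = 0 := by
    by_contra h
    obtain ⟨y, hy, hyx⟩ := P.nd hQ h₁ h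
    apply hyx
    have hinv : ((g⁻¹ : ↥(Cfsg.isometryGroup F (⇑Q))) : GL ι F) ∈ subspaceStabilizer S :=
      (subspaceStabilizer S).inv_mem hg
    have hy' : act g⁻¹ y ∈ S := ((Basic.mem_subspaceStabilizer_iff _ _).1 hinv y).1 hy
    have h1 : 𝔣 y (act g x) = 0 := by
      rw [← polar_act g⁻¹, act_inv_act]
      exact P.orth _ hy' _ hx
    rw [e, polar_add_right, P.orth y hy x₂ h₂, add_zero] at h1
    exact h1
  have : act g x ∈ R := by
    rw [e, hx₁, zero_add]
    exact h₂
  exact this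

theorem OD.stab_eq (hQ : (polarBilin Q).Nondegenerate) (P : OD Q S R) :
    subspaceStabilizer S ⊓ omegaGL (⇑Q) = subspaceStabilizer R ⊓ omegaGL (⇑Q) := by
  apply le_antisymm
  · rintro g ⟨h1, h2⟩
    exact ⟨OD.stab_of_stab hQ P ⟨g, omegaGL_le_iso h2⟩ h1, h2⟩
  · rintro g ⟨h1, h2⟩
    exact ⟨OD.stab_of_stab hQ P.symm ⟨g, omegaGL_le_iso h2⟩ h1, h2⟩

theorem noemb_of_lt (h : finrank F R < finrank F S) (g : ↥(Cfsg.isometryGroup F (⇑Q))) : ¬ ∀ s ∈ S, act g s ∈ R := by
  intro hg
  have hle : Basic.act (g : GL ι F) S ≤ R := by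
    intro x hx
    obtain ⟨y, hy, rfl⟩ := (Basic.mem_act_iff _ _ _).1 hx
    exact hg y hy
  have h1 := Submodule.finrank_mono hle
  rw [Basic.finrank_act] at h1
  omega

theorem plane_plus (hf : finrank F R = 2) {z : ι → F} (hz : z ∈ R) (hz0 : z ≠ 0) (hQz : Q z = 0) :
    IsPlusTypeOn (⇑Q) R := by
  refine ⟨Submodule.span F {z}, ?_, ?_, ?_⟩
  · rw [Submodule.span_singleton_le_iff_mem]
    exact hz
  · intro w hw
    obtain ⟨c, rfl⟩ := Submodule.mem_span_singleton.1 hw
    rw [Q_smul, hQz, mul_zero]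
  · rw [finrank_span_singleton hz0, hf]

/-- The stabiliser in `Ω` of a non-degenerate subspace which is not of half the dimension. -/
theorem isMaximalIn_nondeg (hQ : (polarBilin Q).Nondegenerate) {W : Submodule F (ι → F)} (hW0 : W ≠ ⊥) (hW1 : W ≠ ⊤)
    (hW : IsNondegenerateOn (polar (⇑Q)) W) (h13 : 13 ≤ Fintype.card ι) (hne : 2 * finrank F W ≠ Fintype.card ι)
    (hex : ¬ (Fintype.card F ≤ 3 ∧ ∃ U : Submodule F (ι → F), finrank F U = 2 ∧ IsNondegenerateOn (polar (⇑Q)) U ∧
      IsPlusTypeOn (⇑Q) U ∧ (U = W ∨ (AreOrthogonalFor (polar (⇑Q)) U W ∧ finrank F U + finrank F W = Fintype.card ι)))) :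
    IsMaximalIn (omegaGL (⇑Q)) (subspaceStabilizer W ⊓ omegaGL (⇑Q)) := by
  obtain ⟨U, P, hdims⟩ := exists_od hQ hW
  have hU0 : U ≠ ⊥ := by
    rintro rfl
    apply hW1
    have := P.compl.sup_eq_top
    simpa using this
  by_cases hlt : Fintype.card ι < 2 * finrank F W
  · refine isMaximalIn_stab hQ P (by omega) hU0 (noemb_of_lt (by omega)) ?_
    rintro ⟨hq, hf, z, hz, hz0, hQz⟩
    exact hex ⟨hq, U, hf, OD.nondegOn hQ P.symm, plane_plus hf hz hz0 hQz,
      Or.inr ⟨fun a ha b hb => P.orth' ha hb, by omega⟩⟩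
  · rw [OD.stab_eq hQ P]
    refine isMaximalIn_stab hQ P.symm (by omega) hW0 (noemb_of_lt (by omega)) ?_
    rintro ⟨hq, hf, z, hz, hz0, hQz⟩
    exact hex ⟨hq, W, hf, hW, plane_plus hf hz hz0 hQz, Or.inl rfl⟩

/-- An isometry of the ambient space mapping one subspace into another one of the same dimension. -/
theorem areIsometric_of_act {W W' : Submodule F (ι → F)} (hf : finrank F W = finrank F W')
    (g : ↥(Cfsg.isometryGroup F (⇑Q))) (hg : ∀ s ∈ W, act g s ∈ W') : AreIsometricFor (⇑Q) W W' := by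
  let L : W →ₗ[F] W' :=
    { toFun := fun x => ⟨act g x, hg x x.2⟩
      map_add' := fun x y => Subtype.ext (by simp [act_add])
      map_smul' := fun c x => Subtype.ext (by simp [act_smul]) }
  have hinj : Function.Injective L := by
    intro x y h
    have h1 : act g x = act g y := congrArg Subtype.val h
    have h2 := congrArg (act g⁻¹) h1
    rw [act_inv_act, act_inv_act] at h2
    exact Subtype.ext h2
  refine ⟨LinearEquiv.ofInjectiveOfFinrankEq L hinj hf, fun w => ?_⟩
  exact Q_act g w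

/-- The stabiliser of a decomposition into two non-isometric orthogonal halves. -/
theorem isMaximalIn_nonisometric (hQ : (polarBilin Q).Nondegenerate) {k : ℕ} (hk : 2 * k = Fintype.card ι) (h7 : 7 ≤ k)
    (D : Fin 2 → Submodule F (ι → F)) (hD : IsNondegenerateMDecomposition (polar (⇑Q)) k D)
    (hni : ¬ AreIsometricFor (⇑Q) (D 0) (D 1)) :
    IsMaximalIn (omegaGL (⇑Q)) (decompositionStabilizer D ⊓ omegaGL (⇑Q)) := by
  have hf : ∀ i, finrank F (D i) = k := hD.decomp.finrank_eq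
  have P : OD Q (D 0) (D 1) := by
    refine ⟨hD.orthogonal 0 1 (by simp), ⟨hD.decomp.indep.pairwiseDisjoint (by simp), ?_⟩⟩
    rw [codisjoint_iff, eq_top_iff, ← hD.decomp.iSup_eq_top]
    apply iSup_le
    intro i
    fin_cases i
    · exact le_sup_left
    · exact le_sup_right
  have hnoemb : ∀ g : ↥(Cfsg.isometryGroup F (⇑Q)), ¬ ∀ s ∈ D 0, act g s ∈ D 1 := fun g hg =>
    hni (areIsometric_of_act (by rw [hf, hf]) g hg)
  have heq : decompositionStabilizer D ⊓ omegaGL (⇑Q) = subspaceStabilizer (D 0) ⊓ omegaGL (⇑Q) := by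
    apply le_antisymm
    · rintro g ⟨⟨σ, hσ⟩, h2⟩
      refine ⟨?_, h2⟩
      have h3 : σ 0 = 0 := by
        by_contra hne
        have h4 : σ 0 = 1 := by
          generalize σ 0 = a at hne
          fin_cases a
          · exact absurd rfl hne
          · rfl
        refine hnoemb ⟨g, omegaGL_le_iso h2⟩ fun s hs => ?_
        rw [← h4, ← hσ 0]
        exact ⟨s, hs, rfl⟩
      apply Basic.mem_subspaceStabilizer_of_le
      intro x hx
      rw [← h3]
      nth_rewrite 1 [h3]
      rw [← h3, ← hσ 0]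
      exact ⟨x, hx, rfl⟩
    · rintro g ⟨h1, h2⟩
      refine ⟨?_, h2⟩
      have h3 := OD.stab_of_stab hQ P ⟨g, omegaGL_le_iso h2⟩ h1
      refine UPair.mem_stab (fun i j => by rw [hf, hf]) g 1 ?_
      intro i
      fin_cases i
      · intro x hx
        exact ((Basic.mem_subspaceStabilizer_iff _ _).1 h1 x).1 hx
      · intro x hx
        exact ((Basic.mem_subspaceStabilizer_iff _ _).1 h3 x).1 hx
  rw [heq]
  refine isMaximalIn_stab hQ P (by rw [hf]; exact h7) ?_ hnoemb ?_
  · intro h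
    have := hf 1
    rw [h, finrank_bot] at this
    omega
  · rintro ⟨-, hfd, -⟩
    have := hf 1
    omega

end Cfsg.Agent.Lib.Classical.Geo.ONondegMax
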