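/-
The stabiliser in `Ω` of a hyperbolic plane over a field with at most three elements is not maximal.
-/
import Mathlib
import Cfsg.Agent.Lib.Classical.Geo.ONondegMax

set_option autoImplicit false
set_option linter.unusedSectionVars false

namespace Cfsg.Agent.Lib.Classical.Geo.OPlane

open scoped Matrix
open Module Cfsg Cfsg.Geo QuadraticMap
open Cfsg.Agent.Lib.Classical.Orth.Basic
open Cfsg.Agent.Lib.Classical.Orth.Siegel
open Cfsg.Agent.Lib.Classical.Orth.Simple
open Cfsg.Agent.Lib.Classical.Geo.OPts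
open Cfsg.Agent.Lib.Classical.Geo.OLine
open Cfsg.Agent.Lib.Classical.Geo.ONondeg
open Cfsg.Agent.Lib.Classical.Geo.ONondegMax

variable {ι : Type} [Fintype ι] [DecidableEq ι] {F : Type*} [Field F] [Fintype F]
variable {Q : QuadraticForm F (ι → F)}

set_option quotPrecheck false in
local notation "𝔣" => polar (⇑Q)

theorem sq_eq_one_of_card_le (hq : Fintype.card F ≤ 3) {a : F} (ha : a ≠ 0) : a * a = 1 := by
  have h1 := FiniteField.pow_card_sub_one_eq_one a ha
  have h2 : 2 ≤ Fintype.card F := Fintype.one_lt_card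
  interval_cases h : Fintype.card F
  · have h3 : a = 1 := by simpa using h1
    rw [h3, mul_one]
  · have h3 : a ^ 2 = 1 := by simpa using h1
    rw [← h3]
    ring

/-- A hyperbolic plane has a hyperbolic basis. -/
theorem exists_basis (hQ : (polarBilin Q).Nondegenerate) {W : Submodule F (ι → F)} (hdim : finrank F W = 2)
    (hW : IsNondegenerateOn (polar (⇑Q)) W) (hWp : IsPlusTypeOn (⇑Q) W) :
    ∃ e ∈ W, ∃ f ∈ W, Q e = 0 ∧ Q f = 0 ∧ 𝔣 e f = 1 ∧ W = Submodule.span F {e, f} := by
  obtain ⟨T, hTW, hT, h2⟩ := hWp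
  have hT1 : finrank F T = 1 := by omega
  obtain ⟨e, he, he0⟩ : ∃ e ∈ T, e ≠ 0 := by
    by_contra h
    push_neg at h
    have : T = ⊥ := (Submodule.eq_bot_iff _).2 h
    rw [this, finrank_bot] at hT1
    omega
  have heW := hTW he
  have hQe : Q e = 0 := hT e he
  obtain ⟨⟨y, hy, hye⟩, -⟩ := hW e heW he0
  have hey : 𝔣 e y ≠ 0 := by
    rw [polar_comm]
    exact hye
  obtain ⟨y', hy'W, hef1⟩ : ∃ y' ∈ W, 𝔣 e y' = 1 := by
    refine ⟨(𝔣 e y)⁻¹ • y, W.smul_mem _ hy, ?_⟩
    rw [polar_smul_right', inv_mul_cancel₀ hey]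
  set f := y' - (Q y') • e with hf
  have hfW : f ∈ W := W.sub_mem hy'W (W.smul_mem _ heW)
  have hef : 𝔣 e f = 1 := by
    rw [hf, polar_sub_right, hef1, polar_smul_right', polar_zero_of_singular hQe]
    ring
  have hQf : Q f = 0 := by
    rw [hf, Q_sub, Q_smul, hQe, polar_smul_right', polar_comm, hef1]
    ring
  refine ⟨e, heW, f, hfW, hQe, hQf, hef, ?_⟩
  symm
  apply Submodule.eq_of_le_of_finrank_eq
  · rw [Submodule.span_le]
    rintro x (rfl | rfl)
    · exact heW
    · exact hfW
  · rw [hdim]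
    have hli : LinearIndependent F ![e, f] := by
      rw [LinearIndependent.pair_iff]
      intro α β h
      have h1 : 𝔣 e (α • e + β • f) = 𝔣 e 0 := by rw [h]
      rw [polar_add_right, polar_smul_right', polar_smul_right', polar_zero_of_singular hQe, hef] at h1
      have h4 : 𝔣 e 0 = 0 := by simp [polar]
      rw [h4] at h1
      have h3 : β = 0 := by linear_combination h1
      subst h3
      simp only [zero_smul, add_zero] at h
      exact ⟨(smul_eq_zero.1 h).resolve_right he0, rfl⟩
    have hfr := finrank_span_eq_card hli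
    simp only [Fintype.card_fin] at hfr
    have : Set.range ![e, f] = {e, f} := by
      simp [Matrix.range_cons]
      exact Set.pair_comm _ _
    rw [this] at hfr
    exact hfr

theorem exists_between_plane (hQ : (polarBilin Q).Nondegenerate) (h13 : 13 ≤ Fintype.card ι)
    (hq : Fintype.card F ≤ 3) {W : Submodule F (ι → F)} (hdim : finrank F W = 2)
    (hW : IsNondegenerateOn (polar (⇑Q)) W) (hWp : IsPlusTypeOn (⇑Q) W) :
    ∃ K : Subgroup (GL ι F), subspaceStabilizer W ⊓ omegaGL (⇑Q) < K ∧ K < omegaGL (⇑Q) := by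
  obtain ⟨e, he, f, hf, hQe, hQf, hef, hWe⟩ := exists_basis hQ hdim hW hWp
  have hfe : 𝔣 f e = 1 := by
    rw [polar_comm]
    exact hef
  have hQv : Q (e + f) = 1 := by
    rw [Q_add, hQe, hQf, hef]
    ring
  have hv0 : e + f ≠ 0 := by
    intro h
    rw [h] at hQv
    simp at hQv
  refine ⟨subspaceStabilizer (Submodule.span F {e + f}) ⊓ omegaGL (⇑Q), ?_, (isMaximalIn_line hQ (by omega) hv0).1⟩
  obtain ⟨U, P, hdims⟩ := exists_od hQ hW
  have hU7 : 7 ≤ finrank F U := by omega
  obtain ⟨a, ha, a', -, -, -, -, -, hQa, -, haa⟩ :=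
    P.symm.exists_hyp hQ hU7 (Submodule.zero_mem _) (Submodule.zero_mem _)
  have ha0 : a ≠ 0 := by
    rintro rfl
    simp [polar] at haa
  have hae : 𝔣 a e = 0 := P.orth' ha he
  have haf : 𝔣 a f = 0 := P.orth' ha hf
  have hb : 𝔣 a (e - f) = 0 := by
    rw [polar_sub_right, hae, haf, sub_zero]
  have hn5 : 5 ≤ Fintype.card ι := by omega
  apply lt_of_le_of_ne
  · rintro g ⟨h1, h2⟩
    refine ⟨?_, h2⟩
    apply Basic.mem_subspaceStabilizer_of_le
    have h3 : (g : Matrix ι ι F) *ᵥ (e + f) ∈ W :=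
      ((Basic.mem_subspaceStabilizer_iff _ _).1 h1 _).1 (W.add_mem he hf)
    have h4 : Q ((g : Matrix ι ι F) *ᵥ (e + f)) = 1 := by
      have := Q_act (Q := Q) ⟨g, omegaGL_le_iso h2⟩ (e + f)
      rw [hQv] at this
      exact this
    rw [hWe] at h3
    obtain ⟨α, β, h5⟩ := Submodule.mem_span_pair.1 h3
    rw [← h5, Q_add, Q_smul, Q_smul, hQe, hQf, polar_smul_left', polar_smul_right', hef] at h4
    have h6 : α * β = 1 := by linear_combination h4
    have hα : α ≠ 0 := by
      rintro rfl
      simp at h6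
    have hαα := sq_eq_one_of_card_le hq hα
    have hβ : β = α := by
      have : α * (β - α) = 0 := by
        linear_combination h6 - hαα
      have := (mul_eq_zero.1 this).resolve_left hα
      linear_combination this
    subst hβ
    intro x hx
    obtain ⟨c, rfl⟩ := Submodule.mem_span_singleton.1 hx
    rw [Matrix.mulVec_smul, ← h5, ← smul_add]
    exact Submodule.smul_mem _ _ (Submodule.smul_mem _ _ (Submodule.mem_span_singleton_self _))
  · intro heq
    have hvb : 𝔣 (e - f) (e + f) = 0 := by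
      rw [polar_sub_left, polar_add_right, polar_add_right, polar_zero_of_singular hQe, polar_zero_of_singular hQf,
        hef, hfe]
      ring
    have hav : 𝔣 a (e + f) = 0 := by
      rw [polar_add_right, hae, haf, add_zero]
    have hm : eG hQa hb ∈ subspaceStabilizer (Submodule.span F {e + f}) ⊓ omegaGL (⇑Q) := by
      refine ⟨?_, eG_mem_omegaGL hQ hn5 _ _⟩
      apply Basic.mem_subspaceStabilizer_of_le
      intro x hx
      obtain ⟨c, rfl⟩ := Submodule.mem_span_singleton.1 hx
      rw [Matrix.mulVec_smul, eG_mulVec, hav, hvb]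
      have h9 := Submodule.smul_mem (Submodule.span F {e + f}) c (Submodule.mem_span_singleton_self (e + f))
      simpa using h9
    rw [← heq] at hm
    have h1 := ((Basic.mem_subspaceStabilizer_iff _ _).1 hm.1 e).1 he
    rw [eG_mulVec, hae] at h1
    have h2 : 𝔣 (e - f) e = -1 := by
      rw [polar_sub_left, polar_zero_of_singular hQe, hfe]
      ring
    rw [h2] at h1
    have h3 : a ∈ W := by
      have h4 := W.sub_mem h1 he
      have e4 : e + (0 : F) • (e - f) - (-1 : F) • a - (Q (e - f) * 0) • a - e = a := by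
        module
      rwa [e4] at h4
    have h5 : a ∈ W ⊓ U := ⟨h3, ha⟩
    rw [P.compl.inf_eq_bot] at h5
    exact ha0 h5

end Cfsg.Agent.Lib.Classical.Geo.OPlane
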