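/-
`Ω` preserves the two families of maximal totally singular subspaces; the resulting non-maximal subgroups.
-/
import Mathlib
import Cfsg.Agent.Lib.Classical.Geo.OPair

set_option autoImplicit false
set_option linter.unusedSectionVars false

namespace Cfsg.Agent.Lib.Classical.Geo.OFam

open scoped Matrix
open Module Cfsg Cfsg.Geo QuadraticMap
open Cfsg.Agent.Lib.Classical.Orth.Basic
open Cfsg.Agent.Lib.Classical.Orth.CartanDieudonne
open Cfsg.Agent.Lib.Classical.Orth.Adjust
open Cfsg.Agent.Lib.Classical.Orth.Classes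
open Cfsg.Agent.Lib.Classical.Orth.Siegel
open Cfsg.Agent.Lib.Classical.Orth.Generation
open Cfsg.Agent.Lib.Classical.Orth.Simple
open Cfsg.Agent.Lib.Classical.Witt.TS
open Cfsg.Agent.Lib.Classical.Witt.Hyp
open Cfsg.Agent.Lib.Classical.Geo.OPts
open Cfsg.Agent.Lib.Classical.Geo.OLine
open Cfsg.Agent.Lib.Classical.Geo.OPair

variable {ι : Type} [Fintype ι] [DecidableEq ι] {F : Type*} [Field F] [Fintype F]
variable {Q : QuadraticForm F (ι → F)}

set_option quotPrecheck false in
local notation "𝔣" => polar (⇑Q)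

theorem det_of_omega {g : ↥(Cfsg.isometryGroup F (⇑Q))} (hg : g ∈ Cfsg.Omega F (⇑Q)) :
    ((g : GL ι F) : Matrix ι ι F).det = 1 := by
  let φ : ↥(Cfsg.isometryGroup F (⇑Q)) →* Fˣ := Matrix.GeneralLinearGroup.det.comp (Cfsg.isometryGroup F (⇑Q)).subtype
  have h : g ∈ φ.ker := Abelianization.commutator_subset_ker φ hg
  have h2 : φ g = 1 := h
  have h3 := congrArg Units.val h2
  simpa [φ] using h3

/-- The elements of `Ω` preserve the families of maximal totally singular subspaces. -/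
theorem even_of_omega (hQ : (polarBilin Q).Nondegenerate) {m : ℕ} (hV : Fintype.card ι = 2 * m) (hm : 3 ≤ m)
    {U : Submodule F (ι → F)} (hU : IsTS Q U) (hUm : finrank F U = m) {g : ↥(Cfsg.isometryGroup F (⇑Q))}
    (hg : g ∈ Cfsg.Omega F (⇑Q)) : Even (m - finrank F ↥(U ⊓ gMap g U)) := by
  by_cases h2 : (2 : F) = 0
  · haveI : CharP F 2 := CharTwo.of_one_ne_zero_of_two_eq_zero one_ne_zero h2
    exact (class_iff_omega hQ (Or.inr (by omega)) hV hU hUm g).2 hg
  · exact (class_iff_det hQ h2 hV hU hUm g).2 (det_of_omega hg)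

theorem mem_omega_of_mem {g : GL ι F} (hg : g ∈ omegaGL (⇑Q)) :
    ∃ g₀ : ↥(Cfsg.isometryGroup F (⇑Q)), g₀ ∈ Cfsg.Omega F (⇑Q) ∧ (g₀ : GL ι F) = g := by
  obtain ⟨g₀, h, rfl⟩ := hg
  exact ⟨g₀, h, rfl⟩

/-- A group between the stabiliser of a pair of complementary maximal totally singular subspaces of odd dimension
and `Ω`. -/
theorem exists_between_pair (hQ : (polarBilin Q).Nondegenerate) {k : ℕ} (hV : Fintype.card ι = 2 * k) (hk : 5 ≤ k)
    (hko : Odd k) (D : Fin 2 → Submodule F (ι → F)) (hD : IsMDecomposition k D) (hts : ∀ i, ∀ x ∈ D i, Q x = 0) :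
    ∃ K : Subgroup (GL ι F), decompositionStabilizer D ⊓ omegaGL (⇑Q) < K ∧ K < omegaGL (⇑Q) := by
  set X := D 0 with hX
  set Y := D 1 with hY
  have hn : 5 ≤ Fintype.card ι := by omega
  have hdimX : finrank F X = k := hD.finrank_eq 0
  have hdimY : finrank F Y = k := hD.finrank_eq 1
  have hdim' : ∀ i j, finrank F (D i) = finrank F (D j) := fun i j => by
    rw [hD.finrank_eq, hD.finrank_eq]
  have P : OP Q X Y := by
    refine ⟨hts 0, hts 1, ⟨hD.indep.pairwiseDisjoint (by simp), ?_⟩⟩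
    rw [codisjoint_iff, eq_top_iff, ← hD.iSup_eq_top]
    apply iSup_le
    intro i
    fin_cases i
    · exact le_sup_left
    · exact le_sup_right
  have hdisj : ∀ z, z ∈ X → z ∈ Y → z = 0 := fun z h₁ h₂ =>
    (Submodule.disjoint_def.1 P.compl.disjoint) z h₁ h₂
  have hpos : X ≠ ⊥ := by
    intro h
    rw [h, finrank_bot] at hdimX
    omega
  have hmax := isMaximalIn_parabolic hQ hn hpos P.tsX (fun h => by
    rw [hdimX] at h
    omega)
  refine ⟨subspaceStabilizer X ⊓ omegaGL (⇑Q), lt_of_le_of_ne ?_ ?_, hmax.1⟩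
  · rintro g ⟨⟨π, hπ⟩, hg⟩
    refine ⟨?_, hg⟩
    have h0 : π 0 = 0 ∨ π 0 = 1 := by
      generalize π 0 = s
      fin_cases s <;> simp
    rcases h0 with h0 | h0
    · apply Basic.mem_subspaceStabilizer_of_le
      intro x hx
      have h3 : (g : Matrix ι ι F) *ᵥ x ∈ D (π 0) := by
        rw [← hπ 0]
        exact ⟨x, hx, rfl⟩
      rwa [h0] at h3
    · exfalso
      obtain ⟨g₀, hg₀, rfl⟩ := mem_omega_of_mem hg
      have h1 := even_of_omega hQ hV (by omega) P.tsX hdimX hg₀
      have h2 : gMap g₀ X = Y := by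
        have h3 := hπ 0
        rw [h0] at h3
        have h4 : gMap g₀ X = (D 0).map (Matrix.toLin' ((g₀ : GL ι F) : Matrix ι ι F)) := rfl
        rw [h4, h3]
      rw [h2, P.compl.inf_eq_bot, finrank_bot, Nat.sub_zero] at h1
      exact (Nat.not_even_iff_odd.2 hko) h1
  · -- a root element
    intro heq
    obtain ⟨a, ha, ha0⟩ := Submodule.exists_mem_ne_zero_of_ne_bot hpos
    obtain ⟨a', ha', -, -, ha'S⟩ := exists_mem_orth (Q := Q) X 0 0 (Submodule.span F {a}) (by
      have h3 : finrank F (Submodule.span F {a}) ≤ 2 :=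
        (Submodule.finrank_mono (Submodule.span_mono (by simp))).trans (finrank_span_pair_le a a)
      omega)
    obtain ⟨b, hb, hb0, hb1⟩ := P.prescribe hQ ha (S := Submodule.span F {a'})
      (UPair.not_mem_singleton_symm ha0 ha'S)
    have hb2 : 𝔣 a' b = 0 := hb0 a' ha' (Submodule.mem_span_singleton_self _)
    have ha'0 : a' ≠ 0 := by
      rintro rfl
      exact ha'S (Submodule.zero_mem _)
    have hm : eG (P.tsX a ha) (P.polX ha ha') ∈ decompositionStabilizer D ⊓ omegaGL (⇑Q) := by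
      rw [heq]
      refine ⟨Basic.mem_subspaceStabilizer_of_le _ _ fun x hx => ?_, eG_mem_omegaGL hQ hn _ _⟩
      rw [eG_mulVec, P.polX ha hx, P.polX ha' hx]
      simpa using hx
    obtain ⟨π, hπ⟩ := hm.1
    have h1 : (eG (P.tsX a ha) (P.polX ha ha') : Matrix ι ι F) *ᵥ b ∈ D (π 1) := by
      rw [← hπ 1]
      exact ⟨_, hb, rfl⟩
    have h2 : (eG (P.tsX a ha) (P.polX ha ha') : Matrix ι ι F) *ᵥ a = a := by
      rw [eG_mulVec, P.polX ha ha, P.polX ha' ha]
      simp
    have h3 : a ∈ D (π 0) := by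
      rw [← hπ 0, Submodule.mem_map]
      exact ⟨a, ha, h2⟩
    have h0 : π 0 = 0 := by
      have hs : π 0 = 0 ∨ π 0 = 1 := by
        generalize π 0 = s
        fin_cases s <;> simp
      rcases hs with hs | hs
      · exact hs
      · rw [hs] at h3
        exact absurd (hdisj a ha h3) ha0
    have h4 : π 1 = 1 := by
      have hne : π 1 ≠ π 0 := fun h => by
        have := π.injective h
        simp at this
      rw [h0] at hne
      generalize π 1 = s at hne
      fin_cases s
      · simp at hne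
      · rfl
    rw [h4, eG_mulVec, hb1, hb2] at h1
    have hQa' : Q a' = 0 := P.tsX a' ha'
    rw [hQa'] at h1
    have h5 : a' ∈ Y := by
      have e : a' = b + (1 : F) • a' - (0 : F) • a - (0 * 1 : F) • a - b := by module
      rw [e]
      exact Y.sub_mem h1 hb
    exact ha'0 (hdisj a' ha' h5)

omit [Fintype F] in
theorem exists_sub [Finite F] {U : Submodule F (ι → F)} {m : ℕ} (hU : finrank F U = m + 1) :
    ∃ U' : Submodule F (ι → F), U' ≤ U ∧ finrank F U' = m := by
  let b := Module.finBasisOfFinrankEq F U hU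
  have hli : LinearIndependent F (fun i : Fin m => (b i.succ : ι → F)) :=
    (b.linearIndependent.map' U.subtype (by simp)).comp Fin.succ (Fin.succ_injective _)
  refine ⟨Submodule.span F (Set.range fun i : Fin m => (b i.succ : ι → F)), ?_, ?_⟩
  · apply Submodule.span_le.2
    rintro _ ⟨i, rfl⟩
    exact (b i.succ).2
  · rw [finrank_span_eq_card hli]
    simp

/-- A group between the stabiliser of a totally singular subspace of dimension `n/2 - 1` and `Ω`. -/
theorem exists_between_parabolic (hQ : (polarBilin Q).Nondegenerate) {m : ℕ} (hV : Fintype.card ι = 2 * (m + 1))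
    (hm : 4 ≤ m) {U W : Submodule F (ι → F)} (hU : ∀ x ∈ U, Q x = 0) (hUm : finrank F U = m + 1)
    (hW : ∀ x ∈ W, Q x = 0) (hWm : finrank F W = m) :
    ∃ K : Subgroup (GL ι F), subspaceStabilizer W ⊓ omegaGL (⇑Q) < K ∧ K < omegaGL (⇑Q) := by
  have hn : 5 ≤ Fintype.card ι := by omega
  -- a maximal totally singular subspace containing `W`
  obtain ⟨U', hU'le, hU'dim⟩ := exists_sub hUm
  have hU'ts : ∀ x ∈ U', Q x = 0 := fun x hx => hU x (hU'le hx)
  obtain ⟨h, hh, -⟩ := exists_iso_of_witt hQ U' W (LinearEquiv.ofFinrankEq U' W (by rw [hU'dim, hWm]))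
    (fun x => by rw [hW _ (LinearEquiv.ofFinrankEq U' W _ x).2, hU'ts _ x.2])
  set X := gMap h U with hX
  have hWX : W ≤ X := by
    rw [← hh]
    exact Submodule.map_mono hU'le
  have hXts : IsTS Q X := isTS_gMap h hU
  have hXdim : finrank F X = m + 1 := by rw [hX, finrank_gMap, hUm]
  have hX0 : X ≠ ⊥ := by
    intro h0
    rw [h0, finrank_bot] at hXdim
    omega
  have hmax := isMaximalIn_parabolic hQ hn hX0 hXts (fun h => by
    rw [hXdim] at h
    omega)
  have hW0 : W ≠ ⊥ := by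
    intro h0
    rw [h0, finrank_bot] at hWm
    omega
  refine ⟨subspaceStabilizer X ⊓ omegaGL (⇑Q), lt_of_le_of_ne ?_ ?_, hmax.1⟩
  · rintro g ⟨hg, hgΩ⟩
    refine ⟨?_, hgΩ⟩
    obtain ⟨g₀, hg₀, rfl⟩ := mem_omega_of_mem hgΩ
    have h1 := even_of_omega hQ hV (by omega) hXts hXdim hg₀
    have hWle : W ≤ X ⊓ gMap g₀ X := by
      refine le_inf hWX ?_
      intro w hw
      have h2 : act g₀⁻¹ w ∈ W := by
        have := ((Basic.mem_subspaceStabilizer_iff _ W).1 (inv_mem hg) w).1 hw
        exact this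
      exact mem_gMap.2 ⟨_, hWX h2, act_act_inv g₀ w⟩
    have h2 := Submodule.finrank_mono hWle
    have h3 : finrank F ↥(X ⊓ gMap g₀ X) ≤ finrank F X := Submodule.finrank_mono inf_le_left
    rw [hWm] at h2
    rw [hXdim] at h3
    have h4 : finrank F ↥(X ⊓ gMap g₀ X) = m + 1 := by
      obtain ⟨c, hc⟩ := h1
      omega
    have h5 : X ⊓ gMap g₀ X = X := Submodule.eq_of_le_of_finrank_eq inf_le_left (by rw [h4, hXdim])
    apply Basic.mem_subspaceStabilizer_of_le
    intro x hx
    have h6 : gMap g₀ X ≤ X :=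
      (Submodule.eq_of_le_of_finrank_eq (inf_eq_left.1 h5) (finrank_gMap g₀ X).symm).symm.le
    exact h6 (mem_gMap.2 ⟨x, hx, rfl⟩)
  · intro heq
    obtain ⟨a, ha, haW⟩ : ∃ a ∈ X, a ∉ W := by
      by_contra hcon
      push Not at hcon
      have := Submodule.finrank_mono (show X ≤ W from hcon)
      omega
    obtain ⟨w, hw, hw0⟩ := Submodule.exists_mem_ne_zero_of_ne_bot hW0
    have h1 : a ∉ Submodule.span F {w} := fun h => haW
      ((Submodule.span_singleton_le_iff_mem _ _).2 hw h)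
    obtain ⟨c, hc, hwc⟩ := riesz hQ (UPair.not_mem_singleton_symm hw0 h1)
    have hac : 𝔣 a c = 0 := hc a (Submodule.mem_span_singleton_self a)
    have hpX : ∀ x ∈ X, ∀ y ∈ X, 𝔣 x y = 0 := fun x hx y hy => polar_of_ts hXts hx hy
    have hm : eG (hXts a ha) hac ∈ subspaceStabilizer W ⊓ omegaGL (⇑Q) := by
      rw [heq]
      refine ⟨Basic.mem_subspaceStabilizer_of_le _ _ fun x hx => ?_, eG_mem_omegaGL hQ hn _ _⟩
      rw [eG_mulVec, hpX a ha x hx]
      simpa using X.sub_mem hx (X.smul_mem _ ha)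
    have h2 := ((Basic.mem_subspaceStabilizer_iff _ W).1 hm.1 w).1 hw
    rw [eG_mulVec, hpX a ha w (hWX hw), polar_comm (⇑Q) c w, hwc] at h2
    apply haW
    have e : a = w - (w + (0 : F) • c - (1 : F) • a - (Q c * 0) • a) := by module
    rw [e]
    exact W.sub_mem hw h2

end Cfsg.Agent.Lib.Classical.Geo.OFam
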