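/-
The stabiliser of a totally isotropic subspace is maximal in the special unitary group.

An overgroup `M` of the stabiliser contains the transvections `T_z(c)` for `z ∈ W^⊥` isotropic, and, if `M` is bigger,
also `T_x(c)` for an isotropic vector `x ∉ W^⊥`.  The elements `E(p, q)`, `p ∈ W`, of the stabiliser, move `x` to any
other isotropic vector outside `W^⊥`.
-/
import Mathlib
import Cfsg.Agent.Lib.Classical.Geo.UPair

set_option autoImplicit false
set_option linter.unusedSectionVars false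

namespace Cfsg.Agent.Lib.Classical.Geo.UParab

open scoped Matrix
open Module Cfsg Cfsg.Geo Cfsg.Agent.Lib.Classical.Geo.Basic Cfsg.Agent.Lib.Classical.Geo.SympSim
open Cfsg.Agent.Lib.Classical.Geo.UForm Cfsg.Agent.Lib.Classical.Geo.UPair

variable {ι : Type} [Fintype ι] [DecidableEq ι] {F : Type*} [Field F] [Fintype F]
  {σ : F ≃+* F} {f : (ι → F) → (ι → F) → F} (hf : IsUnitaryForm σ f)

include hf

/-- The orthogonal complement of a subspace. -/
def orth (W : Submodule F (ι → F)) : Submodule F (ι → F) where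
  carrier := {x | ∀ a ∈ W, f x a = 0}
  add_mem' hx hy a ha := by rw [hf.add_left, hx a ha, hy a ha, add_zero]
  zero_mem' a _ := zero_left hf a
  smul_mem' c x hx a ha := by rw [hf.smul_left, hx a ha, mul_zero]

theorem mem_orth {W : Submodule F (ι → F)} {x : ι → F} : x ∈ orth hf W ↔ ∀ a ∈ W, f x a = 0 := Iff.rfl

theorem mem_orth' {W : Submodule F (ι → F)} {x : ι → F} (hx : x ∈ orth hf W) {a : ι → F} (ha : a ∈ W) :
    f a x = 0 := swap_zero hf (hx a ha)

/-- A vector outside `W` is not orthogonal to `W^⊥`. -/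
theorem exists_orth_of_notMem {W : Submodule F (ι → F)} {z : ι → F} (hz : z ∉ W) :
    ∃ w ∈ orth hf W, f z w = 1 := by
  obtain ⟨w, h1, h2⟩ := exists_perp_ne hf hz
  exact ⟨w, fun a ha => swap_zero hf (h1 a ha), h2⟩

/-- A hyperbolic partner inside a subspace. -/
theorem exists_partner {S : Submodule F (ι → F)} {a y : ι → F} (ha : a ∈ S) (hy : y ∈ S) (haa : f a a = 0)
    (hya : f y a = 1) : ∃ x ∈ S, f x x = 0 ∧ f x a = 1 ∧ f a x = 1 := by
  have hay : f a y = 1 := by rw [hf.herm, hya, map_one]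
  obtain ⟨κ, hκ⟩ := exists_trace hf.ne_refl hf.involutive (f y y) (sigma_self hf y)
  refine ⟨y - κ • a, S.sub_mem hy (S.smul_mem _ ha), ?_, ?_, ?_⟩
  · simp only [sub_left hf, sub_right hf, hf.smul_left, smul_right hf, haa, hay, hya]
    linear_combination -hκ
  · rw [sub_left hf, hf.smul_left, haa, hya]
    ring
  · rw [sub_right hf, smul_right hf, haa, hay]
    ring

theorem smul_mem_vecs {M : Subgroup (GL ι F)} {a : ι → F} (ha : a ∈ vecs hf M) (l : F) :
    l • a ∈ vecs hf M := by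
  obtain ⟨h0, hT⟩ := ha
  refine ⟨by rw [self_smul hf, h0, mul_zero], fun c hc => ?_⟩
  have hc' : (c * (l * σ l)) + σ (c * (l * σ l)) = 0 := by
    rw [map_mul, map_mul, hf.involutive]
    linear_combination (l * σ l) * hc
  have e : T hf (c • l • a) (l • a) (by
      rw [hf.smul_left, hf.smul_left, smul_right hf, h0]
      ring) = T hf ((c * (l * σ l)) • a) a (by rw [hf.smul_left, h0, mul_zero]) := by
    apply gl_ext
    intro x
    rw [T_mulVec, T_mulVec, smul_right hf]
    module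
  rw [e]
  exact hT _ hc'

/-- The moves. -/
theorem vecs_step {M : Subgroup (GL ι F)} {p x y : ι → F}
    (hE : ∀ q, f q q = 0 → ∀ h : f p q = 0, E hf p q h ∈ M) (hp : p ∈ vecs hf M) (hx : x ∈ vecs hf M)
    (hxp : f x p = 1) (hyy : f y y = 0) (hyp : f y p = 1) (h12 : 12 ≤ Fintype.card ι) : y ∈ vecs hf M := by
  have hxx : f x x = 0 := hx.1
  have hpp : f p p = 0 := hp.1
  have hpx : f p x = 1 := by rw [hf.herm, hxp, map_one]
  have hpy : f p y = 1 := by rw [hf.herm, hyp, map_one]
  have hx0 : x ≠ 0 := by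
    rintro rfl
    rw [zero_left hf] at hxp
    exact zero_ne_one hxp
  have hp0 : p ≠ 0 := by
    rintro rfl
    rw [zero_right hf] at hxp
    exact zero_ne_one hxp
  by_cases h1 : y ∈ Submodule.span F {x}
  · obtain ⟨κ, rfl⟩ := Submodule.mem_span_singleton.1 h1
    rw [hf.smul_left, hxp, mul_one] at hyp
    rw [hyp, one_smul]
    exact hx
  by_cases h2 : p ∈ Submodule.span F {x} ⊔ Submodule.span F {y}
  · -- `y` differs from `x` by a multiple of `p`
    obtain ⟨u, hu, v, hv, huv⟩ := Submodule.mem_sup.1 h2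
    obtain ⟨α, rfl⟩ := Submodule.mem_span_singleton.1 hu
    obtain ⟨β, rfl⟩ := Submodule.mem_span_singleton.1 hv
    have e0 : α + β = 0 := by
      have := congrArg (fun z => f z p) huv
      simp only [hf.add_left, hf.smul_left, hxp, hyp, hpp] at this
      simpa using this
    have hβ : β = -α := by linear_combination e0
    have hα : α ≠ 0 := by
      rintro rfl
      apply hp0
      rw [← huv, hβ]
      simp
    set κ := -α⁻¹ with hκ
    have ey : y = x + κ • p := by
      rw [← huv, hβ, hκ]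
      have : α⁻¹ * α = 1 := inv_mul_cancel₀ hα
      have e : x + -α⁻¹ • (α • x + -α • y) = x - (α⁻¹ * α) • x + (α⁻¹ * α) • y := by module
      rw [e, this]
      module
    have htr : κ + σ κ = 0 := by
      have := hyy
      rw [ey, self_add hf, self_smul hf, hxx, hpp, smul_right hf, hxp, mul_one, hf.involutive] at this
      linear_combination this
    have := mulVec_mem_vecs hf hx (hp.2 κ htr) (T_iso hf hpp htr)
    rw [T_mulVec, hxp, one_smul, ← ey] at this
    exact this
  -- the generic case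
  obtain ⟨z, hzz, hxz, hyz, hpz⟩ := exists_iso hf h1 h2 0 1 h12
  have hzp : f z p = 1 := by rw [hf.herm, hpz, map_one]
  have hzx : f z x = 0 := swap_zero hf hxz
  have hzy : f z y = 0 := swap_zero hf hyz
  have q1 : f (x - z) (x - z) = 0 := by
    simp only [sub_left hf, sub_right hf, hxx, hzz, hxz, hzx]
    ring
  have p1 : f p (x - z) = 0 := by rw [sub_right hf, hpx, hpz, sub_self]
  have q2 : f (z - y) (z - y) = 0 := by
    simp only [sub_left hf, sub_right hf, hyy, hzz, hyz, hzy]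
    ring
  have p2 : f p (z - y) = 0 := by rw [sub_right hf, hpz, hpy, sub_self]
  have s1 := mulVec_mem_vecs hf hx (hE _ q1 p1) (E_iso hf hpp q1 p1)
  rw [E_mulVec hf p1 q1, sub_right hf, hxx, hxz, hxp] at s1
  have e1 : x + (0 - 0 : F) • p - (1 : F) • (x - z) = z := by module
  rw [e1] at s1
  have s2 := mulVec_mem_vecs hf s1 (hE _ q2 p2) (E_iso hf hpp q2 p2)
  rw [E_mulVec hf p2 q2, sub_right hf, hzz, hzy, hzp] at s2
  have e2 : z + (0 - 0 : F) • p - (1 : F) • (z - y) = y := by module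
  rwa [e2] at s2

/-- Transitivity outside `W^⊥`. -/
theorem vecs_trans {W : Submodule F (ι → F)} {M : Subgroup (GL ι F)}
    (hE : ∀ p ∈ W, ∀ q, f q q = 0 → ∀ h : f p q = 0, E hf p q h ∈ M) (hT : ∀ p ∈ W, p ∈ vecs hf M)
    {x y a b : ι → F} (hx : x ∈ vecs hf M) (ha : a ∈ W) (hxa : f x a ≠ 0) (hyy : f y y = 0) (hb : b ∈ W)
    (hyb : f y b ≠ 0) (h12 : 12 ≤ Fintype.card ι) : y ∈ vecs hf M := by
  obtain ⟨p, hp, hxp, hyp⟩ : ∃ p ∈ W, f x p ≠ 0 ∧ f y p ≠ 0 := by
    by_cases h1 : f y a = 0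
    · by_cases h2 : f x b = 0
      · refine ⟨a + b, W.add_mem ha hb, ?_, ?_⟩
        · rw [add_right hf, h2, add_zero]
          exact hxa
        · rw [add_right hf, h1, zero_add]
          exact hyb
      · exact ⟨b, hb, h2, hyb⟩
    · exact ⟨a, ha, hxa, h1⟩
  have hx' := smul_mem_vecs hf hx (f x p)⁻¹
  have h1 : f ((f x p)⁻¹ • x) p = 1 := by rw [hf.smul_left, inv_mul_cancel₀ hxp]
  have h2 : f ((f y p)⁻¹ • y) p = 1 := by rw [hf.smul_left, inv_mul_cancel₀ hyp]
  have h3 : f ((f y p)⁻¹ • y) ((f y p)⁻¹ • y) = 0 := by rw [self_smul hf, hyy, mul_zero]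
  have := vecs_step hf (hE p hp) (hT p hp) hx' h1 h3 h2 h12
  have h4 := smul_mem_vecs hf this (f y p)
  rwa [smul_smul, mul_inv_cancel₀ hyp, one_smul] at h4

/-- An isometry stabilising `W^⊥` stabilises `W`. -/
theorem stab_of_stab_orth {W : Submodule F (ι → F)} {g : GL ι F}
    (hg : ∀ x y, f ((g : Matrix ι ι F) *ᵥ x) ((g : Matrix ι ι F) *ᵥ y) = f x y)
    (hU : g ∈ subspaceStabilizer (orth hf W)) : g ∈ subspaceStabilizer W := by
  apply mem_subspaceStabilizer_of_le
  intro a ha
  by_contra hcon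
  obtain ⟨w, hw, hw1⟩ := exists_orth_of_notMem hf hcon
  have h1 : ((g⁻¹ : GL ι F) : Matrix ι ι F) *ᵥ w ∈ orth hf W := by
    rw [(mem_subspaceStabilizer_iff g _).1 hU, mulVec_inv_mulVec]
    exact hw
  have h2 := hg a (((g⁻¹ : GL ι F) : Matrix ι ι F) *ᵥ w)
  rw [mulVec_inv_mulVec, hw1, mem_orth' hf h1 ha] at h2
  exact one_ne_zero h2

/-- Spanning by isotropic vectors, given a hyperbolic pair in a subspace. -/
theorem mem_span_iso {S : Submodule F (ι → F)} {z z' y : ι → F} (hz : z ∈ S) (hz' : z' ∈ S) (hy : y ∈ S)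
    (hzz : f z z = 0) (hzz' : f z' z' = 0) (h1 : f z' z = 1) :
    y ∈ Submodule.span F {v | v ∈ S ∧ f v v = 0} := by
  have h1' : f z z' = 1 := by rw [hf.herm, h1, map_one]
  set y' := y - f y z' • z - f y z • z' with hy'
  have a1 : f y' z = 0 := by
    simp only [hy', sub_left hf, hf.smul_left, hzz, h1]
    ring
  have a2 : f y' z' = 0 := by
    simp only [hy', sub_left hf, hf.smul_left, hzz', h1']
    ring
  have hy'S : y' ∈ S := S.sub_mem (S.sub_mem hy (S.smul_mem _ hz)) (S.smul_mem _ hz')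
  obtain ⟨s, hs⟩ := exists_trace hf.ne_refl hf.involutive (-(f y' y')) (by rw [map_neg, sigma_self hf])
  have hw : f (y' + s • z + z') (y' + s • z + z') = 0 := by
    have a1' : f z y' = 0 := swap_zero hf a1
    have a2' : f z' y' = 0 := swap_zero hf a2
    simp only [hf.add_left, add_right hf, hf.smul_left, smul_right hf, a1, a2, a1', a2', hzz, hzz', h1, h1']
    linear_combination hs
  have hwS : y' + s • z + z' ∈ S := S.add_mem (S.add_mem hy'S (S.smul_mem _ hz)) hz'
  set I := Submodule.span F {v | v ∈ S ∧ f v v = 0} with hI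
  have m1 : y' + s • z + z' ∈ I := Submodule.subset_span ⟨hwS, hw⟩
  have m2 : z ∈ I := Submodule.subset_span ⟨hz, hzz⟩
  have m3 : z' ∈ I := Submodule.subset_span ⟨hz', hzz'⟩
  have e : y = (y' + s • z + z') - s • z - z' + f y z' • z + f y z • z' := by
    rw [hy']
    abel
  rw [e]
  exact I.add_mem (I.add_mem (I.sub_mem (I.sub_mem m1 (I.smul_mem _ m2)) m3) (I.smul_mem _ m2)) (I.smul_mem _ m3)

/-- The main theorem, given the generation of the isometry group by transvections. -/
theorem isMaximalIn_parabolic {W : Submodule F (ι → F)} (hW0 : W ≠ ⊥) (hW : ∀ u ∈ W, ∀ v ∈ W, f u v = 0)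
    (h12 : 12 ≤ Fintype.card ι)
    (hgen : ∀ M : Subgroup (GL ι F), (∀ w, f w w = 0 → w ∈ vecs hf M) → isoGroup hf ≤ M) :
    IsMaximalIn (isoGroup hf) (subspaceStabilizer W ⊓ isoGroup hf) := by
  have hWU : W ≤ orth hf W := fun a ha b hb => hW a ha b hb
  -- elements of the stabiliser
  have hEH : ∀ p ∈ W, ∀ q, f q q = 0 → ∀ h : f p q = 0, E hf p q h ∈ subspaceStabilizer W ⊓ isoGroup hf := by
    intro p hp q hq h
    refine ⟨mem_subspaceStabilizer_of_le _ _ fun x hx => ?_, E_mem hf (hW p hp p hp) hq h⟩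
    rw [E_mulVec hf h hq, hW x hx p hp, zero_smul, sub_zero]
    exact W.add_mem hx (W.smul_mem _ hp)
  have hTH : ∀ z ∈ orth hf W, ∀ hz : f z z = 0, ∀ c : F, c + σ c = 0 →
      T hf (c • z) z (by rw [hf.smul_left, hz, mul_zero]) ∈ subspaceStabilizer W ⊓ isoGroup hf := by
    intro z hz hzz c hc
    refine ⟨mem_subspaceStabilizer_of_le _ _ fun x hx => ?_, T_mem_isoGroup hf z c hzz hc⟩
    rw [T_mulVec, mem_orth' hf hz hx, zero_smul, add_zero]
    exact hx
  -- strictness
  obtain ⟨a, ha, ha0⟩ := Submodule.exists_mem_ne_zero_of_ne_bot hW0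
  obtain ⟨y, hy⟩ := (hf.nondegenerate a ha0).1
  obtain ⟨x, -, hxx, hxa, hax⟩ := exists_partner hf (S := ⊤) (a := a) (y := (f y a)⁻¹ • y) trivial trivial
    (hW a ha a ha) (by rw [hf.smul_left, inv_mul_cancel₀ hy])
  obtain ⟨c₀, hc0, hc⟩ := exists_tr0 hf.ne_refl hf.involutive
  refine ⟨lt_of_le_of_mem_not_mem inf_le_right (T_mem_isoGroup hf x c₀ hxx hc) ?_, ?_⟩
  · rintro ⟨h1, -⟩
    have h2 := ((mem_subspaceStabilizer_iff _ W).1 h1 a).1 ha
    rw [T_mulVec, hax, one_smul] at h2
    have h3 : c₀ • x ∈ W := by simpa using W.sub_mem h2 ha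
    have h4 := hW _ h3 a ha
    rw [hf.smul_left, hxa, mul_one] at h4
    exact hc0 h4
  · intro M hHM hMS
    by_cases hMH : M ≤ subspaceStabilizer W ⊓ isoGroup hf
    · exact Or.inl (le_antisymm hMH hHM)
    right
    apply le_antisymm hMS
    obtain ⟨g, hgM, hgH⟩ := SetLike.not_le_iff_exists.1 hMH
    have hgS := hMS hgM
    have hgiso := ((mem_isoGroup hf).1 hgS).1
    have hg0 : g ∉ subspaceStabilizer W := fun h => hgH ⟨h, hgS⟩
    have hE : ∀ p ∈ W, ∀ q, f q q = 0 → ∀ h : f p q = 0, E hf p q h ∈ M :=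
      fun p hp q hq h => hHM (hEH p hp q hq h)
    have hU : ∀ z ∈ orth hf W, f z z = 0 → z ∈ vecs hf M := fun z hz hzz =>
      ⟨hzz, fun c hc => hHM (hTH z hz hzz c hc)⟩
    have hT : ∀ p ∈ W, p ∈ vecs hf M := fun p hp => hU p (hWU hp) (hW p hp p hp)
    -- a centre outside `W^⊥`
    obtain ⟨z, hz, hzz, hgz⟩ : ∃ z ∈ orth hf W, f z z = 0 ∧ (g : Matrix ι ι F) *ᵥ z ∉ orth hf W := by
      by_contra hcon
      push Not at hcon
      apply hg0
      by_cases hex : ∃ z ∈ orth hf W, f z z = 0 ∧ z ∉ W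
      · obtain ⟨z₀, hz₀, hz₀z, hz₀W⟩ := hex
        obtain ⟨w, hw, hw1⟩ := exists_orth_of_notMem hf hz₀W
        obtain ⟨z', hz', hz'z, hz'a, -⟩ := exists_partner hf (S := orth hf W) hz₀ hw hz₀z
          (by rw [hf.herm, hw1, map_one])
        apply stab_of_stab_orth hf hgiso
        apply mem_subspaceStabilizer_of_le
        intro y hy
        have hspan := mem_span_iso hf hz₀ hz' hy hz₀z hz'z hz'a
        have hle : Submodule.span F {v | v ∈ orth hf W ∧ f v v = 0} ≤
            (orth hf W).comap (Matrix.toLin' (g : Matrix ι ι F)) := by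
          apply Submodule.span_le.2
          rintro v ⟨hv, hvv⟩
          exact hcon v hv hvv
        exact hle hspan
      · push Not at hex
        apply mem_subspaceStabilizer_of_le
        intro a ha
        apply hex _ (hcon a (hWU ha) (hW a ha a ha))
        rw [hgiso]
        exact hW a ha a ha
    have hv : (g : Matrix ι ι F) *ᵥ z ∈ vecs hf M := mulVec_mem_vecs hf (hU z hz hzz) hgM hgiso
    have hout : ∃ a ∈ W, f ((g : Matrix ι ι F) *ᵥ z) a ≠ 0 := by
      by_contra hcon
      push Not at hcon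
      exact hgz hcon
    obtain ⟨a₁, ha₁, hva₁⟩ := hout
    apply hgen M
    intro w hw
    by_cases hwU : w ∈ orth hf W
    · exact hU w hwU hw
    have hout2 : ∃ a ∈ W, f w a ≠ 0 := by
      by_contra hcon
      push Not at hcon
      exact hwU hcon
    obtain ⟨b, hb, hwb⟩ := hout2
    exact vecs_trans hf hE hT hv ha₁ hva₁ hw hb hwb h12

end Cfsg.Agent.Lib.Classical.Geo.UParab
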