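/-
The stabiliser of a non-degenerate subspace of dimension `< n/2` is maximal in the special unitary group.
-/
import Mathlib
import Cfsg.Agent.Lib.Classical.Geo.UParab

set_option autoImplicit false
set_option linter.unusedSectionVars false

namespace Cfsg.Agent.Lib.Classical.Geo.UNondeg

open scoped Matrix
open Module Cfsg Cfsg.Geo Cfsg.Agent.Lib.Classical.Geo.Basic Cfsg.Agent.Lib.Classical.Geo.SympSim
open Cfsg.Agent.Lib.Classical.Geo.UForm Cfsg.Agent.Lib.Classical.Geo.UPair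
open Cfsg.Agent.Lib.Classical.Geo.UParab

variable {ι : Type} [Fintype ι] [DecidableEq ι] {F : Type*} [Field F] [Fintype F]
  {σ : F ≃+* F} {f : (ι → F) → (ι → F) → F} (hf : IsUnitaryForm σ f)

include hf

/-- A family version of `exists_mem_orth`. -/
theorem exists_mem_perp (X : Submodule F (ι → F)) {k : ℕ} (x : Fin k → ι → F) (S : Submodule F (ι → F))
    (h : finrank F S + k < finrank F X) : ∃ z ∈ X, (∀ i, f z (x i) = 0) ∧ z ∉ S := by
  by_contra hcon
  push Not at hcon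
  let L : X →ₗ[F] (Fin k → F) := LinearMap.pi fun i => (fLin hf (x i)).domRestrict X
  have h1 := LinearMap.finrank_range_add_finrank_ker L
  have h2 : finrank F (LinearMap.range L) ≤ k := (Submodule.finrank_le _).trans (by simp)
  have h3 : (LinearMap.ker L).map X.subtype ≤ S := by
    rintro _ ⟨z, hz, rfl⟩
    have hz' : L z = 0 := hz
    apply hcon z z.2
    intro i
    exact congrFun hz' i
  have h4 := Submodule.finrank_mono h3
  have h5 : finrank F ((LinearMap.ker L).map X.subtype) = finrank F (LinearMap.ker L) :=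
    (Submodule.equivMapOfInjective _ X.injective_subtype _).finrank_eq.symm
  omega

/-- Two orthogonal nonzero vectors give an isotropic vector in their span. -/
theorem iso_of_orth {S : Submodule F (ι → F)} {u₁ u₂ : ι → F} (h₁ : u₁ ∈ S) (h₂ : u₂ ∈ S) (h0 : u₁ ≠ 0)
    (h0' : u₂ ≠ 0) (h : f u₂ u₁ = 0) : ∃ z ∈ S, z ≠ 0 ∧ f z z = 0 := by
  by_cases ha : f u₁ u₁ = 0
  · exact ⟨u₁, h₁, h0, ha⟩
  obtain ⟨α, hα⟩ := exists_norm hf.ne_refl hf.involutive (-(f u₂ u₂) * (f u₁ u₁)⁻¹)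
    (by simp only [map_mul, map_neg, map_inv₀, sigma_self hf])
  have h' : f u₁ u₂ = 0 := swap_zero hf h
  refine ⟨α • u₁ + u₂, S.add_mem (S.smul_mem _ h₁) h₂, ?_, ?_⟩
  · intro hz
    have h3 : f (α • u₁ + u₂) u₁ = 0 := by rw [hz, zero_left hf]
    rw [hf.add_left, hf.smul_left, h, add_zero] at h3
    have hα0 : α = 0 := (mul_eq_zero.1 h3).resolve_right ha
    rw [hα0, zero_smul, zero_add] at hz
    exact h0' hz
  · rw [self_add hf, self_smul hf, hα, hf.smul_left, h']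
    field_simp
    simp

/-- Non-degeneracy of a subspace. -/
def Nd (f : (ι → F) → (ι → F) → F) (S : Submodule F (ι → F)) : Prop := ∀ x ∈ S, x ≠ 0 → ∃ y ∈ S, f y x ≠ 0

theorem exists_iso_of_two {S : Submodule F (ι → F)} (hS : 2 ≤ finrank F S) : ∃ z ∈ S, z ≠ 0 ∧ f z z = 0 := by
  have hS0 : S ≠ ⊥ := by
    rintro rfl
    simp at hS
  obtain ⟨u₁, h₁, h0⟩ := Submodule.exists_mem_ne_zero_of_ne_bot hS0
  obtain ⟨u₂, h₂, h3, h4⟩ := exists_mem_perp hf S ![u₁] ⊥ (by simp; omega)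
  have h5 : f u₂ u₁ = 0 := h3 0
  exact iso_of_orth hf h₁ h₂ h0 (by simpa using h4) h5

theorem exists_partner' {S : Submodule F (ι → F)} (hS : Nd f S) {z : ι → F} (hz : z ∈ S) (hz0 : z ≠ 0) (hzz : f z z = 0) :
    ∃ x ∈ S, f x x = 0 ∧ f x z = 1 ∧ f z x = 1 := by
  obtain ⟨y, hy, hyz⟩ := hS z hz hz0
  exact exists_partner hf hz (S.smul_mem (f y z)⁻¹ hy) hzz (by rw [hf.smul_left, inv_mul_cancel₀ hyz])

/-- Isotropic vectors span. -/
theorem le_span_iso {S : Submodule F (ι → F)} (hS : Nd f S) {z : ι → F} (hz : z ∈ S) (hz0 : z ≠ 0) (hzz : f z z = 0) :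
    S ≤ Submodule.span F {v | v ∈ S ∧ f v v = 0} := by
  obtain ⟨x, hx, hxx, hxz, -⟩ := exists_partner' hf hS hz hz0 hzz
  intro y hy
  exact mem_span_iso hf hz hx hy hzz hxx hxz

/-- An isotropic vector non-orthogonal to two given vectors. -/
theorem exists_common {S : Submodule F (ι → F)} (hS : Nd f S) {y p : ι → F} (hy : y ∈ S) (hy0 : y ≠ 0) (hyy : f y y = 0)
    (hp : p ∈ S) (hp0 : p ≠ 0) : ∃ t ∈ S, f t t = 0 ∧ f t y ≠ 0 ∧ f t p ≠ 0 := by
  obtain ⟨y', hy', hy'y', hy'y, -⟩ := exists_partner' hf hS hy hy0 hyy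
  by_cases h1 : f y' p = 0
  swap
  · exact ⟨y', hy', hy'y', by rw [hy'y]; exact one_ne_zero, h1⟩
  obtain ⟨y₁, hy₁, hy₁y₁, hy₁p⟩ : ∃ y₁ ∈ S, f y₁ y₁ = 0 ∧ f y₁ p ≠ 0 := by
    by_contra hcon
    push Not at hcon
    obtain ⟨r, hr, hrp⟩ := hS p hp hp0
    apply hrp
    have hle : Submodule.span F {v | v ∈ S ∧ f v v = 0} ≤ LinearMap.ker (fLin hf p) := by
      apply Submodule.span_le.2
      rintro v ⟨hv, hvv⟩
      exact hcon v hv hvv
    exact hle (le_span_iso hf hS hy hy0 hyy hr)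
  by_cases h2 : f y₁ y = 0
  swap
  · exact ⟨y₁, hy₁, hy₁y₁, h2, hy₁p⟩
  set t := f y' y₁ with ht
  obtain ⟨l, hl0, hl⟩ : ∃ l : F, l ≠ 0 ∧ σ l * t + l * σ t = 0 := by
    by_cases ht0 : t = 0
    · exact ⟨1, one_ne_zero, by simp [ht0]⟩
    obtain ⟨c₀, hc0, hc⟩ := exists_tr0 hf.ne_refl hf.involutive
    refine ⟨σ (c₀ * t⁻¹), ?_, ?_⟩
    · simp only [map_mul, map_inv₀]
      exact mul_ne_zero (by simpa using hc0) (inv_ne_zero (by simpa using ht0))
    · simp only [map_mul, map_inv₀, hf.involutive]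
      have h3 : σ t ≠ 0 := by simpa using ht0
      field_simp
      linear_combination hc
  refine ⟨y' + l • y₁, S.add_mem hy' (S.smul_mem _ hy₁), ?_, ?_, ?_⟩
  · rw [self_add hf, self_smul hf, hy₁y₁, hy'y', smul_right hf, ← ht, map_mul, hf.involutive]
    linear_combination hl
  · rw [hf.add_left, hf.smul_left, hy'y, h2]
    simp
  · rw [hf.add_left, hf.smul_left, h1, zero_add]
    exact mul_ne_zero hl0 hy₁p

/-- An orthogonal decomposition into non-degenerate parts. -/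
structure OD (f : (ι → F) → (ι → F) → F) (S R : Submodule F (ι → F)) : Prop where
  orth : ∀ a ∈ S, ∀ b ∈ R, f a b = 0
  orth' : ∀ a ∈ R, ∀ b ∈ S, f a b = 0
  compl : IsCompl S R
  ndS : Nd f S
  ndR : Nd f R

omit hf

variable {S R : Submodule F (ι → F)}

theorem OD.symm (P : OD f S R) : OD f R S := ⟨P.orth', P.orth, P.compl.symm, P.ndR, P.ndS⟩

theorem OD.decomp (P : OD f S R) (x : ι → F) : ∃ x₁ ∈ S, ∃ x₂ ∈ R, x = x₁ + x₂ := by
  have hx : x ∈ S ⊔ R := by rw [P.compl.sup_eq_top]; trivial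
  obtain ⟨x₁, h₁, x₂, h₂, e⟩ := Submodule.mem_sup.1 hx
  exact ⟨x₁, h₁, x₂, h₂, e.symm⟩

include hf

/-- Riesz in a part. -/
theorem OD.riesz (P : OD f S R) {x : ι → F} (hx : x ∈ S) {X : Submodule F (ι → F)} (hxX : x ∉ X) :
    ∃ w ∈ S, (∀ a ∈ S, a ∈ X → f a w = 0) ∧ f x w = 1 := by
  obtain ⟨w, h1, h2⟩ := exists_perp_ne hf hxX
  obtain ⟨w₁, h₁, w₂, h₂, rfl⟩ := P.decomp w
  have key : ∀ a ∈ S, f a (w₁ + w₂) = f a w₁ := fun a ha => by
    rw [add_right hf, P.orth a ha w₂ h₂, add_zero]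
  refine ⟨w₁, h₁, fun a ha haX => ?_, ?_⟩
  · rw [← key a ha, h1 a haX]
  · rw [← key x hx, h2]

/-- A hyperbolic pair in a part, orthogonal to two given vectors. -/
theorem OD.exists_hyp (P : OD f S R) (hdim : 7 ≤ finrank F S) {x₁ x₂ : ι → F} (h₁ : x₁ ∈ S) (h₂ : x₂ ∈ S) :
    ∃ z₁ ∈ S, ∃ z₂ ∈ S, f z₁ x₁ = 0 ∧ f z₁ x₂ = 0 ∧ f z₂ x₁ = 0 ∧ f z₂ x₂ = 0 ∧ f z₁ z₁ = 0 ∧ f z₂ z₂ = 0 ∧
      f z₁ z₂ = 1 := by
  let X := Submodule.span F {x₁, x₂}
  have hXS : X ≤ S := Submodule.span_le.2 (by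
    rintro v (rfl | rfl)
    · exact h₁
    · exact h₂)
  have hXdim : finrank F X ≤ 2 := finrank_span_pair_le x₁ x₂
  obtain ⟨a, ha, ha', haX⟩ := exists_mem_perp hf S ![x₁, x₂] X (by omega)
  have ha1 : f a x₁ = 0 := ha' 0
  have ha2 : f a x₂ = 0 := ha' 1
  let X' := X ⊔ Submodule.span F {a}
  have hX'dim : finrank F X' = finrank F X + 1 := Submodule.finrank_sup_span_singleton haX
  obtain ⟨b, hb, hb', hbX'⟩ := exists_mem_perp hf S ![x₁, x₂, a] X' (by omega)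
  have hb1 : f b x₁ = 0 := hb' 0
  have hb2 : f b x₂ = 0 := hb' 1
  have hb3 : f b a = 0 := hb' 2
  have hab := swap_zero hf hb3
  obtain ⟨z₁, hz₁, hz₁1, hz₁2, hz₁X, hQ⟩ : ∃ z₁ ∈ S, f z₁ x₁ = 0 ∧ f z₁ x₂ = 0 ∧ z₁ ∉ X ∧ f z₁ z₁ = 0 := by
    by_cases hQa : f a a = 0
    · exact ⟨a, ha, ha1, ha2, haX, hQa⟩
    obtain ⟨α, hα⟩ := exists_norm hf.ne_refl hf.involutive (-(f b b) * (f a a)⁻¹)
      (by simp only [map_mul, map_neg, map_inv₀, sigma_self hf])
    refine ⟨α • a + b, S.add_mem (S.smul_mem _ ha) hb, ?_, ?_, ?_, ?_⟩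
    · rw [hf.add_left, hf.smul_left, ha1, hb1]
      ring
    · rw [hf.add_left, hf.smul_left, ha2, hb2]
      ring
    · intro hmem
      apply hbX'
      have : b = (α • a + b) - α • a := by abel
      rw [this]
      exact X'.sub_mem (Submodule.mem_sup_left hmem)
        (X'.smul_mem _ (Submodule.mem_sup_right (Submodule.mem_span_singleton_self a)))
    · rw [self_add hf, self_smul hf, hα, hf.smul_left, hab]
      field_simp
      simp
  obtain ⟨w, hw, hw0, hzw⟩ := P.riesz hf hz₁ hz₁X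
  have hwx₁ : f w x₁ = 0 := swap_zero hf (hw0 x₁ h₁ (Submodule.subset_span (by simp)))
  have hwx₂ : f w x₂ = 0 := swap_zero hf (hw0 x₂ h₂ (Submodule.subset_span (by simp)))
  have hwz : f w z₁ = 1 := by rw [hf.herm, hzw, map_one]
  obtain ⟨γ, hγ⟩ := exists_trace hf.ne_refl hf.involutive (-(f w w)) (by rw [map_neg, sigma_self hf])
  refine ⟨z₁, hz₁, w + γ • z₁, S.add_mem hw (S.smul_mem _ hz₁), hz₁1, hz₁2, ?_, ?_, hQ, ?_, ?_⟩
  · rw [hf.add_left, hf.smul_left, hwx₁, hz₁1]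
    ring
  · rw [hf.add_left, hf.smul_left, hwx₂, hz₁2]
    ring
  · rw [self_add hf, self_smul hf, smul_right hf, hwz, hQ, mul_one, hf.involutive]
    linear_combination hγ
  · rw [add_right hf, hzw, smul_right hf, hQ]
    ring

/-- Vectors of a part with prescribed inner products and norm. -/
theorem OD.exists_u (P : OD f S R) (hdim : 7 ≤ finrank F S) {x e : ι → F} (hx : x ∈ S) (he : e ∈ S)
    (hxe : x ∉ Submodule.span F {e}) (hex : e ∉ Submodule.span F {x}) (s₁ s₂ t : F) (ht : σ t = t) :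
    ∃ u ∈ S, f x u = s₁ ∧ f e u = s₂ ∧ f u u = t := by
  have hinv := hf.involutive
  obtain ⟨w₁, hw₁, h10, h11⟩ := P.riesz hf hx hxe
  obtain ⟨w₂, hw₂, h20, h21⟩ := P.riesz hf he hex
  have h12 : f e w₁ = 0 := h10 e he (Submodule.mem_span_singleton_self _)
  have h22 : f x w₂ = 0 := h20 x hx (Submodule.mem_span_singleton_self _)
  set y := σ s₁ • w₁ + σ s₂ • w₂ with hy
  have hyS : y ∈ S := S.add_mem (S.smul_mem _ hw₁) (S.smul_mem _ hw₂)
  have ey1 : f x y = s₁ := by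
    rw [hy, add_right hf, smul_right hf, smul_right hf, h11, h22]
    simp only [hinv]
    ring
  have ey2 : f e y = s₂ := by
    rw [hy, add_right hf, smul_right hf, smul_right hf, h12, h21]
    simp only [hinv]
    ring
  obtain ⟨h₁, m₁, h₂, m₂, a1, a2, b1, b2, n₁, n₂, e⟩ := P.exists_hyp hf hdim hx he
  have e' : f h₂ h₁ = 1 := by rw [hf.herm, e, map_one]
  set p := f y h₁ with hp
  set r := f y h₂ with hr
  have hp' : f h₁ y = σ p := hf.herm _ _
  have hr' : f h₂ y = σ r := hf.herm _ _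
  obtain ⟨u, hu⟩ := exists_trace hf.ne_refl hinv (t - f y y + (r * σ p + σ (r * σ p)))
    (by simp only [map_add, map_sub, map_mul, hinv, ht, sigma_self hf]; ring)
  have a1' := swap_zero hf a1
  have a2' := swap_zero hf a2
  have b1' := swap_zero hf b1
  have b2' := swap_zero hf b2
  refine ⟨y + (1 - r) • h₁ + (u - p) • h₂, S.add_mem (S.add_mem hyS (S.smul_mem _ m₁)) (S.smul_mem _ m₂), ?_, ?_, ?_⟩
  · rw [add_right hf, add_right hf, smul_right hf, smul_right hf, ey1, a1', b1']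
    ring
  · rw [add_right hf, add_right hf, smul_right hf, smul_right hf, ey2, a2', b2']
    ring
  · simp only [hf.add_left, add_right hf, hf.smul_left, smul_right hf, n₁, n₂, e, e', ← hp, ← hr, hp', hr',
      map_sub, map_one]
    simp only [map_add, map_mul, hinv] at hu
    linear_combination hu

/-- The moves inside `U`. -/
theorem move_step (P : OD f S R) (hdim : 7 ≤ finrank F S) {M : Subgroup (GL ι F)}
    (hU : ∀ z ∈ S, f z z = 0 → z ∈ vecs hf M) {p x y : ι → F} (hp : p ∈ R) (hx : x ∈ S) (hy : y ∈ S)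
    (hxy : x ∉ Submodule.span F {y}) (hyx : y ∉ Submodule.span F {x}) (he : f x x = f y y)
    (hv : p + x ∈ vecs hf M) : p + y ∈ vecs hf M := by
  obtain ⟨c₀, hc0, hc⟩ := exists_tr0 hf.ne_refl hf.involutive
  have hσ₀ : σ c₀ = - c₀ := by linear_combination hc
  set b := f x x with hb
  obtain ⟨s, hs, s1, s2, s3⟩ := P.exists_u hf hdim hx hy hxy hyx (b + c₀) (b + c₀) b (sigma_self hf x)
  have hσb : σ b = b := sigma_self hf x
  have s1' : f s x = b - c₀ := by rw [hf.herm, s1, map_add, hσb, hσ₀]; ring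
  have s2' : f s y = b - c₀ := by rw [hf.herm, s2, map_add, hσb, hσ₀]; ring
  -- first move
  have hzz : f (s - x) (s - x) = 0 := by
    simp only [sub_left hf, sub_right hf, s1, s1', s3, ← hb]
    ring
  have hsx : s - x ∈ S := S.sub_mem hs hx
  have hc' : c₀⁻¹ + σ c₀⁻¹ = 0 := by
    rw [map_inv₀, hσ₀, inv_neg]
    ring
  have m1 := mulVec_mem_vecs hf hv ((hU _ hsx hzz).2 _ hc') (T_iso hf hzz hc')
  have e1 : f (p + x) (s - x) = c₀ := by
    rw [hf.add_left, P.orth' p hp _ hsx, zero_add, sub_right hf, s1, ← hb]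
    ring
  rw [T_mulVec, e1, smul_smul, mul_inv_cancel₀ hc0, one_smul] at m1
  have e2 : p + x + (s - x) = p + s := by abel
  rw [e2] at m1
  -- second move
  have hzz' : f (y - s) (y - s) = 0 := by
    simp only [sub_left hf, sub_right hf, s2, s2', s3, ← he, ← hb]
    ring
  have hys : y - s ∈ S := S.sub_mem hy hs
  have hcn : (-c₀)⁻¹ + σ (-c₀)⁻¹ = 0 := by
    rw [map_inv₀, map_neg, hσ₀]
    simp
  have m2 := mulVec_mem_vecs hf m1 ((hU _ hys hzz').2 _ hcn) (T_iso hf hzz' hcn)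
  have e3 : f (p + s) (y - s) = -c₀ := by
    rw [hf.add_left, P.orth' p hp _ hys, zero_add, sub_right hf, s2', s3]
    ring
  rw [T_mulVec, e3, smul_smul, mul_inv_cancel₀ (neg_ne_zero.2 hc0), one_smul] at m2
  have e4 : p + s + (y - s) = p + y := by abel
  rwa [e4] at m2

/-- The moves inside `U`, general case. -/
theorem move (P : OD f S R) (hdim : 7 ≤ finrank F S) {M : Subgroup (GL ι F)}
    (hU : ∀ z ∈ S, f z z = 0 → z ∈ vecs hf M) {p x y : ι → F} (hp : p ∈ R) (hx : x ∈ S) (hy : y ∈ S)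
    (hx0 : x ≠ 0) (hy0 : y ≠ 0) (he : f x x = f y y)
    (hv : p + x ∈ vecs hf M) : p + y ∈ vecs hf M := by
  by_cases hyx : y ∈ Submodule.span F {x}
  swap
  · exact move_step hf P hdim hU hp hx hy (not_mem_singleton_symm hx0 hyx) hyx he hv
  -- go through a third vector
  obtain ⟨e₁, he₁, he₁x, -, he₁m⟩ := exists_mem_orth hf S x x (Submodule.span F {x})
    (by
      have := finrank_span_singleton (K := F) hx0
      omega)
  have hxe₁ : x ∉ Submodule.span F {e₁} := not_mem_singleton_symm hx0 he₁m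
  obtain ⟨y', hy', -, hy'2, hy'3⟩ := P.exists_u hf hdim hx he₁ hxe₁ he₁m 0 1 (f x x) (sigma_self hf x)
  have hy'x : y' ∉ Submodule.span F {x} := by
    intro hmem
    obtain ⟨κ, rfl⟩ := Submodule.mem_span_singleton.1 hmem
    rw [smul_right hf, he₁x, mul_zero] at hy'2
    exact zero_ne_one hy'2
  have hy'0 : y' ≠ 0 := by
    rintro rfl
    exact hy'x (Submodule.zero_mem _)
  have h1 := move_step hf P hdim hU hp hx hy' (not_mem_singleton_symm hx0 hy'x) hy'x hy'3.symm hv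
  have hy'y : y' ∉ Submodule.span F {y} := by
    intro hmem
    apply hy'x
    have hle : Submodule.span F {y} ≤ Submodule.span F {x} :=
      (Submodule.span_singleton_le_iff_mem _ _).2 hyx
    exact hle hmem
  exact move_step hf P hdim hU hp hy' hy hy'y (not_mem_singleton_symm hy0 hy'y) (by rw [hy'3, he]) h1

theorem OD.exists_ne (P : OD f S R) (hdim : 7 ≤ finrank F S) {t : F} (ht : σ t = t) :
    ∃ u ∈ S, u ≠ 0 ∧ f u u = t := by
  have hS0 : S ≠ ⊥ := by
    rintro rfl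
    simp at hdim
  obtain ⟨x, hx, hx0⟩ := Submodule.exists_mem_ne_zero_of_ne_bot hS0
  obtain ⟨e₁, he₁, -, -, he₁m⟩ := exists_mem_orth hf S x x (Submodule.span F {x})
    (by
      have := finrank_span_singleton (K := F) hx0
      omega)
  have hxe₁ : x ∉ Submodule.span F {e₁} := not_mem_singleton_symm hx0 he₁m
  obtain ⟨u, hu, -, h2, h3⟩ := P.exists_u hf hdim hx he₁ hxe₁ he₁m 0 1 t ht
  refine ⟨u, hu, ?_, h3⟩
  rintro rfl
  rw [zero_right hf] at h2
  exact zero_ne_one h2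

theorem add_closed (P : OD f S R) (hdim : 7 ≤ finrank F S) {M : Subgroup (GL ι F)}
    (hU : ∀ z ∈ S, f z z = 0 → z ∈ vecs hf M) {p p' u u' : ι → F} (hp : p ∈ R) (hp' : p' ∈ R) (hu : u ∈ S)
    (hu' : u' ∈ S) (hu0 : u ≠ 0) (hu0' : u' ≠ 0) (hv : p + u ∈ vecs hf M) (hv' : p' + u' ∈ vecs hf M) :
    ∃ u'' ∈ S, u'' ≠ 0 ∧ (p + p') + u'' ∈ vecs hf M := by
  obtain ⟨c₀, hc0, hc⟩ := exists_tr0 hf.ne_refl hf.involutive
  obtain ⟨e, he, heu, -, hem⟩ := exists_mem_orth hf S u u (Submodule.span F {u})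
    (by
      have := finrank_span_singleton (K := F) hu0
      omega)
  have hue : u ∉ Submodule.span F {e} := not_mem_singleton_symm hu0 hem
  obtain ⟨y, hy, h1, h2, h3⟩ := P.exists_u hf hdim hu he hue hem (c₀⁻¹ - f p p') 1 (f u' u') (sigma_self hf u')
  have hy0 : y ≠ 0 := by
    rintro rfl
    rw [zero_right hf] at h2
    exact zero_ne_one h2
  have hv'' := move hf P hdim hU hp' hu' hy hu0' hy0 h3.symm hv'
  have m := mulVec_mem_vecs hf hv (hv''.2 c₀ hc) (T_iso hf hv''.1 hc)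
  have e1 : f (p + u) (p' + y) = c₀⁻¹ := by
    rw [hf.add_left, add_right hf, add_right hf, P.orth' p hp y hy, P.orth u hu p' hp', h1]
    ring
  rw [T_mulVec, e1, smul_smul, inv_mul_cancel₀ hc0, one_smul] at m
  refine ⟨u + y, S.add_mem hu hy, ?_, ?_⟩
  · intro h
    have := congrArg (fun z => f e z) h
    simp only [add_right hf, heu, h2, zero_right hf] at this
    simp at this
  · have e2 : p + p' + (u + y) = p + u + (p' + y) := by abel
    rw [e2]
    exact m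

/-- The projection of `vecs` to the second part. -/
theorem exists_proj (P : OD f S R) (hdim : 7 ≤ finrank F S) {M : Subgroup (GL ι F)}
    (hU : ∀ z ∈ S, f z z = 0 → z ∈ vecs hf M) :
    ∃ Q : Submodule F (ι → F), ∀ p, p ∈ Q ↔ p ∈ R ∧ ∃ u ∈ S, u ≠ 0 ∧ p + u ∈ vecs hf M := by
  obtain ⟨z, hz, hz0, hzz⟩ := P.exists_ne hf hdim (t := 0) (map_zero σ)
  have h0 : ∃ u ∈ S, u ≠ 0 ∧ (0 : ι → F) + u ∈ vecs hf M :=
    ⟨z, hz, hz0, by rw [zero_add]; exact hU z hz hzz⟩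
  refine ⟨{
    carrier := {p | p ∈ R ∧ ∃ u ∈ S, u ≠ 0 ∧ p + u ∈ vecs hf M}
    add_mem' := ?_
    zero_mem' := ⟨R.zero_mem, h0⟩
    smul_mem' := ?_ }, fun p => Iff.rfl⟩
  · rintro a b ⟨ha, u, hu, hu0, hv⟩ ⟨hb, u', hu', hu0', hv'⟩
    exact ⟨R.add_mem ha hb, add_closed hf P hdim hU ha hb hu hu' hu0 hu0' hv hv'⟩
  · rintro l a ⟨ha, u, hu, hu0, hv⟩
    by_cases hl : l = 0
    · subst hl
      rw [zero_smul]
      exact ⟨R.zero_mem, h0⟩
    refine ⟨R.smul_mem _ ha, l • u, S.smul_mem _ hu, smul_ne_zero hl hu0, ?_⟩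
    rw [← smul_add]
    exact smul_mem_vecs hf hv l

theorem proj_step (P : OD f S R) {M : Subgroup (GL ι F)} {p u y : ι → F} (hp : p ∈ R) (hu : u ∈ S) (hy : y ∈ R)
    (hyv : y ∈ vecs hf M) (hv : p + u ∈ vecs hf M) (hpy : f p y ≠ 0) {Q : Submodule F (ι → F)} (hQ : p ∈ Q)
    (hu0 : u ≠ 0)
    (hQ' : ∀ p, p ∈ Q ↔ p ∈ R ∧ ∃ u ∈ S, u ≠ 0 ∧ p + u ∈ vecs hf M) : y ∈ Q := by
  obtain ⟨c₀, hc0, hc⟩ := exists_tr0 hf.ne_refl hf.involutive
  have m := mulVec_mem_vecs hf hv (hyv.2 c₀ hc) (T_iso hf hyv.1 hc)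
  have e1 : f (p + u) y = f p y := by
    rw [hf.add_left, P.orth u hu y hy, add_zero]
  rw [T_mulVec, e1, smul_smul] at m
  set κ := f p y * c₀ with hκ
  have hκ0 : κ ≠ 0 := mul_ne_zero hpy hc0
  have e2 : p + u + κ • y = (p + κ • y) + u := by abel
  rw [e2] at m
  have h1 : p + κ • y ∈ Q := (hQ' _).2 ⟨R.add_mem hp (R.smul_mem _ hy), u, hu, hu0, m⟩
  have h2 : κ • y ∈ Q := by simpa using Q.sub_mem h1 hQ
  have h3 := Q.smul_mem κ⁻¹ h2
  rwa [smul_smul, inv_mul_cancel₀ hκ0, one_smul] at h3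

/-- A centre with components in both parts gives everything. -/
theorem all_vecs (P : OD f S R) (hdim : 7 ≤ finrank F S) {M : Subgroup (GL ι F)}
    (hU : ∀ z ∈ S, f z z = 0 → z ∈ vecs hf M) (hR : ∀ z ∈ R, f z z = 0 → z ∈ vecs hf M) {u₀ p₀ : ι → F}
    (hp₀ : p₀ ∈ R) (hu₀ : u₀ ∈ S) (hp0 : p₀ ≠ 0) (hu0 : u₀ ≠ 0) (hv : p₀ + u₀ ∈ vecs hf M)
    {w : ι → F} (hw : f w w = 0) : w ∈ vecs hf M := by
  obtain ⟨Q, hQ⟩ := exists_proj hf P hdim hU
  have hp₀Q : p₀ ∈ Q := (hQ p₀).2 ⟨hp₀, u₀, hu₀, hu0, hv⟩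
  -- isotropic vectors of `R` in `Q`
  have h1 : ∀ y ∈ R, f y y = 0 → y ∈ Q := by
    intro y hy hyy
    by_cases hy0 : y = 0
    · rw [hy0]
      exact Q.zero_mem
    obtain ⟨t, ht, htt, hty, htp⟩ := exists_common hf P.ndR hy hy0 hyy hp₀ hp0
    have htQ : t ∈ Q := proj_step hf P hp₀ hu₀ ht (hR t ht htt) hv
      (fun h => htp (swap_zero hf h)) hp₀Q hu0 hQ
    obtain ⟨-, a, ha, ha0, hav⟩ := (hQ t).1 htQ
    exact proj_step hf P ht ha hy (hR y hy hyy) hav
      (fun h => hty h) htQ ha0 hQ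
  -- `R ≤ Q`
  have h2 : R ≤ Q := by
    by_cases hiso : ∃ z ∈ R, z ≠ 0 ∧ f z z = 0
    · obtain ⟨z, hz, hz0, hzz⟩ := hiso
      refine (le_span_iso hf P.ndR hz hz0 hzz).trans ?_
      apply Submodule.span_le.2
      rintro v ⟨hv, hvv⟩
      exact h1 v hv hvv
    · push Not at hiso
      have hpp : f p₀ p₀ ≠ 0 := hiso p₀ hp₀ hp0
      intro x hx
      set x' := x - (f x p₀ * (f p₀ p₀)⁻¹) • p₀ with hx'
      have hx'R : x' ∈ R := R.sub_mem hx (R.smul_mem _ hp₀)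
      have e : f x' p₀ = 0 := by
        rw [hx', sub_left hf, hf.smul_left]
        field_simp
        ring
      have hx'0 : x' = 0 := by
        by_contra hne
        obtain ⟨z, hz, hz0, hzz⟩ := iso_of_orth hf hp₀ hx'R hp0 hne e
        exact hiso z hz hz0 hzz
      have : x = (f x p₀ * (f p₀ p₀)⁻¹) • p₀ := sub_eq_zero.1 hx'0
      rw [this]
      exact Q.smul_mem _ hp₀Q
  -- the target
  obtain ⟨w₁, hw₁, w₂, hw₂, rfl⟩ := P.decomp w
  by_cases hw0 : w₁ = 0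
  · rw [hw0, zero_add]
    rw [hw0, zero_add] at hw
    exact hR w₂ hw₂ hw
  obtain ⟨-, u, hu, huz, huv⟩ := (hQ w₂).1 (h2 hw₂)
  have e1 : f w₂ w₂ + f u u = 0 := by
    have := huv.1
    rw [hf.add_left, add_right hf, add_right hf, P.orth u hu w₂ hw₂, P.orth' w₂ hw₂ u hu] at this
    simpa using this
  have e2 : f w₁ w₁ + f w₂ w₂ = 0 := by
    rw [hf.add_left, add_right hf, add_right hf, P.orth w₁ hw₁ w₂ hw₂, P.orth' w₂ hw₂ w₁ hw₁] at hw
    simpa using hw
  have := move hf P hdim hU hw₂ hu hw₁ huz hw0 (by linear_combination e1 - e2) huv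
  rwa [add_comm] at this

/-- The main theorem, given the generation of the isometry group by transvections. -/
theorem isMaximalIn_nondeg {W : Submodule F (ι → F)} (hW0 : W ≠ ⊥) (hW : Nd f W)
    (h13 : 13 ≤ Fintype.card ι) (hd : 2 * finrank F W < Fintype.card ι)
    (hgen : ∀ M : Subgroup (GL ι F), (∀ w, f w w = 0 → w ∈ vecs hf M) → isoGroup hf ≤ M) :
    IsMaximalIn (isoGroup hf) (subspaceStabilizer W ⊓ isoGroup hf) := by
  set U := orth hf W with hUdef
  -- the decomposition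
  have hinf : U ⊓ W = ⊥ := by
    rw [eq_bot_iff]
    rintro x ⟨hxU, hxW⟩
    by_contra hne
    obtain ⟨y, hy, hyx⟩ := hW x hxW hne
    exact hyx (swap_zero hf (hxU y hy))
  have hU_dim : Fintype.card ι ≤ finrank F U + finrank F W := by
    let b := Module.finBasis F W
    let L : (ι → F) →ₗ[F] (Fin (finrank F W) → F) := LinearMap.pi fun i => fLin hf (b i : ι → F)
    have h1 := LinearMap.finrank_range_add_finrank_ker L
    have h2 : finrank F (LinearMap.range L) ≤ finrank F W := (Submodule.finrank_le _).trans (by simp)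
    have h3 : LinearMap.ker L ≤ U := by
      intro x hx a ha
      have hx' : L x = 0 := hx
      have hzero : ∀ i, f x (b i : ι → F) = 0 := fun i => congrFun hx' i
      have hle : W ≤ LinearMap.ker (fLin hf x) := by
        intro a ha
        have e := congrArg Subtype.val (b.sum_repr ⟨a, ha⟩)
        simp only [AddSubmonoidClass.coe_finsetSum, Submodule.coe_smul] at e
        rw [← e]
        refine Submodule.sum_mem _ fun i _ => Submodule.smul_mem _ _ ?_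
        exact swap_zero hf (hzero i)
      exact swap_zero hf (hle ha)
    have h4 := Submodule.finrank_mono h3
    rw [Module.finrank_fintype_fun_eq_card] at h1
    omega
  have hdimsum := Submodule.finrank_sup_add_finrank_inf_eq U W
  rw [hinf, finrank_bot, add_zero] at hdimsum
  have hsup : U ⊔ W = ⊤ := by
    apply Submodule.eq_top_of_finrank_eq
    have h1 := Submodule.finrank_le (U ⊔ W)
    rw [Module.finrank_fintype_fun_eq_card] at h1 ⊢
    omega
  have hUW : ∀ a ∈ U, ∀ b ∈ W, f a b = 0 := fun a ha b hb => ha b hb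
  have hWU : ∀ a ∈ W, ∀ b ∈ U, f a b = 0 := fun a ha b hb => mem_orth' hf hb ha
  have hdec : ∀ x : ι → F, ∃ x₁ ∈ U, ∃ x₂ ∈ W, x = x₁ + x₂ := by
    intro x
    have hx : x ∈ U ⊔ W := by rw [hsup]; trivial
    obtain ⟨x₁, h₁, x₂, h₂, e⟩ := Submodule.mem_sup.1 hx
    exact ⟨x₁, h₁, x₂, h₂, e.symm⟩
  have hNdU : Nd f U := by
    intro x hx hx0
    obtain ⟨y, hy⟩ := (hf.nondegenerate x hx0).1
    obtain ⟨y₁, h₁, y₂, h₂, rfl⟩ := hdec y
    refine ⟨y₁, h₁, ?_⟩
    rwa [hf.add_left, hWU y₂ h₂ x hx, add_zero] at hy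
  have P : OD f U W := ⟨hUW, hWU, ⟨disjoint_iff.2 hinf, codisjoint_iff.2 hsup⟩, hNdU, hW⟩
  have hdimU : 7 ≤ finrank F U := by omega
  obtain ⟨z₀, hz₀, hz₀0, hz₀z⟩ := exists_iso_of_two hf (S := U) (by omega)
  -- elements of the stabiliser
  have hTU : ∀ z ∈ U, ∀ hz : f z z = 0, ∀ c : F, c + σ c = 0 →
      T hf (c • z) z (by rw [hf.smul_left, hz, mul_zero]) ∈ subspaceStabilizer W ⊓ isoGroup hf := by
    intro z hz hzz c hc
    refine ⟨mem_subspaceStabilizer_of_le _ _ fun x hx => ?_, T_mem_isoGroup hf z c hzz hc⟩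
    rw [T_mulVec, hWU x hx z hz, zero_smul, add_zero]
    exact hx
  have hTW : ∀ z ∈ W, ∀ hz : f z z = 0, ∀ c : F, c + σ c = 0 →
      T hf (c • z) z (by rw [hf.smul_left, hz, mul_zero]) ∈ subspaceStabilizer W ⊓ isoGroup hf := by
    intro z hz hzz c hc
    refine ⟨mem_subspaceStabilizer_of_le _ _ fun x hx => ?_, T_mem_isoGroup hf z c hzz hc⟩
    rw [T_mulVec]
    exact W.add_mem hx (W.smul_mem _ (W.smul_mem _ hz))
  -- strictness
  obtain ⟨a, ha, ha0⟩ := Submodule.exists_mem_ne_zero_of_ne_bot hW0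
  obtain ⟨y₀, hy₀⟩ := (hf.nondegenerate a ha0).1
  have hay₀ : f a y₀ ≠ 0 := fun h => hy₀ (swap_zero hf h)
  obtain ⟨y, hy, hay⟩ : ∃ y ∈ W, f a y ≠ 0 := by
    by_contra hcon
    push Not at hcon
    obtain ⟨y₁, h₁, y₂, h₂, e⟩ := hdec y₀
    apply hay₀
    rw [e, add_right hf, hWU a ha y₁ h₁, hcon y₂ h₂, add_zero]
  obtain ⟨u, hu, hu0, huu⟩ := P.exists_ne hf hdimU (t := - f y y) (by rw [map_neg, sigma_self hf])
  set x := y + u with hx
  have hxx : f x x = 0 := by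
    rw [hx, hf.add_left, add_right hf, add_right hf, hUW u hu y hy, hWU y hy u hu, huu]
    ring
  have hax : f a x = f a y := by rw [hx, add_right hf, hWU a ha u hu, add_zero]
  obtain ⟨c₀, hc0, hc⟩ := exists_tr0 hf.ne_refl hf.involutive
  refine ⟨lt_of_le_of_mem_not_mem inf_le_right (T_mem_isoGroup hf x c₀ hxx hc) ?_, ?_⟩
  · rintro ⟨h1, -⟩
    have h2 := ((mem_subspaceStabilizer_iff _ W).1 h1 a).1 ha
    rw [T_mulVec, hax] at h2
    have h3 : f a y • c₀ • x ∈ W := by simpa using W.sub_mem h2 ha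
    have hκ : f a y * c₀ ≠ 0 := mul_ne_zero hay hc0
    have h4 := W.smul_mem (f a y * c₀)⁻¹ h3
    rw [smul_smul, smul_smul, mul_assoc, inv_mul_cancel₀ hκ, one_smul] at h4
    have h5 : u ∈ W := by
      have : u = x - y := by rw [hx]; abel
      rw [this]
      exact W.sub_mem h4 hy
    have h6 : u ∈ U ⊓ W := ⟨hu, h5⟩
    rw [hinf] at h6
    exact hu0 h6
  · intro M hHM hMS
    by_cases hMH : M ≤ subspaceStabilizer W ⊓ isoGroup hf
    · exact Or.inl (le_antisymm hMH hHM)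
    right
    apply le_antisymm hMS
    obtain ⟨g, hgM, hgH⟩ := SetLike.not_le_iff_exists.1 hMH
    have hgS := hMS hgM
    have hgiso := ((mem_isoGroup hf).1 hgS).1
    have hg0 : g ∉ subspaceStabilizer W := fun h => hgH ⟨h, hgS⟩
    have hVU : ∀ z ∈ U, f z z = 0 → z ∈ vecs hf M := fun z hz hzz =>
      ⟨hzz, fun c hc => hHM (hTU z hz hzz c hc)⟩
    have hVW : ∀ z ∈ W, f z z = 0 → z ∈ vecs hf M := fun z hz hzz =>
      ⟨hzz, fun c hc => hHM (hTW z hz hzz c hc)⟩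
    -- a centre with components in both parts
    have hspanU : ∀ X : Submodule F (ι → F), (∀ z ∈ U, f z z = 0 → (g : Matrix ι ι F) *ᵥ z ∈ X) →
        act g U ≤ X := by
      intro X hX
      rintro _ ⟨y, hy, rfl⟩
      have hle : Submodule.span F {v | v ∈ U ∧ f v v = 0} ≤ X.comap (Matrix.toLin' (g : Matrix ι ι F)) := by
        apply Submodule.span_le.2
        rintro v ⟨hv, hvv⟩
        exact hX v hv hvv
      exact hle (le_span_iso hf hNdU hz₀ hz₀0 hz₀z hy)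
    obtain ⟨z₁, hz₁, hz₁z, hgz₁⟩ : ∃ z ∈ U, f z z = 0 ∧ (g : Matrix ι ι F) *ᵥ z ∉ U := by
      by_contra hcon
      push Not at hcon
      apply hg0
      apply stab_of_stab_orth hf hgiso
      apply mem_subspaceStabilizer_of_le
      intro y hy
      exact hspanU U hcon (mulVec_mem_act g U hy)
    obtain ⟨z₂, hz₂, hz₂z, hgz₂⟩ : ∃ z ∈ U, f z z = 0 ∧ (g : Matrix ι ι F) *ᵥ z ∉ W := by
      by_contra hcon
      push Not at hcon
      have := Submodule.finrank_mono (hspanU W hcon)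
      rw [finrank_act] at this
      omega
    have hz₁0 : z₁ ≠ 0 := by
      rintro rfl
      apply hgz₁
      rw [Matrix.mulVec_zero]
      exact U.zero_mem
    have hz₂0 : z₂ ≠ 0 := by
      rintro rfl
      apply hgz₂
      rw [Matrix.mulVec_zero]
      exact W.zero_mem
    obtain ⟨z, hz, hzz, hgzU, hgzW⟩ : ∃ z ∈ U, f z z = 0 ∧ (g : Matrix ι ι F) *ᵥ z ∉ U ∧
        (g : Matrix ι ι F) *ᵥ z ∉ W := by
      by_cases c1 : (g : Matrix ι ι F) *ᵥ z₁ ∈ W
      swap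
      · exact ⟨z₁, hz₁, hz₁z, hgz₁, c1⟩
      by_cases c2 : (g : Matrix ι ι F) *ᵥ z₂ ∈ U
      swap
      · exact ⟨z₂, hz₂, hz₂z, c2, hgz₂⟩
      obtain ⟨t, ht, htt, ht1, ht2⟩ := exists_common hf hNdU hz₁ hz₁0 hz₁z hz₂ hz₂0
      refine ⟨t, ht, htt, fun h => ?_, fun h => ?_⟩
      · apply ht1
        rw [← hgiso]
        exact hUW _ h _ c1
      · apply ht2
        rw [← hgiso]
        exact hWU _ h _ c2
    have hv : (g : Matrix ι ι F) *ᵥ z ∈ vecs hf M := mulVec_mem_vecs hf (hVU z hz hzz) hgM hgiso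
    obtain ⟨u₀, hu₀, p₀, hp₀, e⟩ := hdec ((g : Matrix ι ι F) *ᵥ z)
    have hp0 : p₀ ≠ 0 := by
      rintro rfl
      apply hgzU
      rw [e, add_zero]
      exact hu₀
    have hu0' : u₀ ≠ 0 := by
      rintro rfl
      apply hgzW
      rw [e, zero_add]
      exact hp₀
    rw [e, add_comm] at hv
    apply hgen M
    intro w hw
    exact all_vecs hf P hdimU hVU hVW hp₀ hu₀ hp0 hu0' hv hw

end Cfsg.Agent.Lib.Classical.Geo.UNondeg
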