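/-
Geometry of a non-degenerate symmetric bilinear form over a finite field of odd characteristic:
Riesz representation, hyperbolic pairs in perps of small families of vectors, vectors of prescribed norm and inner
products, transvections, reflections, and transitivity of the isometries of determinant one on pairs of orthogonal
isotropic vectors.
-/
import Mathlib
import Cfsg.Agent.Lib.Classical.Geo.SympSim

set_option autoImplicit false
set_option linter.unusedSectionVars false

namespace Cfsg.Agent.Lib.Classical.Geo.OForm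

open scoped Matrix
open Module Cfsg Cfsg.Geo Cfsg.Agent.Lib.Classical.Geo.Basic Cfsg.Agent.Lib.Classical.Geo.SympSim

/-- A non-degenerate symmetric bilinear form, in characteristic not two. -/
structure IsSymForm {ι : Type} [Fintype ι] [DecidableEq ι] {F : Type*} [Field F]
    (f : (ι → F) → (ι → F) → F) : Prop where
  two_ne : (2 : F) ≠ 0
  add_left : ∀ x y v, f (x + y) v = f x v + f y v
  smul_left : ∀ (c : F) (x v : ι → F), f (c • x) v = c * f x v
  symm : ∀ v w, f v w = f w v
  nondegenerate : IsNondegenerateForm f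

variable {ι : Type} [Fintype ι] [DecidableEq ι] {F : Type*} [Field F]
  {f : (ι → F) → (ι → F) → F}

section Basic

variable (hf : IsSymForm f)

include hf

theorem add_right (v x y : ι → F) : f v (x + y) = f v x + f v y := by
  rw [hf.symm v (x + y), hf.add_left, hf.symm x v, hf.symm y v]

theorem smul_right (c : F) (v x : ι → F) : f v (c • x) = c * f v x := by
  rw [hf.symm v (c • x), hf.smul_left, hf.symm x v]

theorem zero_left (x : ι → F) : f 0 x = 0 := by
  have := hf.smul_left 0 0 x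
  simpa using this

theorem zero_right (x : ι → F) : f x 0 = 0 := by
  have := smul_right hf 0 x 0
  simpa using this

theorem neg_left (x y : ι → F) : f (-x) y = - f x y := by
  have := hf.smul_left (-1) x y
  simpa using this

theorem neg_right (x y : ι → F) : f x (-y) = - f x y := by
  have := smul_right hf (-1) x y
  simpa using this

theorem sub_left (x x' y : ι → F) : f (x - x') y = f x y - f x' y := by
  rw [sub_eq_add_neg, hf.add_left, neg_left hf, sub_eq_add_neg]

theorem sub_right (x y y' : ι → F) : f x (y - y') = f x y - f x y' := by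
  rw [sub_eq_add_neg, add_right hf, neg_right hf, sub_eq_add_neg]

theorem swap_zero {x y : ι → F} (h : f x y = 0) : f y x = 0 := by
  rw [hf.symm, h]

theorem self_add (x y : ι → F) : f (x + y) (x + y) = f x x + f y y + 2 * f x y := by
  rw [hf.add_left, add_right hf, add_right hf, hf.symm y x]
  ring

theorem self_smul (c : F) (x : ι → F) : f (c • x) (c • x) = c * c * f x x := by
  rw [hf.smul_left, smul_right hf]
  ring

/-- The functional `x ↦ f(x, w)`. -/
def fLin (w : ι → F) : Dual F (ι → F) where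
  toFun x := f x w
  map_add' x y := hf.add_left x y w
  map_smul' c x := hf.smul_left c x w

omit hf in
@[simp] theorem fLin_apply (hf : IsSymForm f) (w x : ι → F) : fLin hf w x = f x w := rfl

theorem eq_zero_right {w : ι → F} (h : ∀ x, f x w = 0) : w = 0 := by
  by_contra hne
  obtain ⟨x, hx⟩ := (hf.nondegenerate w hne).1
  exact hx (h x)

theorem eq_zero_left {w : ι → F} (h : ∀ x, f w x = 0) : w = 0 := by
  by_contra hne
  obtain ⟨x, hx⟩ := (hf.nondegenerate w hne).2
  exact hx (h x)

theorem exists_repr (φ : Dual F (ι → F)) [Finite F] : ∃ w, ∀ x, φ x = f x w := by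
  classical
  have : Fintype F := Fintype.ofFinite F
  have hinj : Function.Injective (fLin hf : (ι → F) → Dual F (ι → F)) := by
    intro a b hab
    have : a - b = 0 := by
      apply eq_zero_right hf
      intro x
      rw [sub_right hf]
      have := LinearMap.congr_fun hab x
      simp only [fLin_apply] at this
      rw [this, sub_self]
    exact sub_eq_zero.1 this
  have hsurj := (Finite.injective_iff_surjective_of_equiv
    ((Pi.basisFun F ι).toDualEquiv.toEquiv)).1 hinj
  obtain ⟨w, hw⟩ := hsurj φ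
  exact ⟨w, fun x => by rw [← hw]; rfl⟩

theorem exists_perp_ne [Finite F] {X : Submodule F (ι → F)} {y : ι → F} (hy : y ∉ X) :
    ∃ w, (∀ x ∈ X, f x w = 0) ∧ f y w = 1 := by
  obtain ⟨φ, h2, h1⟩ := exists_dual_eq_one hy
  obtain ⟨w, hw⟩ := exists_repr hf φ
  exact ⟨w, fun x hx => by rw [← hw]; exact h2 x hx, by rw [← hw]; exact h1⟩

end Basic

section Perp

variable [Fintype F] (hf : IsSymForm f)

include hf

/-- Vectors orthogonal to a family. -/
def perp {k : ℕ} (x : Fin k → ι → F) : Submodule F (ι → F) :=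
  LinearMap.ker (LinearMap.pi fun i => fLin hf (x i))

theorem mem_perp {k : ℕ} {x : Fin k → ι → F} {z : ι → F} :
    z ∈ perp hf x ↔ ∀ i, f z (x i) = 0 := by
  simp [perp, LinearMap.mem_ker, funext_iff]

theorem perp_apply {k : ℕ} {x : Fin k → ι → F} {z : ι → F} (hz : z ∈ perp hf x) (i : Fin k) :
    f (x i) z = 0 := swap_zero hf ((mem_perp hf).1 hz i)

theorem finrank_perp {k : ℕ} (x : Fin k → ι → F) :
    Fintype.card ι ≤ k + finrank F (perp hf x) := by
  have h1 := LinearMap.finrank_range_add_finrank_ker (LinearMap.pi fun i => fLin hf (x i))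
  have h2 : finrank F (LinearMap.range (LinearMap.pi fun i => fLin hf (x i))) ≤ k :=
    (Submodule.finrank_le _).trans (by simp)
  have h3 : finrank F (ι → F) = Fintype.card ι := by simp
  unfold perp
  omega

theorem exists_perp_not_mem {k : ℕ} (x : Fin k → ι → F) (Y : Submodule F (ι → F))
    (h : k + finrank F Y < Fintype.card ι) : ∃ z ∈ perp hf x, z ∉ Y := by
  by_contra hcon
  push Not at hcon
  have h1 := Submodule.finrank_mono (show perp hf x ≤ Y from hcon)
  have h2 := finrank_perp hf x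
  omega

/-- Three pairwise orthogonal non-isotropic vectors yield an isotropic combination involving the third. -/
theorem exists_sq_sum (a b c : F) (ha : a ≠ 0) (hb : b ≠ 0) :
    ∃ α β : F, α * α * a + β * β * b + c = 0 := by
  have h2 : (2 : F) ≠ 0 := hf.two_ne
  have hodd : Fintype.card F % 2 = 1 := by
    have hne : ringChar F ≠ 2 := by
      intro h
      apply h2
      have : CharP F 2 := ringChar.of_eq h
      exact CharTwo.two_eq_zero
    exact FiniteField.odd_card_of_char_ne_two hne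
  let P : Polynomial F := Polynomial.C a * Polynomial.X ^ 2
  let R : Polynomial F := Polynomial.C b * Polynomial.X ^ 2 + Polynomial.C c
  have hP : P.degree = 2 := Polynomial.degree_C_mul_X_pow 2 ha
  have hR : R.degree = 2 := by
    have h1 : (Polynomial.C b * Polynomial.X ^ 2 : Polynomial F).degree = 2 :=
      Polynomial.degree_C_mul_X_pow 2 hb
    rw [Polynomial.degree_add_C (by rw [h1]; norm_num)]
    exact h1
  obtain ⟨α, β, h⟩ := FiniteField.exists_root_sum_quadratic hP hR hodd
  refine ⟨α, β, ?_⟩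
  simp only [P, R, Polynomial.eval_add, Polynomial.eval_mul, Polynomial.eval_C, Polynomial.eval_pow,
    Polynomial.eval_X] at h
  linear_combination h

/-- Hyperbolic pairs in the perp of a small family. -/
theorem exists_hyp {k : ℕ} (x : Fin k → ι → F) (h : 2 * k + 5 ≤ Fintype.card ι) :
    ∃ z₁ z₂, z₁ ∈ perp hf x ∧ z₂ ∈ perp hf x ∧ f z₁ z₁ = 0 ∧ f z₂ z₂ = 0 ∧ f z₁ z₂ = 1 := by
  have h20 := hf.two_ne
  let X := Submodule.span F (Set.range x)
  have hXdim : finrank F X ≤ k := by
    have := finrank_range_le_card (R := F) x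
    simpa [Set.finrank] using this
  obtain ⟨a, ha, haX⟩ := exists_perp_not_mem hf x X (by omega)
  let X' := X ⊔ Submodule.span F {a}
  have hX'dim : finrank F X' = finrank F X + 1 := Submodule.finrank_sup_span_singleton haX
  obtain ⟨b, hb, hbX'⟩ := exists_perp_not_mem hf (Fin.cons a x) X' (by omega)
  have hb1 : f b a = 0 := (mem_perp hf).1 hb 0
  have hb2 : b ∈ perp hf x := (mem_perp hf).2 fun i => (mem_perp hf).1 hb i.succ
  have hab := swap_zero hf hb1
  let X'' := X' ⊔ Submodule.span F {b}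
  have hX''dim : finrank F X'' = finrank F X' + 1 := Submodule.finrank_sup_span_singleton hbX'
  obtain ⟨c, hc, hcX''⟩ := exists_perp_not_mem hf (Fin.cons b (Fin.cons a x)) X'' (by omega)
  have hc1 : f c b = 0 := (mem_perp hf).1 hc 0
  have hc2 : f c a = 0 := (mem_perp hf).1 hc (Fin.succ 0)
  have hc3 : c ∈ perp hf x := (mem_perp hf).2 fun i => (mem_perp hf).1 hc i.succ.succ
  have hac := swap_zero hf hc2
  have hbc := swap_zero hf hc1
  have hX'X'' : X' ≤ X'' := le_sup_left
  have hXX' : X ≤ X' := le_sup_left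
  obtain ⟨z₁, hz₁, hz₁X, hQ⟩ : ∃ z₁ ∈ perp hf x, z₁ ∉ X ∧ f z₁ z₁ = 0 := by
    by_cases hQa : f a a = 0
    · exact ⟨a, ha, haX, hQa⟩
    by_cases hQb : f b b = 0
    · exact ⟨b, hb2, fun hm => hbX' (hXX' hm), hQb⟩
    obtain ⟨α, β, hαβ⟩ := exists_sq_sum hf (f a a) (f b b) (f c c) hQa hQb
    refine ⟨α • a + β • b + c, Submodule.add_mem _ (Submodule.add_mem _ (Submodule.smul_mem _ _ ha)
      (Submodule.smul_mem _ _ hb2)) hc3, ?_, ?_⟩
    · intro hmem
      apply hcX''
      have : c = (α • a + β • b + c) - (α • a + β • b) := by abel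
      rw [this]
      refine X''.sub_mem (hX'X'' (hXX' hmem)) (X''.add_mem ?_ ?_)
      · exact X''.smul_mem _ (hX'X'' (Submodule.mem_sup_right (Submodule.mem_span_singleton_self a)))
      · exact X''.smul_mem _ (Submodule.mem_sup_right (Submodule.mem_span_singleton_self b))
    · simp only [hf.add_left, add_right hf, hf.smul_left, smul_right hf, hab, hbc, hac, hb1, hc1, hc2]
      linear_combination hαβ
  obtain ⟨w, hw, hzw⟩ := exists_perp_ne hf hz₁X
  have hwm : w ∈ perp hf x := (mem_perp hf).2 fun i =>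
    swap_zero hf (hw (x i) (Submodule.subset_span ⟨i, rfl⟩))
  have hwz : f w z₁ = 1 := by rw [hf.symm, hzw]
  refine ⟨z₁, w + (-(f w w) * 2⁻¹) • z₁, hz₁, Submodule.add_mem _ hwm (Submodule.smul_mem _ _ hz₁), hQ, ?_, ?_⟩
  · rw [self_add hf, self_smul hf, smul_right hf, hwz, hQ, mul_one]
    field_simp
    ring
  · rw [add_right hf, hzw, smul_right hf, hQ]
    ring

/-- A vector can be moved to any norm, by adding two isotropic vectors of the perp of a small family. -/
theorem exists_value {k : ℕ} (x : Fin k → ι → F) (h : 2 * k + 5 ≤ Fintype.card ι) (y : ι → F) (t : F) :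
    ∃ z₁ z₂, z₁ ∈ perp hf x ∧ z₂ ∈ perp hf x ∧ f z₁ z₁ = 0 ∧ f z₂ z₂ = 0 ∧
      f (y + z₁ + z₂) (y + z₁ + z₂) = t := by
  have h20 := hf.two_ne
  obtain ⟨h₁, h₂, m₁, m₂, n₁, n₂, e⟩ := exists_hyp hf x h
  have e' : f h₂ h₁ = 1 := by rw [hf.symm, e]
  set p := f y h₁ with hp
  set r := f y h₂ with hr
  have hp' : f h₁ y = p := hf.symm _ _
  have hr' : f h₂ y = r := hf.symm _ _
  refine ⟨(1 - r) • h₁, ((t - f y y) * 2⁻¹ + r * p - p) • h₂, Submodule.smul_mem _ _ m₁,
    Submodule.smul_mem _ _ m₂, ?_, ?_, ?_⟩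
  · rw [self_smul hf, n₁, mul_zero]
  · rw [self_smul hf, n₂, mul_zero]
  · simp only [hf.add_left, add_right hf, hf.smul_left, smul_right hf, n₁, n₂, e, e', ← hp, ← hr, hp', hr']
    field_simp
    ring

/-- Isotropic vectors with prescribed inner products. -/
theorem exists_iso {p x y : ι → F} (hx : x ∉ Submodule.span F {p})
    (hy : y ∉ Submodule.span F {p} ⊔ Submodule.span F {x}) (s₁ s₂ : F)
    (h : 11 ≤ Fintype.card ι) : ∃ z, f z z = 0 ∧ f p z = 0 ∧ f x z = s₁ ∧ f y z = s₂ := by
  have hx' : x ∉ Submodule.span F {p} ⊔ Submodule.span F {y} := by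
    intro hmem
    obtain ⟨u, hu, v, hv, rfl⟩ := Submodule.mem_sup.1 hmem
    obtain ⟨β, rfl⟩ := Submodule.mem_span_singleton.1 hv
    by_cases hβ : β = 0
    · subst hβ
      apply hx
      simpa using hu
    · apply hy
      have h1 : β • y ∈ Submodule.span F {p} ⊔ Submodule.span F {u + β • y} := by
        have e : β • y = (u + β • y) - u := by abel
        rw [e]
        exact Submodule.sub_mem _ (Submodule.mem_sup_right
          (by rw [← e]; exact Submodule.mem_span_singleton_self _)) (Submodule.mem_sup_left hu)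
      have h2 := Submodule.smul_mem _ β⁻¹ h1
      rwa [smul_smul, inv_mul_cancel₀ hβ, one_smul] at h2
  obtain ⟨w₂, h21, h22⟩ := exists_perp_ne hf hy
  obtain ⟨w₁, h11, h12⟩ := exists_perp_ne hf hx'
  have hp1 : f p w₁ = 0 := h11 p (Submodule.mem_sup_left (Submodule.mem_span_singleton_self _))
  have hp2 : f p w₂ = 0 := h21 p (Submodule.mem_sup_left (Submodule.mem_span_singleton_self _))
  have hy1 : f y w₁ = 0 := h11 y (Submodule.mem_sup_right (Submodule.mem_span_singleton_self _))
  have hx2 : f x w₂ = 0 := h21 x (Submodule.mem_sup_right (Submodule.mem_span_singleton_self _))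
  set w := s₁ • w₁ + s₂ • w₂ with hw
  obtain ⟨z₁, z₂, m₁, m₂, n₁, n₂, e⟩ := exists_value hf ![p, x, y] (by simpa using h) w 0
  have a0 := perp_apply hf m₁ 0
  have a1 := perp_apply hf m₁ 1
  have a2 := perp_apply hf m₁ 2
  have b0 := perp_apply hf m₂ 0
  have b1 := perp_apply hf m₂ 1
  have b2 := perp_apply hf m₂ 2
  simp only [Matrix.cons_val_zero, Matrix.cons_val_one, Matrix.cons_val] at a0 a1 a2 b0 b1 b2
  refine ⟨w + z₁ + z₂, e, ?_, ?_, ?_⟩
  · rw [add_right hf, add_right hf, a0, b0, hw, add_right hf, smul_right hf, smul_right hf, hp1, hp2]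
    ring
  · rw [add_right hf, add_right hf, a1, b1, hw, add_right hf, smul_right hf, smul_right hf, h12, hx2]
    ring
  · rw [add_right hf, add_right hf, a2, b2, hw, add_right hf, smul_right hf, smul_right hf, hy1, h22]
    ring

end Perp

section Transvections

variable (hf : IsSymForm f)

include hf

/-- The transvection `x ↦ x + f(x, w) u`, for `f(u, w) = 0`. -/
noncomputable def T (u w : ι → F) (h : f u w = 0) : GL ι F := tv (fLin hf w) u h

@[simp] theorem T_mulVec (u w : ι → F) (h : f u w = 0) (x : ι → F) :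
    ((T hf u w h : GL ι F) : Matrix ι ι F) *ᵥ x = x + f x w • u :=
  tv_mulVec _ _ _ _

theorem T_mem_SL (u w : ι → F) (h : f u w = 0) : T hf u w h ∈ specialLinear ι F :=
  tv_mem_specialLinear _ _ _

theorem T_congr {u u' w w' : ι → F} (hu : u = u') (hw : w = w') (h : f u w = 0) :
    T hf u w h = T hf u' w' (by rw [← hu, ← hw]; exact h) := by
  subst hu hw
  rfl

theorem T_zero_left (w : ι → F) (h : f 0 w = 0) : T hf 0 w h = 1 := by
  apply gl_ext
  intro x
  simp

theorem T_zero_right (u : ι → F) (h : f u 0 = 0) : T hf u 0 h = 1 := by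
  apply gl_ext
  intro x
  simp [zero_right hf]

theorem T_add_left (u u' w : ι → F) (h : f u w = 0) (h' : f u' w = 0) :
    T hf u w h * T hf u' w h' = T hf (u + u') w (by rw [hf.add_left, h, h', add_zero]) := by
  apply gl_ext
  intro x
  rw [Units.val_mul, ← Matrix.mulVec_mulVec, T_mulVec, T_mulVec, T_mulVec, hf.add_left,
    hf.smul_left, h', mul_zero, add_zero, smul_add]
  abel

theorem T_add_right (u w w' : ι → F) (h : f u w = 0) (h' : f u w' = 0) :
    T hf u w h * T hf u w' h' = T hf u (w + w') (by rw [add_right hf, h, h', add_zero]) := by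
  apply gl_ext
  intro x
  rw [Units.val_mul, ← Matrix.mulVec_mulVec, T_mulVec, T_mulVec, T_mulVec, hf.add_left,
    hf.smul_left, h, mul_zero, add_zero, add_right hf, add_smul]
  abel

theorem T_inv (u w : ι → F) (h : f u w = 0) :
    (T hf u w h)⁻¹ = T hf (-u) w (by rw [neg_left hf, h, neg_zero]) := by
  apply inv_eq_of_mul_eq_one_right
  rw [T_add_left]
  have e : u + -u = 0 := by abel
  rw [T_congr hf e rfl, T_zero_left]

/-- The isometries of determinant one. -/
def isoGroup (hf : IsSymForm f) : Subgroup (GL ι F) :=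
  Cfsg.preserving (glToMat ι F) f ⊓ specialLinear ι F

theorem mem_isoGroup {s : GL ι F} : s ∈ isoGroup hf ↔
    (∀ x y, f ((s : Matrix ι ι F) *ᵥ x) ((s : Matrix ι ι F) *ᵥ y) = f x y) ∧ s ∈ specialLinear ι F :=
  Iff.rfl

theorem T_conj_iso (s : GL ι F)
    (hs : ∀ x y, f ((s : Matrix ι ι F) *ᵥ x) ((s : Matrix ι ι F) *ᵥ y) = f x y)
    (u w : ι → F) (h : f u w = 0) :
    s * T hf u w h * s⁻¹ =
      T hf ((s : Matrix ι ι F) *ᵥ u) ((s : Matrix ι ι F) *ᵥ w) (by rw [hs, h]) := by
  apply conj_tv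
  intro x
  have := hs (((s⁻¹ : GL ι F) : Matrix ι ι F) *ᵥ x) w
  rw [mulVec_inv_mulVec] at this
  exact this

/-- The reflection in a non-isotropic vector. -/
noncomputable def refl (d : ι → F) (hd : f d d ≠ 0) : GL ι F :=
  glOfEquiv (LinearEquiv.dilatransvection (f := (-(2 * (f d d)⁻¹)) • fLin hf d) (v := d) (by
    have h : 1 + ((-(2 * (f d d)⁻¹)) • fLin hf d) d = -1 := by
      simp only [LinearMap.smul_apply, fLin_apply, smul_eq_mul]
      field_simp
      ring
    rw [h]
    exact isUnit_one.neg))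

theorem refl_mulVec (d : ι → F) (hd : f d d ≠ 0) (x : ι → F) :
    ((refl hf d hd : GL ι F) : Matrix ι ι F) *ᵥ x = x - (2 * f x d * (f d d)⁻¹) • d := by
  rw [refl, glOfEquiv_mulVec, LinearEquiv.dilatransvection.apply]
  simp only [LinearMap.smul_apply, fLin_apply, smul_eq_mul]
  rw [sub_eq_add_neg, ← neg_smul]
  congr 2
  ring

theorem refl_isometry (d : ι → F) (hd : f d d ≠ 0) (x y : ι → F) :
    f (((refl hf d hd : GL ι F) : Matrix ι ι F) *ᵥ x) (((refl hf d hd : GL ι F) : Matrix ι ι F) *ᵥ y) = f x y := by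
  rw [refl_mulVec, refl_mulVec, sub_left hf, sub_right hf, sub_right hf, hf.smul_left, smul_right hf,
    hf.smul_left, smul_right hf, hf.symm d y]
  field_simp
  ring

theorem refl_det (d : ι → F) (hd : f d d ≠ 0) :
    ((refl hf d hd : GL ι F) : Matrix ι ι F).det = -1 := by
  rw [refl, det_glOfEquiv, LinearEquiv.coe_det, LinearEquiv.dilatransvection.coe_toLinearMap,
    LinearMap.transvection.det]
  simp only [LinearMap.smul_apply, fLin_apply, smul_eq_mul]
  field_simp
  ring

/-- The Siegel element. -/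
theorem siegel_mulVec (u v : ι → F) (hv : f v v = 0) (huv : f u v = 0) (h' : f (-v) u = 0) (x : ι → F) :
    (((T hf u v huv * T hf (-v) u h' : GL ι F)) : Matrix ι ι F) *ᵥ x = x + f x v • u - f x u • v := by
  rw [Units.val_mul, ← Matrix.mulVec_mulVec, T_mulVec, T_mulVec, hf.add_left, hf.smul_left, neg_left hf, hv]
  simp only [mul_neg, mul_zero, neg_zero, add_zero]
  module

theorem siegel_mem (u v : ι → F) (hu : f u u = 0) (hv : f v v = 0) (huv : f u v = 0) (h' : f (-v) u = 0) :
    T hf u v huv * T hf (-v) u h' ∈ isoGroup hf := by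
  refine (mem_isoGroup hf).2 ⟨fun x y => ?_, mul_mem (T_mem_SL _ _ _ _) (T_mem_SL _ _ _ _)⟩
  have hvu := swap_zero hf huv
  rw [siegel_mulVec hf u v hv huv h', siegel_mulVec hf u v hv huv h']
  simp only [sub_left hf, sub_right hf, hf.add_left, add_right hf, hf.smul_left, smul_right hf, hu, hv, huv, hvu,
    hf.symm u y, hf.symm v y]
  ring

end Transvections

section Moves

variable [Fintype F] (hf : IsSymForm f)

include hf

theorem move1 {p x y : ι → F} (hx : f x x = 0) (hy : f y y = 0) (hd : f x y ≠ 0) (hpx : f p x = 0)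
    (hpy : f p y = 0) (h11 : 11 ≤ Fintype.card ι) :
    ∃ s ∈ isoGroup hf, (s : Matrix ι ι F) *ᵥ x = y ∧ (s : Matrix ι ι F) *ᵥ p = p := by
  have h20 := hf.two_ne
  obtain ⟨h₁, h₂, m₁, m₂, n₁, n₂, e⟩ := exists_hyp hf ![x, y, p] (by simpa using h11)
  have a0 := (mem_perp hf).1 m₁ 0
  have a1 := (mem_perp hf).1 m₁ 1
  have a2 := (mem_perp hf).1 m₁ 2
  have b0 := (mem_perp hf).1 m₂ 0
  have b1 := (mem_perp hf).1 m₂ 1
  have b2 := (mem_perp hf).1 m₂ 2
  simp only [Matrix.cons_val_zero, Matrix.cons_val_one, Matrix.cons_val] at a0 a1 a2 b0 b1 b2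
  have hdd : f (h₁ + h₂) (h₁ + h₂) ≠ 0 := by
    rw [self_add hf, n₁, n₂, e]
    simpa using h20
  have hv : f (x - y) (x - y) ≠ 0 := by
    have : f (x - y) (x - y) = -2 * f x y := by
      rw [sub_left hf, sub_right hf, sub_right hf, hx, hy, hf.symm y x]
      ring
    rw [this]
    exact mul_ne_zero (neg_ne_zero.2 h20) hd
  have hvval : f (x - y) (x - y) = -2 * f x y := by
    rw [sub_left hf, sub_right hf, sub_right hf, hx, hy, hf.symm y x]
    ring
  have hfix : ∀ z, f z h₁ = 0 → f z h₂ = 0 → ((refl hf (h₁ + h₂) hdd : GL ι F) : Matrix ι ι F) *ᵥ z = z := by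
    intro z h1 h2
    rw [refl_mulVec, add_right hf, h1, h2]
    simp
  refine ⟨refl hf (x - y) hv * refl hf (h₁ + h₂) hdd, ?_, ?_, ?_⟩
  · refine (mem_isoGroup hf).2 ⟨fun a b => ?_, ?_⟩
    · rw [Units.val_mul, ← Matrix.mulVec_mulVec, ← Matrix.mulVec_mulVec, refl_isometry hf, refl_isometry hf]
    · rw [mem_specialLinear_iff, Units.val_mul, Matrix.det_mul, refl_det hf, refl_det hf]
      ring
  · rw [Units.val_mul, ← Matrix.mulVec_mulVec, hfix x (swap_zero hf a0) (swap_zero hf b0), refl_mulVec, sub_right hf, hx, hvval]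
    have : (2 * (0 - f x y) * (-2 * f x y)⁻¹) = 1 := by
      field_simp
      ring
    rw [this, one_smul]
    abel
  · rw [Units.val_mul, ← Matrix.mulVec_mulVec, hfix p (swap_zero hf a2) (swap_zero hf b2), refl_mulVec, sub_right hf, hpx, hpy]
    simp

theorem move2 {p x y : ι → F} (hx : f x x = 0) (hy : f y y = 0) (hpx : f p x = 0) (hpy : f p y = 0)
    (hxm : x ∉ Submodule.span F {p}) (hym : y ∉ Submodule.span F {p} ⊔ Submodule.span F {x})
    (h12 : 11 ≤ Fintype.card ι) :
    ∃ s ∈ isoGroup hf, (s : Matrix ι ι F) *ᵥ x = y ∧ (s : Matrix ι ι F) *ᵥ p = p := by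
  obtain ⟨z, hzz, hpz, hxz, hyz⟩ := exists_iso hf hxm hym 1 1 h12
  obtain ⟨s₁, hs₁, e₁, g₁⟩ := move1 hf hx hzz (by rw [hxz]; exact one_ne_zero) hpx hpz h12
  have hzy : f z y = 1 := by rw [hf.symm, hyz]
  obtain ⟨s₂, hs₂, e₂, g₂⟩ := move1 hf hzz hy (by rw [hzy]; exact one_ne_zero) hpz hpy h12
  refine ⟨s₂ * s₁, mul_mem hs₂ hs₁, ?_, ?_⟩
  · rw [Units.val_mul, ← Matrix.mulVec_mulVec, e₁, e₂]
  · rw [Units.val_mul, ← Matrix.mulVec_mulVec, g₁, g₂]

theorem move3 {p x y : ι → F} (hx : f x x = 0) (hy : f y y = 0) (hpx : f p x = 0) (hpy : f p y = 0)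
    (hxm : x ∉ Submodule.span F {p}) (hym : y ∉ Submodule.span F {p})
    (h12 : 11 ≤ Fintype.card ι) :
    ∃ s ∈ isoGroup hf, (s : Matrix ι ι F) *ᵥ x = y ∧ (s : Matrix ι ι F) *ᵥ p = p := by
  by_cases hcase : y ∈ Submodule.span F {p} ⊔ Submodule.span F {x}
  swap
  · exact move2 hf hx hy hpx hpy hxm hcase h12
  obtain ⟨w, z₂, m₁, m₂, n₁, n₂, e⟩ := exists_hyp hf ![p, x, y] (by simpa using h12)
  have a0 := perp_apply hf m₁ 0
  have a1 := perp_apply hf m₁ 1
  have a2 := perp_apply hf m₁ 2
  have b0 := perp_apply hf m₂ 0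
  have b1 := perp_apply hf m₂ 1
  have b2 := perp_apply hf m₂ 2
  simp only [Matrix.cons_val_zero, Matrix.cons_val_one, Matrix.cons_val] at a0 a1 a2 b0 b1 b2
  have hkey : ∀ v : ι → F, v ∈ Submodule.span F {p} ⊔ Submodule.span F {x} → f v z₂ = 0 := by
    intro v hv
    obtain ⟨u, hu, v', hv', rfl⟩ := Submodule.mem_sup.1 hv
    obtain ⟨α, rfl⟩ := Submodule.mem_span_singleton.1 hu
    obtain ⟨β, rfl⟩ := Submodule.mem_span_singleton.1 hv'
    rw [hf.add_left, hf.smul_left, hf.smul_left, b0, b1]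
    ring
  have hw1 : w ∉ Submodule.span F {p} ⊔ Submodule.span F {x} := by
    intro hmem
    have := hkey w hmem
    rw [e] at this
    exact one_ne_zero this
  have hw2 : w ∉ Submodule.span F {p} := fun hmem => hw1 (Submodule.mem_sup_left hmem)
  have hy2 : y ∉ Submodule.span F {p} ⊔ Submodule.span F {w} := by
    intro hmem
    obtain ⟨u, hu, v', hv', rfl⟩ := Submodule.mem_sup.1 hmem
    obtain ⟨α, rfl⟩ := Submodule.mem_span_singleton.1 hu
    obtain ⟨β, rfl⟩ := Submodule.mem_span_singleton.1 hv'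
    rw [hf.add_left, hf.smul_left, hf.smul_left, b0, e] at b2
    have hβ : β = 0 := by simpa using b2
    subst hβ
    apply hym
    simp only [zero_smul, add_zero]
    exact Submodule.smul_mem _ _ (Submodule.mem_span_singleton_self _)
  obtain ⟨s₁, hs₁, e₁, g₁⟩ := move2 hf hx n₁ hpx a0 hxm hw1 h12
  obtain ⟨s₂, hs₂, e₂, g₂⟩ := move2 hf n₁ hy a0 hpy hw2 hy2 h12
  refine ⟨s₂ * s₁, mul_mem hs₂ hs₁, ?_, ?_⟩
  · rw [Units.val_mul, ← Matrix.mulVec_mulVec, e₁, e₂]
  · rw [Units.val_mul, ← Matrix.mulVec_mulVec, g₁, g₂]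

/-- The isometry group of determinant one is transitive on pairs of independent orthogonal isotropic vectors. -/
theorem exists_pair_move {a b a' b' : ι → F} (ha : f a a = 0) (hb : f b b = 0) (ha' : f a' a' = 0)
    (hb' : f b' b' = 0) (hab : f a b = 0) (hab' : f a' b' = 0) (ha0 : a ≠ 0) (ha'0 : a' ≠ 0)
    (hbm : b ∉ Submodule.span F {a}) (hbm' : b' ∉ Submodule.span F {a'})
    (h12 : 11 ≤ Fintype.card ι) :
    ∃ s ∈ isoGroup hf, (s : Matrix ι ι F) *ᵥ a = a' ∧ (s : Matrix ι ι F) *ᵥ b = b' := by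
  obtain ⟨s₁, hs₁, e₁, -⟩ := move3 hf (p := 0) ha ha' (zero_left hf a) (zero_left hf a')
    (by simpa using ha0) (by simpa using ha'0) h12
  have hs₁' := ((mem_isoGroup hf).1 hs₁).1
  set b₁ := (s₁ : Matrix ι ι F) *ᵥ b with hb₁
  have hb₁m : b₁ ∉ Submodule.span F {a'} := by
    intro hmem
    obtain ⟨κ, hκ⟩ := Submodule.mem_span_singleton.1 hmem
    apply hbm
    have : κ • a = b := by
      apply mulVec_injective s₁
      change (s₁ : Matrix ι ι F) *ᵥ (κ • a) = (s₁ : Matrix ι ι F) *ᵥ b
      rw [Matrix.mulVec_smul, e₁, hκ]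
    rw [← this]
    exact Submodule.smul_mem _ _ (Submodule.mem_span_singleton_self _)
  obtain ⟨s₂, hs₂, e₂, g₂⟩ := move3 hf (p := a') (x := b₁) (y := b') (by rw [hb₁, hs₁', hb]) hb'
    (by rw [← e₁, hb₁, hs₁', hab]) hab' hb₁m hbm' h12
  refine ⟨s₂ * s₁, mul_mem hs₂ hs₁, ?_, ?_⟩
  · rw [Units.val_mul, ← Matrix.mulVec_mulVec, e₁, g₂]
  · rw [Units.val_mul, ← Matrix.mulVec_mulVec, ← hb₁, e₂]

/-- Isotropic vectors with prescribed inner products against a small family. -/
theorem exists_iso_family {k : ℕ} (x : Fin k → ι → F) {y : ι → F} (hy : y ∉ Submodule.span F (Set.range x))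
    (s : F) (h : 2 * (k + 1) + 5 ≤ Fintype.card ι) :
    ∃ z, f z z = 0 ∧ (∀ i, f (x i) z = 0) ∧ f y z = s := by
  obtain ⟨w, hw, hyw⟩ := exists_perp_ne hf hy
  obtain ⟨z₁, z₂, m₁, m₂, n₁, n₂, e⟩ := exists_value hf (Fin.cons y x) h (s • w) 0
  refine ⟨s • w + z₁ + z₂, e, fun i => ?_, ?_⟩
  · have h1 := perp_apply hf m₁ i.succ
    have h2 := perp_apply hf m₂ i.succ
    simp only [Fin.cons_succ] at h1 h2
    rw [add_right hf, add_right hf, h1, h2, smul_right hf, hw _ (Submodule.subset_span ⟨i, rfl⟩)]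
    ring
  · have h1 := perp_apply hf m₁ 0
    have h2 := perp_apply hf m₂ 0
    simp only [Fin.cons_zero] at h1 h2
    rw [add_right hf, add_right hf, h1, h2, smul_right hf, hyw]
    ring

end Moves

end Cfsg.Agent.Lib.Classical.Geo.OForm
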