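/-
The stabiliser in `Ω` of a non-degenerate subspace of dimension at least six (in odd characteristic): a refinement of
`ONondeg.isMaximalIn_stab`, in which no hyperbolic pair orthogonal to a totally singular plane of the part is needed.
-/
import Mathlib
import Cfsg.Agent.Lib.Classical.Geo.ONondeg

set_option autoImplicit false
set_option linter.unusedSectionVars false

namespace Cfsg.Agent.Lib.Classical.Geo.ONondeg6

open scoped Matrix
open Module Cfsg Cfsg.Geo QuadraticMap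
open Cfsg.Agent.Lib.Classical.Orth.Basic
open Cfsg.Agent.Lib.Classical.Orth.CartanDieudonne
open Cfsg.Agent.Lib.Classical.Orth.Adjust
open Cfsg.Agent.Lib.Classical.Orth.Siegel
open Cfsg.Agent.Lib.Classical.Orth.Generation
open Cfsg.Agent.Lib.Classical.Orth.Simple
open Cfsg.Agent.Lib.Classical.Witt.TS
open Cfsg.Agent.Lib.Classical.Witt.Hyp
open Cfsg.Agent.Lib.Classical.Geo.OPts
open Cfsg.Agent.Lib.Classical.Geo.OLine
open Cfsg.Agent.Lib.Classical.Geo.OPair
open Cfsg.Agent.Lib.Classical.Geo.ONondeg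

variable {ι : Type} [Fintype ι] [DecidableEq ι] {F : Type*} [Field F] [Fintype F]
variable {Q : QuadraticForm F (ι → F)}

set_option quotPrecheck false in
local notation "𝔣" => polar (⇑Q)

variable {S R : Submodule F (ι → F)}

/-- A hyperbolic pair in a part, orthogonal to two given vectors which do not span a totally isotropic plane. -/
theorem exists_hyp' (hQ : (polarBilin Q).Nondegenerate) (P : OD Q S R) (hdim : 6 ≤ finrank F S) {x₁ x₂ : ι → F}
    (h₁ : x₁ ∈ S) (h₂ : x₂ ∈ S) (hX : finrank F (Submodule.span F {x₁, x₂}) ≤ 1 ∨ ¬ (𝔣 x₁ x₁ = 0 ∧ 𝔣 x₂ x₂ = 0 ∧ 𝔣 x₁ x₂ = 0)) :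
    ∃ z₁ ∈ S, ∃ z₂ ∈ S, 𝔣 x₁ z₁ = 0 ∧ 𝔣 x₂ z₁ = 0 ∧ 𝔣 x₁ z₂ = 0 ∧ 𝔣 x₂ z₂ = 0 ∧ Q z₁ = 0 ∧ Q z₂ = 0 ∧ 𝔣 z₁ z₂ = 1 := by
  set B : LinearMap.BilinForm F (ι → F) := polarBilin Q with hB
  have hBnd : B.Nondegenerate := hQ
  set X := Submodule.span F {x₁, x₂} with hX'
  have hXd : finrank F X ≤ 2 := finrank_span_pair_le x₁ x₂
  set T := B.orthogonal X with hT
  have h1X : x₁ ∈ X := Submodule.subset_span (by simp)
  have h2X : x₂ ∈ X := Submodule.subset_span (by simp)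
  have hfT : finrank F T + finrank F X = Fintype.card ι := by
    have h6 := LinearMap.BilinForm.finrank_orthogonal hBnd X
    rw [Module.finrank_fintype_fun_eq_card, ← hT] at h6
    have : finrank F X ≤ finrank F (ι → F) := Submodule.finrank_le X
    rw [Module.finrank_fintype_fun_eq_card] at this
    omega
  have hmemT : ∀ y, y ∈ T ↔ ∀ x ∈ X, 𝔣 x y = 0 := fun y => by
    rw [hT, LinearMap.BilinForm.mem_orthogonal_iff]
    rfl
  set ρ := X ⊓ T with hρ
  have hρd : finrank F ρ ≤ 1 := by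
    rcases hX with h | h
    · exact (Submodule.finrank_mono inf_le_left).trans h
    · have hlt : ρ < X := by
        refine lt_of_le_of_ne inf_le_left fun e => h ?_
        have hXT : X ≤ T := by
          rw [← e]
          exact inf_le_right
        have h3 : ∀ a ∈ X, ∀ b ∈ X, 𝔣 a b = 0 := fun a ha b hb => (hmemT b).1 (hXT hb) a ha
        exact ⟨h3 _ h1X _ h1X, h3 _ h2X _ h2X, h3 _ h1X _ h2X⟩
      have := Submodule.finrank_lt_finrank_of_lt hlt
      omega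
  obtain ⟨q, hq⟩ := Submodule.exists_isCompl ρ
  have hfq : finrank F ρ + finrank F q = Fintype.card ι := by
    rw [Submodule.finrank_add_eq_of_isCompl hq, Module.finrank_fintype_fun_eq_card]
  have hup : ∀ A : Submodule F (ι → F), finrank F A ≤ Fintype.card ι := fun A => by
    have := Submodule.finrank_le A
    rwa [Module.finrank_fintype_fun_eq_card] at this
  have hfST : finrank F S + finrank F T ≤ finrank F ↥(S ⊓ T) + Fintype.card ι := by
    have h1 := Submodule.finrank_sup_add_finrank_inf_eq S T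
    have h2 := hup (S ⊔ T)
    omega
  have hfY : 3 ≤ finrank F ↥((S ⊓ T) ⊓ q) := by
    have h1 := Submodule.finrank_sup_add_finrank_inf_eq (S ⊓ T) q
    have h2 := hup ((S ⊓ T) ⊔ q)
    rcases hX with h | h
    · omega
    · have : finrank F X ≤ 2 := hXd
      omega
  obtain ⟨⟨y, hy⟩, hy0, hQy⟩ := exists_singular_of_three_le (Q.comp ((S ⊓ T) ⊓ q).subtype) hfY
  have hy0' : y ≠ 0 := fun h => hy0 (Subtype.ext h)
  have hQy' : Q y = 0 := hQy
  have hyX : y ∉ X := by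
    intro h
    apply hy0'
    have : y ∈ ρ ⊓ q := ⟨⟨h, hy.1.2⟩, hy.2⟩
    rw [hq.inf_eq_bot] at this
    exact this
  have hyS : y ∈ S := hy.1.1
  have hyT : ∀ x ∈ X, 𝔣 x y = 0 := (hmemT y).1 hy.1.2
  obtain ⟨w, hw, hw0, hyw⟩ := P.riesz hQ hyS hyX
  refine ⟨y, hyS, w - Q w • y, S.sub_mem hw (S.smul_mem _ hyS), hyT _ h1X, hyT _ h2X, ?_, ?_, hQy', ?_, ?_⟩
  · rw [polar_sub_right, polar_smul_right', hw0 _ h₁ h1X, hyT _ h1X]
    ring
  · rw [polar_sub_right, polar_smul_right', hw0 _ h₂ h2X, hyT _ h2X]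
    ring
  · rw [Q_sub, Q_smul, hQy', polar_smul_right', polar_comm (⇑Q) w y, hyw]
    ring
  · rw [polar_sub_right, polar_smul_right', polar_zero_of_singular hQy', hyw]
    ring

theorem finrank_pair_self (x : ι → F) : finrank F (Submodule.span F {x, x}) ≤ 1 := by
  rw [Set.pair_eq_singleton]
  by_cases h : x = 0
  · subst h
    rw [Submodule.span_zero_singleton, finrank_bot]
    exact zero_le_one
  · rw [finrank_span_singleton h]

/-- A hyperbolic pair in a part, orthogonal to a given vector. -/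
theorem exists_hyp1 (hQ : (polarBilin Q).Nondegenerate) (P : OD Q S R) (hdim : 6 ≤ finrank F S) {x : ι → F}
    (h₁ : x ∈ S) :
    ∃ z₁ ∈ S, ∃ z₂ ∈ S, 𝔣 x z₁ = 0 ∧ 𝔣 x z₁ = 0 ∧ 𝔣 x z₂ = 0 ∧ 𝔣 x z₂ = 0 ∧ Q z₁ = 0 ∧ Q z₂ = 0 ∧ 𝔣 z₁ z₂ = 1 :=
  exists_hyp' hQ P hdim h₁ h₁ (Or.inl (finrank_pair_self x))

/-- A vector of a part orthogonal to two given vectors, outside of their span. -/
theorem exists_perp_not_mem (hQ : (polarBilin Q).Nondegenerate) (hdim : 6 ≤ finrank F S) (a b : ι → F) :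
    ∃ z ∈ S, 𝔣 a z = 0 ∧ 𝔣 b z = 0 ∧ z ∉ Submodule.span F {a, b} := by
  set B : LinearMap.BilinForm F (ι → F) := polarBilin Q with hB
  have hBnd : B.Nondegenerate := hQ
  set X := Submodule.span F {a, b} with hX'
  have hXd : finrank F X ≤ 2 := finrank_span_pair_le a b
  set T := B.orthogonal X with hT
  have hfT : finrank F T + finrank F X = Fintype.card ι := by
    have h6 := LinearMap.BilinForm.finrank_orthogonal hBnd X
    rw [Module.finrank_fintype_fun_eq_card, ← hT] at h6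
    have : finrank F X ≤ finrank F (ι → F) := Submodule.finrank_le X
    rw [Module.finrank_fintype_fun_eq_card] at this
    omega
  have hmemT : ∀ y, y ∈ T ↔ ∀ x ∈ X, 𝔣 x y = 0 := fun y => by
    rw [hT, LinearMap.BilinForm.mem_orthogonal_iff]
    rfl
  have hup : ∀ A : Submodule F (ι → F), finrank F A ≤ Fintype.card ι := fun A => by
    have := Submodule.finrank_le A
    rwa [Module.finrank_fintype_fun_eq_card] at this
  have hfST : finrank F S + finrank F T ≤ finrank F ↥(S ⊓ T) + Fintype.card ι := by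
    have h1 := Submodule.finrank_sup_add_finrank_inf_eq S T
    have h2 := hup (S ⊔ T)
    omega
  by_contra hcon
  push Not at hcon
  have hle : S ⊓ T ≤ X := by
    rintro z ⟨hz1, hz2⟩
    exact hcon z hz1 ((hmemT z).1 hz2 _ (Submodule.subset_span (by simp))) ((hmemT z).1 hz2 _ (Submodule.subset_span (by simp)))
  have := Submodule.finrank_mono hle
  omega

/-- Vectors of a part with prescribed inner products, not both zero, and norm. -/
theorem exists_u' (h2F : (2 : F) ≠ 0) (hQ : (polarBilin Q).Nondegenerate) (P : OD Q S R) (hdim : 6 ≤ finrank F S) {x e : ι → F}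
    (hx : x ∈ S) (he : e ∈ S) (hxe : x ∉ Submodule.span F {e}) (hex : e ∉ Submodule.span F {x}) (s₁ s₂ t : F)
    (hs : s₁ ≠ 0 ∨ s₂ ≠ 0) :
    ∃ u ∈ S, 𝔣 x u = s₁ ∧ 𝔣 e u = s₂ ∧ Q u = t := by
  obtain ⟨w₁, hw₁, h10, h11⟩ := P.riesz hQ hx hxe
  obtain ⟨w₂, hw₂, h20, h21⟩ := P.riesz hQ he hex
  have h12 : 𝔣 e w₁ = 0 := h10 e he (Submodule.mem_span_singleton_self _)
  have h22 : 𝔣 x w₂ = 0 := h20 x hx (Submodule.mem_span_singleton_self _)
  obtain ⟨y, hyS, ey1, ey2⟩ : ∃ y ∈ S, 𝔣 x y = s₁ ∧ 𝔣 e y = s₂ := by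
    refine ⟨s₁ • w₁ + s₂ • w₂, S.add_mem (S.smul_mem _ hw₁) (S.smul_mem _ hw₂), ?_, ?_⟩
    · rw [polar_add_right, polar_smul_right', polar_smul_right', h11, h22]
      ring
    · rw [polar_add_right, polar_smul_right', polar_smul_right', h12, h21]
      ring
  by_cases hti : 𝔣 x x = 0 ∧ 𝔣 e e = 0 ∧ 𝔣 x e = 0
  · obtain ⟨t1, t2, t3⟩ := hti
    have hQx : Q x = 0 := by
      have := polar_self_eq Q x
      rw [t1] at this
      exact (mul_eq_zero.1 this.symm).resolve_left h2F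
    have hQe : Q e = 0 := by
      have := polar_self_eq Q e
      rw [t2] at this
      exact (mul_eq_zero.1 this.symm).resolve_left h2F
    have t3' : 𝔣 e x = 0 := by rw [polar_comm]; exact t3
    rcases hs with hs | hs
    · refine ⟨y + ((t - Q y) / s₁) • x, S.add_mem hyS (S.smul_mem _ hx), ?_, ?_, ?_⟩
      · rw [polar_add_right, polar_smul_right', ey1, t1]
        ring
      · rw [polar_add_right, polar_smul_right', ey2, t3']
        ring
      · rw [Q_add, Q_smul, hQx, polar_smul_right', polar_comm (⇑Q) y x, ey1]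
        field_simp
        ring
    · refine ⟨y + ((t - Q y) / s₂) • e, S.add_mem hyS (S.smul_mem _ he), ?_, ?_, ?_⟩
      · rw [polar_add_right, polar_smul_right', ey1, t3]
        ring
      · rw [polar_add_right, polar_smul_right', ey2, t2]
        ring
      · rw [Q_add, Q_smul, hQe, polar_smul_right', polar_comm (⇑Q) y e, ey2]
        field_simp
        ring
  obtain ⟨g₁, m₁, g₂, m₂, a1, a2, b1, b2, n₁, n₂, hg⟩ := exists_hyp' hQ P hdim hx he (Or.inr hti)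
  set α := 1 - 𝔣 y g₂ with hα
  set β := t - Q y - α * 𝔣 y g₁ with hβ
  refine ⟨y + α • g₁ + β • g₂, S.add_mem (S.add_mem hyS (S.smul_mem _ m₁)) (S.smul_mem _ m₂), ?_, ?_, ?_⟩
  · rw [polar_add_right, polar_add_right, polar_smul_right', polar_smul_right', ey1, a1, b1]
    ring
  · rw [polar_add_right, polar_add_right, polar_smul_right', polar_smul_right', ey2, a2, b2]
    ring
  · rw [Q_add, Q_add, Q_smul, Q_smul, n₁, n₂, polar_add_left, polar_smul_right', polar_smul_right',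
      polar_smul_right', polar_smul_left', hg]
    ring_nf
    rw [hβ, hα]
    ring

/-- A nonzero vector of a part with a given norm. -/
theorem exists_ne' (hQ : (polarBilin Q).Nondegenerate) (P : OD Q S R) (hdim : 6 ≤ finrank F S) (t : F) :
    ∃ u ∈ S, u ≠ 0 ∧ Q u = t := by
  obtain ⟨g₁, m₁, g₂, m₂, -, -, -, -, n₁, n₂, hg⟩ := exists_hyp1 hQ P hdim (Submodule.zero_mem _)
  refine ⟨g₁ + t • g₂, S.add_mem m₁ (S.smul_mem _ m₂), ?_, ?_⟩
  · intro h
    have := congrArg (fun z => 𝔣 z g₂) h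
    simp only [polar_add_left, polar_smul_left', polar_zero_of_singular n₂, hg] at this
    simp [polar] at this
  · rw [Q_add, Q_smul, n₁, n₂, polar_smul_right', hg]
    ring

/-- A singular vector orthogonal to a vector, but not to a second one. -/
theorem exists_sing_nonperp1 (hQ : (polarBilin Q).Nondegenerate) (P : OD Q S R) (hdim : 6 ≤ finrank F S)
    {a w : ι → F} (ha : a ∈ S) (hw : w ∈ S) (hn : w ∉ Submodule.span F {a}) :
    ∃ c ∈ S, Q c = 0 ∧ 𝔣 a c = 0 ∧ 𝔣 w c ≠ 0 := by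
  obtain ⟨g₁, m₁, g₂, m₂, a1, -, b1, -, n₁, n₂, hg⟩ := exists_hyp1 hQ P hdim ha
  obtain ⟨v, hv, hv0, hwv⟩ := P.riesz hQ hw hn
  have hav : 𝔣 a v = 0 := hv0 a ha (Submodule.subset_span (by simp))
  by_cases h1 : 𝔣 w g₁ = 0
  swap
  · exact ⟨g₁, m₁, n₁, a1, h1⟩
  by_cases h2 : 𝔣 w g₂ = 0
  swap
  · exact ⟨g₂, m₂, n₂, b1, h2⟩
  have hg' : 𝔣 g₂ g₁ = 1 := by rw [polar_comm]; exact hg
  set v' := v - 𝔣 v g₂ • g₁ - 𝔣 v g₁ • g₂ with hv'
  have e1 : 𝔣 v' g₁ = 0 := by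
    rw [hv', polar_sub_left, polar_sub_left, polar_smul_left', polar_smul_left', polar_zero_of_singular n₁, hg']
    ring
  have e2 : 𝔣 v' g₂ = 0 := by
    rw [hv', polar_sub_left, polar_sub_left, polar_smul_left', polar_smul_left', polar_zero_of_singular n₂, hg]
    ring
  refine ⟨v' + g₁ - Q v' • g₂, S.sub_mem (S.add_mem (S.sub_mem (S.sub_mem hv (S.smul_mem _ m₁)) (S.smul_mem _ m₂)) m₁)
    (S.smul_mem _ m₂), ?_, ?_, ?_⟩
  · rw [Q_sub, Q_add, Q_smul, n₁, n₂, polar_smul_right', polar_add_left, e1, e2, hg]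
    ring
  · rw [polar_sub_right, polar_add_right, polar_smul_right', hv', polar_sub_right, polar_sub_right,
      polar_smul_right', polar_smul_right', hav, a1, b1]
    ring
  · rw [polar_sub_right, polar_add_right, polar_smul_right', hv', polar_sub_right, polar_sub_right,
      polar_smul_right', polar_smul_right', hwv, h1, h2]
    simp

/-- A singular vector not orthogonal to two nonzero vectors. -/
theorem exists_common' (h2F : (2 : F) ≠ 0) (hQ : (polarBilin Q).Nondegenerate) (P : OD Q S R) (hdim : 6 ≤ finrank F S)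
    {y p : ι → F} (hy : y ∈ S) (hp : p ∈ S) (hy0 : y ≠ 0) (hp0 : p ≠ 0) :
    ∃ t ∈ S, Q t = 0 ∧ 𝔣 t y ≠ 0 ∧ 𝔣 t p ≠ 0 := by
  by_cases hpy : p ∈ Submodule.span F {y}
  · obtain ⟨g₁, m₁, g₂, m₂, a1, a2, b1, b2, n₁, n₂, hg⟩ := exists_hyp1 hQ P hdim hy
    have he : g₁ ∉ Submodule.span F {y} := by
      intro h
      obtain ⟨κ, rfl⟩ := Submodule.mem_span_singleton.1 h
      rw [polar_smul_left', b1, mul_zero] at hg
      exact zero_ne_one hg
    obtain ⟨t, ht, h1, -, h3⟩ := exists_u' h2F hQ P hdim hy m₁ (UPair.not_mem_singleton_symm hy0 he) he 1 0 0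
      (Or.inl one_ne_zero)
    refine ⟨t, ht, h3, ?_, ?_⟩
    · rw [polar_comm, h1]
      exact one_ne_zero
    · obtain ⟨κ, rfl⟩ := Submodule.mem_span_singleton.1 hpy
      have hκ : κ ≠ 0 := by
        rintro rfl
        simp at hp0
      rw [polar_comm, polar_smul_left', h1, mul_one]
      exact hκ
  · obtain ⟨t, ht, h1, h2, h3⟩ := exists_u' h2F hQ P hdim hy hp (UPair.not_mem_singleton_symm hy0 hpy) hpy 1 1 0
      (Or.inl one_ne_zero)
    refine ⟨t, ht, h3, ?_, ?_⟩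
    · rw [polar_comm, h1]
      exact one_ne_zero
    · rw [polar_comm, h2]
      exact one_ne_zero

/-- Singular vectors span a part. -/
theorem le_span' (hQ : (polarBilin Q).Nondegenerate) (P : OD Q S R) (hdim : 6 ≤ finrank F S) :
    S ≤ Submodule.span F {v | v ∈ S ∧ Q v = 0} := by
  obtain ⟨g₁, m₁, g₂, m₂, -, -, -, -, n₁, n₂, hg⟩ := exists_hyp1 hQ P hdim (Submodule.zero_mem _)
  intro y hy
  have hg' : 𝔣 g₂ g₁ = 1 := by rw [polar_comm]; exact hg
  set y' := y - 𝔣 y g₂ • g₁ - 𝔣 y g₁ • g₂ with hy'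
  have e1 : 𝔣 y' g₁ = 0 := by
    rw [hy', polar_sub_left, polar_sub_left, polar_smul_left', polar_smul_left', polar_zero_of_singular n₁, hg']
    ring
  have e2 : 𝔣 y' g₂ = 0 := by
    rw [hy', polar_sub_left, polar_sub_left, polar_smul_left', polar_smul_left', polar_zero_of_singular n₂, hg]
    ring
  have hy'S : y' ∈ S := S.sub_mem (S.sub_mem hy (S.smul_mem _ m₁)) (S.smul_mem _ m₂)
  have hw : Q (y' + g₁ - Q y' • g₂) = 0 := by
    rw [Q_sub, Q_add, Q_smul, n₁, n₂, polar_smul_right', polar_add_left, e1, e2, hg]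
    ring
  set I := Submodule.span F {v | v ∈ S ∧ Q v = 0} with hI
  have m3 : y' + g₁ - Q y' • g₂ ∈ I :=
    Submodule.subset_span ⟨S.sub_mem (S.add_mem hy'S m₁) (S.smul_mem _ m₂), hw⟩
  have m4 : g₁ ∈ I := Submodule.subset_span ⟨m₁, n₁⟩
  have m5 : g₂ ∈ I := Submodule.subset_span ⟨m₂, n₂⟩
  have e : y = (y' + g₁ - Q y' • g₂) - g₁ + Q y' • g₂ + 𝔣 y g₂ • g₁ + 𝔣 y g₁ • g₂ := by
    rw [hy']
    module
  rw [e]
  exact I.add_mem (I.add_mem (I.add_mem (I.sub_mem m3 m4) (I.smul_mem _ m5)) (I.smul_mem _ m4)) (I.smul_mem _ m5)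


section Main

variable {M : Subgroup (GL ι F)}

/-- All of `S ∩ u^⊥` is admissible, as soon as one vector of `S` outside of `F u` is. -/
theorem adm_all6 (hQ : (polarBilin Q).Nondegenerate) (P : OD Q S R) (hdim : 6 ≤ finrank F S)
    (hS : ∀ c ∈ S, ∀ hc : Q c = 0, ∀ e ∈ S, ∀ he : 𝔣 c e = 0, eG hc he ∈ M)
    {p u z : ι → F} (hp : p ∈ R) (hu : u ∈ S) (hx : Q (p + u) = 0) (hz : z ∈ adm M hx) (hzS : z ∈ S)
    (hzu : z ∉ Submodule.span F {u}) {b : ι → F} (hb : b ∈ S) (hub : 𝔣 u b = 0) : b ∈ adm M hx := by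
  obtain ⟨c, mc, hQc, huc, hzc⟩ := exists_sing_nonperp1 hQ P hdim hu hzS hzu
  have hcz : 𝔣 c z ≠ 0 := by
    rw [polar_comm]
    exact hzc
  have huz : 𝔣 u z = 0 := by
    have := hz.1
    rwa [polar_add_left, P.orth' hp hzS, zero_add] at this
  have hcp : 𝔣 c p = 0 := P.orth c mc p hp
  have hcu : 𝔣 c u = 0 := by
    rw [polar_comm]
    exact huc
  have hΦ : ∀ e ∈ S, 𝔣 u e = 0 → ∀ hce : 𝔣 c e = 0,
      𝔣 c z • e - 𝔣 e z • c - (Q e * 𝔣 c z) • c ∈ adm M hx := by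
    intro e me hue hce
    have hgM := hS c mc hQc e me hce
    have t1 : 𝔣 c (p + u) = 0 := by rw [polar_add_right, hcp, hcu, add_zero]
    have t2 : 𝔣 e (p + u) = 0 := by
      rw [polar_add_right, P.orth e me p hp, polar_comm, hue, add_zero]
    have e2 : act (eichlerIso hQc hce) (p + u) = p + u := by
      rw [act_eichlerIso, t1, t2]
      module
    have h6 := adm_conj_fix _ hgM hz e2
    rw [act_eichlerIso] at h6
    have h7 := Submodule.sub_mem _ h6 hz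
    have e3 : z + 𝔣 c z • e - 𝔣 e z • c - (Q e * 𝔣 c z) • c - z = 𝔣 c z • e - 𝔣 e z • c - (Q e * 𝔣 c z) • c := by
      abel
    rwa [e3] at h7
  obtain ⟨e₁, me₁, hue₁, hce₁, hn⟩ := exists_perp_not_mem hQ hdim u c
  obtain ⟨w, mw, hw0, hw1⟩ := P.riesz hQ me₁ hn
  have huw : 𝔣 u w = 0 := hw0 u hu (Submodule.subset_span (by simp))
  have hcw : 𝔣 c w = 0 := hw0 c mc (Submodule.subset_span (by simp))
  have hcadm : c ∈ adm M hx := by
    have h1 := hΦ e₁ me₁ hue₁ hce₁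
    have h2 := hΦ w mw huw hcw
    have h3 := hΦ (e₁ + w) (S.add_mem me₁ mw) (by rw [polar_add_right, hue₁, huw, add_zero])
      (by rw [polar_add_right, hce₁, hcw, add_zero])
    have h4 := Submodule.sub_mem _ (Submodule.add_mem _ h1 h2) h3
    have e4 : 𝔣 c z • e₁ - 𝔣 e₁ z • c - (Q e₁ * 𝔣 c z) • c + (𝔣 c z • w - 𝔣 w z • c - (Q w * 𝔣 c z) • c)
        - (𝔣 c z • (e₁ + w) - 𝔣 (e₁ + w) z • c - (Q (e₁ + w) * 𝔣 c z) • c) = 𝔣 c z • c := by
      rw [Q_add, polar_add_left, hw1]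
      module
    rw [e4] at h4
    exact (Submodule.smul_mem_iff _ hcz).1 h4
  have hperp : ∀ e ∈ S, 𝔣 u e = 0 → 𝔣 c e = 0 → e ∈ adm M hx := by
    intro e me hue hce
    have h1 := hΦ e me hue hce
    have h2 := Submodule.add_mem _ (Submodule.add_mem _ h1 (Submodule.smul_mem _ (𝔣 e z) hcadm))
      (Submodule.smul_mem _ (Q e * 𝔣 c z) hcadm)
    have e5 : 𝔣 c z • e - 𝔣 e z • c - (Q e * 𝔣 c z) • c + 𝔣 e z • c + (Q e * 𝔣 c z) • c = 𝔣 c z • e := by
      abel
    rw [e5] at h2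
    exact (Submodule.smul_mem_iff _ hcz).1 h2
  have h8 : b - (𝔣 c b / 𝔣 c z) • z ∈ adm M hx := by
    refine hperp _ (S.sub_mem hb (S.smul_mem _ hzS)) ?_ ?_
    · rw [polar_sub_right, polar_smul_right', hub, huz]
      ring
    · rw [polar_sub_right, polar_smul_right']
      field_simp
      ring
  have e6 : b = (b - (𝔣 c b / 𝔣 c z) • z) + (𝔣 c b / 𝔣 c z) • z := by abel
  rw [e6]
  exact Submodule.add_mem _ h8 (Submodule.smul_mem _ _ hz)

theorem good_of_adm6 (hQ : (polarBilin Q).Nondegenerate) (P : OD Q S R) (hdim : 6 ≤ finrank F S)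
    (hS : ∀ c ∈ S, ∀ hc : Q c = 0, ∀ e ∈ S, ∀ he : 𝔣 c e = 0, eG hc he ∈ M)
    {p u z : ι → F} (hp : p ∈ R) (hu : u ∈ S) (hx : Q (p + u) = 0) (hz : z ∈ adm M hx) (hzS : z ∈ S)
    (hzu : z ∉ Submodule.span F {u}) : Good (Q := Q) M S (p + u) := by
  refine ⟨hx, fun b hb h => ?_⟩
  refine adm_all6 hQ P hdim hS hp hu hx hz hzS hzu hb ?_
  rwa [polar_add_left, P.orth' hp hb, zero_add] at h

/-- The move from `p + u` to `p + v`. -/
theorem good_move_step6 (h2F : (2 : F) ≠ 0) (hQ : (polarBilin Q).Nondegenerate) (P : OD Q S R) (hdim : 6 ≤ finrank F S)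
    (hS : ∀ c ∈ S, ∀ hc : Q c = 0, ∀ e ∈ S, ∀ he : 𝔣 c e = 0, eG hc he ∈ M)
    {p u v : ι → F} (hp : p ∈ R) (hu : u ∈ S) (hv : v ∈ S) (huv : u ∉ Submodule.span F {v})
    (hvu : v ∉ Submodule.span F {u}) (hQuv : Q u = Q v) (hG : Good (Q := Q) M S (p + u)) :
    Good (Q := Q) M S (p + v) := by
  obtain ⟨c, hc, h1, h2, h3⟩ := exists_u' h2F hQ P hdim hu hv huv hvu 1 1 0 (Or.inl one_ne_zero)
  have hce : 𝔣 c (v - u) = 0 := by
    rw [polar_sub_right, polar_comm, h2, polar_comm, h1, sub_self]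
  have e : act (eichlerIso h3 hce) (p + u) = p + v := by
    rw [act_eichlerIso]
    have a1 : 𝔣 c (p + u) = 1 := by
      rw [polar_add_right, polar_comm, P.orth' hp hc, zero_add, polar_comm, h1]
    have a2 : 𝔣 (v - u) (p + u) = 𝔣 v u - 2 * Q u := by
      have b1 : 𝔣 v p = 0 := P.orth v hv p hp
      have b2 : 𝔣 u p = 0 := P.orth u hu p hp
      rw [polar_sub_left, polar_add_right, polar_add_right, b1, b2, polar_self_eq]
      ring
    have a3 : Q (v - u) = 2 * Q u - 𝔣 v u := by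
      rw [Q_sub, ← hQuv]
      ring
    rw [a1, a2, a3]
    module
  rw [← e]
  exact good_conj _ (hS c hc h3 _ (S.sub_mem hv hu) hce) (fun b hb => act_eichler_inv_mem h3 hce hc
    (S.sub_mem hv hu) hb) hG

/-- The move, general case. -/
theorem good_move6 (h2F : (2 : F) ≠ 0) (hQ : (polarBilin Q).Nondegenerate) (P : OD Q S R) (hdim : 6 ≤ finrank F S)
    (hS : ∀ c ∈ S, ∀ hc : Q c = 0, ∀ e ∈ S, ∀ he : 𝔣 c e = 0, eG hc he ∈ M)
    {p u v : ι → F} (hp : p ∈ R) (hu : u ∈ S) (hv : v ∈ S) (hu0 : u ≠ 0) (hv0 : v ≠ 0) (hQuv : Q u = Q v)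
    (hG : Good (Q := Q) M S (p + u)) : Good (Q := Q) M S (p + v) := by
  by_cases hvu : v ∈ Submodule.span F {u}
  swap
  · exact good_move_step6 h2F hQ P hdim hS hp hu hv (UPair.not_mem_singleton_symm hu0 hvu) hvu hQuv hG
  obtain ⟨g₁, m₁, g₂, m₂, a1, a2, b1, b2, n₁, n₂, hg⟩ := exists_hyp1 hQ P hdim hu
  have he : g₁ ∉ Submodule.span F {u} := not_mem_span_singleton_of_polar b1 (by rw [hg]; exact one_ne_zero)
  obtain ⟨w, hw, -, h2, h3⟩ := exists_u' h2F hQ P hdim hu m₁ (UPair.not_mem_singleton_symm hu0 he) he 0 1 (Q u)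
    (Or.inr one_ne_zero)
  have hw0 : w ≠ 0 := by
    rintro rfl
    simp [polar] at h2
  have hwu : w ∉ Submodule.span F {u} := by
    intro hmem
    obtain ⟨κ, rfl⟩ := Submodule.mem_span_singleton.1 hmem
    rw [polar_smul_right', polar_comm, a1, mul_zero] at h2
    exact zero_ne_one h2
  have h4 := good_move_step6 h2F hQ P hdim hS hp hu hw (UPair.not_mem_singleton_symm hu0 hwu) hwu h3.symm hG
  have hwv : w ∉ Submodule.span F {v} := by
    intro hmem
    apply hwu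
    have hle : Submodule.span F {v} ≤ Submodule.span F {u} := (Submodule.span_singleton_le_iff_mem _ _).2 hvu
    exact hle hmem
  exact good_move_step6 h2F hQ P hdim hS hp hw hv hwv (UPair.not_mem_singleton_symm hv0 hwv) (by rw [h3, hQuv]) h4

end Main

/-- The data of the argument. -/
structure Ctx6 (Q : QuadraticForm F (ι → F)) (S R : Submodule F (ι → F)) (M : Subgroup (GL ι F)) : Prop where
  hQ : (polarBilin Q).Nondegenerate
  P : OD Q S R
  hdim : 6 ≤ finrank F S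
  h2F : (2 : F) ≠ 0
  hHM : subspaceStabilizer S ⊓ omegaGL (⇑Q) ≤ M

section Ctx

variable {M : Subgroup (GL ι F)}


theorem Ctx6.hn (C : Ctx6 Q S R M) : 5 ≤ Fintype.card ι := by
  have h1 := Submodule.finrank_le S
  rw [finrank_fintype_fun_eq_card] at h1
  have h2 := C.hdim
  omega

theorem Ctx6.mem (C : Ctx6 Q S R M) (g : ↥(Cfsg.isometryGroup F (⇑Q))) (hg : (g : GL ι F) ∈ omegaGL (⇑Q))
    (h : ∀ x ∈ S, act g x ∈ S) : (g : GL ι F) ∈ M :=
  C.hHM ⟨Basic.mem_subspaceStabilizer_of_le _ _ h, hg⟩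

theorem Ctx6.hS (C : Ctx6 Q S R M) : ∀ c ∈ S, ∀ hc : Q c = 0, ∀ e ∈ S, ∀ he : 𝔣 c e = 0, eG hc he ∈ M := by
  intro c mc hc e me he
  exact C.mem _ (eG_mem_omegaGL C.hQ C.hn _ _) (fun x hx => act_eichler_mem hc he mc me hx)

/-- Additivity of the good vectors in the `R`-part. -/
theorem Ctx6.good_add (C : Ctx6 Q S R M) {p p' u u' : ι → F} (hp : p ∈ R) (hp' : p' ∈ R) (hu : u ∈ S) (hu' : u' ∈ S)
    (hu0 : u ≠ 0) (hu'0 : u' ≠ 0) (hG : Good (Q := Q) M S (p + u)) (hG' : Good (Q := Q) M S (p' + u')) :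
    ∃ w ∈ S, w ≠ 0 ∧ Good (Q := Q) M S ((p + p') + w) := by
  have hQ := C.hQ
  have P := C.P
  have hdim := C.hdim
  have hS := C.hS
  obtain ⟨e, m₁, e', m₂, a1, -, b1, -, n₁, n₂, hg⟩ := exists_hyp1 hQ P hdim hu
  have heu : e ∉ Submodule.span F {u} := not_mem_span_singleton_of_polar b1 (by rw [hg]; exact one_ne_zero)
  obtain ⟨v, hv, h1, h2, h3⟩ := exists_u' C.h2F hQ P hdim hu m₁ (UPair.not_mem_singleton_symm hu0 heu) heu (-𝔣 p p') 1 (Q u')
    (Or.inr one_ne_zero)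
  have hv0 : v ≠ 0 := by
    rintro rfl
    simp [polar] at h2
  have hG'' := good_move6 C.h2F hQ P hdim hS hp' hu' hv hu'0 hv0 h3.symm hG'
  have hvu : v ∉ Submodule.span F {u} := not_mem_span_singleton_of_polar (w := e) a1
    (by rw [polar_comm, h2]; exact one_ne_zero)
  have huv : u ∉ Submodule.span F {v} := UPair.not_mem_singleton_symm hu0 hvu
  obtain ⟨z, mz, c1, c2, hzn'⟩ := exists_perp_not_mem hQ hdim u v
  have hzn : z ∉ Submodule.span F {v, u} := by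
    rw [Set.pair_comm]
    exact hzn'
  have hun : u ∉ Submodule.span F {v, z} := UPair.not_mem_pair huv hzn
  obtain ⟨w, hw, hw0, huw⟩ := P.riesz hQ hu hun
  have hvw : 𝔣 v w = 0 := hw0 v hv (Submodule.subset_span (by simp))
  have hzw : 𝔣 z w = 0 := hw0 z mz (Submodule.subset_span (by simp))
  obtain ⟨hx, hxG⟩ := hG
  obtain ⟨hx', hxG'⟩ := hG''
  have hx'b : 𝔣 (p' + v) (-w) = 0 := by
    rw [polar_add_left, P.orth' hp' (S.neg_mem hw), polar_neg_right, hvw]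
    simp
  have hgM : eG hx' hx'b ∈ M := adm_self (hxG' _ (S.neg_mem hw) hx'b) hx'b
  have hzadm : z ∈ adm M hx := hxG z mz (by rw [polar_add_left, P.orth' hp mz, c1, add_zero])
  have hgx : Q (act (eichlerIso hx' hx'b) (p + u)) = 0 := by
    rw [Q_act]
    exact hx
  have h5 := adm_conj _ hgM hzadm hgx
  have t1 : 𝔣 v (p + u) = 𝔣 v u := by
    have : 𝔣 v p = 0 := P.orth v hv p hp
    rw [polar_add_right, this, zero_add]
  have t2 : 𝔣 p' (p + u) = 𝔣 p' p := by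
    have : 𝔣 p' u = 0 := P.orth' hp' hu
    rw [polar_add_right, this, add_zero]
  have t3 : 𝔣 (p' + v) (p + u) = 0 := by
    rw [polar_add_left, t1, t2, polar_comm (⇑Q) v u, h1, polar_comm (⇑Q) p' p]
    ring
  have t4 : 𝔣 (-w) (p + u) = -1 := by
    have : 𝔣 w p = 0 := P.orth w hw p hp
    rw [polar_neg_left, polar_add_right, this, polar_comm (⇑Q) w u, huw, zero_add]
  have e1 : act (eichlerIso hx' hx'b) (p + u) = (p + p') + (u + v) := by
    rw [act_eichlerIso, t3, t4]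
    module
  have e2 : act (eichlerIso hx' hx'b) z = z := by
    have t5 : 𝔣 (p' + v) z = 0 := by
      rw [polar_add_left, P.orth' hp' mz, c2, add_zero]
    have t6 : 𝔣 (-w) z = 0 := by
      rw [polar_neg_left, polar_comm, hzw, neg_zero]
    rw [act_eichlerIso, t5, t6]
    module
  rw [e2] at h5
  have hxnew : Q ((p + p') + (u + v)) = 0 := by
    rw [← e1]
    exact hgx
  have h6 := adm_congr hxnew e1 h5
  refine ⟨u + v, S.add_mem hu hv, ?_, good_of_adm6 hQ P hdim hS (R.add_mem hp hp') (S.add_mem hu hv) hxnew h6 mz ?_⟩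
  · intro h
    have h7 : 𝔣 e (u + v) = 𝔣 e 0 := by rw [h]
    rw [polar_add_right, polar_comm (⇑Q) e u, a1, h2] at h7
    simp [polar] at h7
  · intro hmem
    apply hzn'
    obtain ⟨κ, rfl⟩ := Submodule.mem_span_singleton.1 hmem
    rw [Submodule.mem_span_pair]
    exact ⟨κ, κ, by rw [smul_add]⟩

theorem good_of_mem_S6 (C : Ctx6 Q S R M) {c : ι → F} (hc : c ∈ S) (hQc : Q c = 0) : Good (Q := Q) M S c :=
  ⟨hQc, fun b hb h => ⟨h, fun t ht => C.hS c hc hQc (t • b) (S.smul_mem _ hb) ht⟩⟩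

theorem Ctx6.exists_good_zero (C : Ctx6 Q S R M) : ∃ u ∈ S, u ≠ 0 ∧ Good (Q := Q) M S (0 + u) := by
  obtain ⟨g₁, m₁, g₂, m₂, -, -, -, -, n₁, n₂, hg⟩ :=
    exists_hyp1 C.hQ C.P C.hdim (Submodule.zero_mem _)
  refine ⟨g₁, m₁, ?_, ?_⟩
  · rintro rfl
    simp [polar] at hg
  · rw [zero_add]
    exact good_of_mem_S6 C m₁ n₁

/-- The `R`-parts of the good vectors form a subspace. -/
theorem Ctx6.exists_proj (C : Ctx6 Q S R M) : ∃ 𝓟 : Submodule F (ι → F), ∀ p, p ∈ 𝓟 ↔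
    p ∈ R ∧ ∃ u ∈ S, u ≠ 0 ∧ Good (Q := Q) M S (p + u) := by
  refine ⟨{ carrier := {p | p ∈ R ∧ ∃ u ∈ S, u ≠ 0 ∧ Good (Q := Q) M S (p + u)},
            add_mem' := ?_,
            zero_mem' := ?_,
            smul_mem' := ?_ }, fun p => Iff.rfl⟩
  · rintro a b ⟨ha, u, hu, hu0, hG⟩ ⟨hb, u', hu', hu'0, hG'⟩
    exact ⟨R.add_mem ha hb, C.good_add ha hb hu hu' hu0 hu'0 hG hG'⟩
  · exact ⟨R.zero_mem, C.exists_good_zero⟩
  · rintro c a ⟨ha, u, hu, hu0, hG⟩
    by_cases hc : c = 0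
    · subst hc
      rw [zero_smul]
      exact ⟨R.zero_mem, C.exists_good_zero⟩
    · refine ⟨R.smul_mem _ ha, c • u, S.smul_mem _ hu, smul_ne_zero hc hu0, ?_⟩
      rw [← smul_add]
      exact good_smul hG hc

/-- The reflections in `R` act on the `R`-parts. -/
theorem Ctx6.good_refl (C : Ctx6 Q S R M) {a p u : ι → F} (ha : a ∈ R) (hQa : Q a ≠ 0) (hp : p ∈ R) (hu : u ∈ S) (hu0 : u ≠ 0)
    (hG : Good (Q := Q) M S (p + u)) : ∃ v ∈ S, v ≠ 0 ∧ Good (Q := Q) M S ((p - ((Q a)⁻¹ * 𝔣 a p) • a) + v) := by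
  have P := C.P
  obtain ⟨c, hc, hc0, hQc⟩ := exists_ne' C.hQ P C.hdim (Q a)
  have hQc' : Q c ≠ 0 := by rwa [hQc]
  set g := reflectionIso Q a hQa * reflectionIso Q c hQc' with hg
  have hgΩ : (g : GL ι F) ∈ omegaGL (⇑Q) := ⟨g, refl_pair_mem C.hQ C.hn hQa hQc' hQc.symm, rfl⟩
  have hra : ∀ y ∈ S, act (reflectionIso Q a hQa) y = y := fun y hy => by
    rw [reflectionIso_act, P.orth' ha hy]
    simp
  have hrc : ∀ y ∈ S, act (reflectionIso Q c hQc') y ∈ S := fun y hy => by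
    rw [reflectionIso_act]
    exact S.sub_mem hy (S.smul_mem _ hc)
  have hgS : ∀ y ∈ S, act g y ∈ S := fun y hy => by
    rw [hg, act_mul, hra _ (hrc y hy)]
    exact hrc y hy
  have hgS' : ∀ y ∈ S, act g⁻¹ y ∈ S := fun y hy => by
    rw [hg, mul_inv_rev, reflectionIso_inv, reflectionIso_inv, act_mul, hra y hy]
    exact hrc y hy
  have hgM : (g : GL ι F) ∈ M := C.mem g hgΩ hgS
  have h1 := good_conj g hgM hgS' hG
  have e : act g (p + u) = (p - ((Q a)⁻¹ * 𝔣 a p) • a) + act (reflectionIso Q c hQc') u := by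
    have t1 : 𝔣 c p = 0 := P.orth c hc p hp
    have t2 : 𝔣 a c = 0 := P.orth' ha hc
    have t3 : 𝔣 a u = 0 := P.orth' ha hu
    rw [hg, act_mul, reflectionIso_act, reflectionIso_act, reflectionIso_act, polar_sub_right, polar_add_right,
      polar_add_right, polar_smul_right', t1, t2, t3]
    module
  rw [e] at h1
  refine ⟨_, hrc u hu, ?_, h1⟩
  intro h
  apply hu0
  have := act_inv_act (reflectionIso Q c hQc') u
  rw [h, act_zero] at this
  exact this.symm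

/-- The Eichler transformations in `R` act on the `R`-parts. -/
theorem Ctx6.good_eichler (C : Ctx6 Q S R M) {a b p u : ι → F} (ha : a ∈ R) (hb : b ∈ R) (hQa : Q a = 0) (hab : 𝔣 a b = 0)
    (hp : p ∈ R) (hu : u ∈ S) (hG : Good (Q := Q) M S (p + u)) :
    Good (Q := Q) M S ((p + 𝔣 a p • b - 𝔣 b p • a - (Q b * 𝔣 a p) • a) + u) := by
  have P := C.P
  have hfix : ∀ {b : ι → F}, b ∈ R → ∀ hab : 𝔣 a b = 0, ∀ y ∈ S, act (eichlerIso hQa hab) y = y := by
    intro b hb hab y hy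
    rw [act_eichlerIso, P.orth' ha hy, P.orth' hb hy]
    simp
  have hgS : ∀ y ∈ S, act (eichlerIso hQa hab) y ∈ S := fun y hy => by
    rw [hfix hb hab y hy]
    exact hy
  have hgS' : ∀ y ∈ S, act (eichlerIso hQa hab)⁻¹ y ∈ S := fun y hy => by
    rw [eichlerIso_inv, hfix (R.neg_mem hb) _ y hy]
    exact hy
  have hgM := C.mem _ (eG_mem_omegaGL C.hQ C.hn hQa hab) hgS
  have h1 := good_conj _ hgM hgS' hG
  have e : act (eichlerIso hQa hab) (p + u) = (p + 𝔣 a p • b - 𝔣 b p • a - (Q b * 𝔣 a p) • a) + u := by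
    rw [act_add, hfix hb hab u hu, act_eichlerIso]
  rwa [e] at h1

/-- Once all `R`-parts occur, all good vectors are centres. -/
theorem Ctx6.good_pts (C : Ctx6 Q S R M) (hall : ∀ r ∈ R, ∃ v ∈ S, v ≠ 0 ∧ Good (Q := Q) M S (r + v)) {p u : ι → F}
    (hp : p ∈ R) (hu : u ∈ S) (hu0 : u ≠ 0) (hG : Good (Q := Q) M S (p + u)) : p + u ∈ pts (Q := Q) M := by
  have hQ := C.hQ
  have P := C.P
  have hdim := C.hdim
  have hS := C.hS
  obtain ⟨hx, hxG⟩ := hG
  suffices hb : ∀ b, 𝔣 (p + u) b = 0 → b ∈ adm M hx from ⟨hx, fun b h => adm_self (hb b h) h⟩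
  intro b hb
  obtain ⟨b₁, hb₁, q, hq, rfl⟩ := P.decomp b
  obtain ⟨v₀, hv₀, hv₀0, hGq⟩ := hall q hq
  obtain ⟨e, m₁, e', m₂, a1, -, b1, -, n₁, n₂, hg⟩ := exists_hyp1 hQ P hdim hu
  have heu : e ∉ Submodule.span F {u} := not_mem_span_singleton_of_polar b1 (by rw [hg]; exact one_ne_zero)
  obtain ⟨v, hv, h1, h2, h3⟩ := exists_u' C.h2F hQ P hdim hu m₁ (UPair.not_mem_singleton_symm hu0 heu) heu (-𝔣 p q) 1 (Q v₀)
    (Or.inr one_ne_zero)
  have hv0 : v ≠ 0 := by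
    rintro rfl
    simp [polar] at h2
  obtain ⟨hy, hyG⟩ := good_move6 C.h2F hQ P hdim hS hq hv₀ hv hv₀0 hv0 h3.symm hGq
  have hxy : 𝔣 (p + u) (q + v) = 0 := by
    have t1 : 𝔣 p v = 0 := P.orth' hp hv
    have t2 : 𝔣 u q = 0 := P.orth u hu q hq
    rw [polar_add_left, polar_add_right, polar_add_right, t1, t2, h1]
    ring
  obtain ⟨g₁, m₁', c1, c2, hg₁n⟩ := exists_perp_not_mem hQ hdim u v
  obtain ⟨g₂, m₂', hg₂0, hgg⟩ := P.riesz hQ m₁' hg₁n
  have d1 : 𝔣 u g₂ = 0 := hg₂0 u hu (Submodule.subset_span (by simp))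
  have d2 : 𝔣 v g₂ = 0 := hg₂0 v hv (Submodule.subset_span (by simp))
  have hyadm : q + v ∈ adm M hx := by
    refine ⟨hxy, fun t h => ?_⟩
    have hQt : Q (t • (q + v)) = 0 := by rw [Q_smul, hy, mul_zero]
    have x1 : 𝔣 (p + u) g₁ = 0 := by rw [polar_add_left, P.orth' hp m₁', c1, add_zero]
    have x2 : 𝔣 (p + u) g₂ = 0 := by rw [polar_add_left, P.orth' hp m₂', d1, add_zero]
    have y1 : 𝔣 (q + v) g₁ = 0 := by rw [polar_add_left, P.orth' hq m₁', c2, add_zero]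
    have y2 : 𝔣 (q + v) g₂ = 0 := by rw [polar_add_left, P.orth' hq m₂', d2, add_zero]
    have y1' : 𝔣 (t • (q + v)) g₁ = 0 := by rw [polar_smul_left', y1, mul_zero]
    have y2' : 𝔣 (t • (q + v)) g₂ = 0 := by rw [polar_smul_left', y2, mul_zero]
    have y3 : 𝔣 (q + v) (t • g₂) = 0 := by rw [polar_smul_right', y2, mul_zero]
    apply comm_mem' hx hQt h x1 x2 y1' y2' hgg (adm_self (hxG g₁ m₁' x1) x1)
    rw [eG, eichlerIso_smul t hy y2' hQt y3]
    exact (hyG g₂ m₂' y2).2 t y3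
  have hrest : b₁ - v ∈ adm M hx := by
    apply hxG _ (S.sub_mem hb₁ hv)
    have t1 : 𝔣 p b₁ = 0 := P.orth' hp hb₁
    have t2 : 𝔣 u q = 0 := P.orth u hu q hq
    have t3 : 𝔣 p v = 0 := P.orth' hp hv
    rw [polar_add_left, polar_add_right, polar_add_right, t1, t2] at hb
    rw [polar_add_left, polar_sub_right, polar_sub_right, t1, t3, h1]
    linear_combination hb
  have e : b₁ + q = (b₁ - v) + (q + v) := by abel
  rw [e]
  exact Submodule.add_mem _ hrest hyadm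

/-- The end of the argument. -/
theorem Ctx6.omega_le (C : Ctx6 Q S R M) (hall : ∀ r ∈ R, ∃ v ∈ S, v ≠ 0 ∧ Good (Q := Q) M S (r + v)) :
    omegaGL (⇑Q) ≤ M := by
  obtain ⟨g₁, m₁, g₂, m₂, -, -, -, -, n₁, n₂, hg⟩ :=
    exists_hyp1 C.hQ C.P C.hdim (Submodule.zero_mem _)
  have h0 : ∀ c ∈ S, c ≠ 0 → Q c = 0 → c ∈ pts (Q := Q) M := fun c hc hc0 hQc => by
    have := C.good_pts hall R.zero_mem hc hc0 (by rw [zero_add]; exact good_of_mem_S6 C hc hQc)
    rwa [zero_add] at this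
  have hg₁ : g₁ ≠ 0 := by
    rintro rfl
    simp [polar] at hg
  have hg₂ : g₂ ≠ 0 := by
    rintro rfl
    simp [polar] at hg
  apply omegaGL_le C.hQ C.hn
  intro a ha
  exact pts_all C.hQ (h0 g₁ m₁ hg₁ n₁) (h0 g₂ m₂ hg₂ n₂) (by rw [hg]; exact one_ne_zero) ha

/-- The first good vector with non-trivial `R`-part. -/
theorem Ctx6.exists_start (C : Ctx6 Q S R M) (g₀ : ↥(Cfsg.isometryGroup F (⇑Q))) (hgM : (g₀ : GL ι F) ∈ M)
    (hg1 : ¬ ∀ x ∈ S, act g₀ x ∈ S) (hg2 : ¬ ∀ x ∈ S, act g₀ x ∈ R) :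
    ∃ p ∈ R, p ≠ 0 ∧ ∃ u ∈ S, u ≠ 0 ∧ Good (Q := Q) M S (p + u) := by
  have hQ := C.hQ
  have P := C.P
  have hdim := C.hdim
  have hS := C.hS
  have hspan : ∀ T : Submodule F (ι → F), (∀ z ∈ S, Q z = 0 → act g₀ z ∈ T) → ∀ x ∈ S, act g₀ x ∈ T := by
    intro T h x hx
    refine Submodule.span_induction (p := fun y _ => act g₀ y ∈ T) ?_ ?_ ?_ ?_ (le_span' hQ P hdim hx)
    · rintro y ⟨h1, h2⟩
      exact h y h1 h2
    · rw [act_zero]
      exact T.zero_mem
    · intro a b _ _ ha hb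
      rw [act_add]
      exact T.add_mem ha hb
    · intro c a _ ha
      rw [act_smul]
      exact T.smul_mem _ ha
  obtain ⟨z₁, hz₁, hQz₁, h1⟩ : ∃ z ∈ S, Q z = 0 ∧ act g₀ z ∉ S := by
    by_contra h
    push_neg at h
    exact hg1 (hspan S h)
  obtain ⟨z₂, hz₂, hQz₂, h2⟩ : ∃ z ∈ S, Q z = 0 ∧ act g₀ z ∉ R := by
    by_contra h
    push_neg at h
    exact hg2 (hspan R h)
  obtain ⟨a, ma, hQa, ha1, ha2⟩ : ∃ a ∈ S, Q a = 0 ∧ act g₀ a ∉ S ∧ act g₀ a ∉ R := by
    by_cases h3 : act g₀ z₁ ∈ R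
    swap
    · exact ⟨z₁, hz₁, hQz₁, h1, h3⟩
    by_cases h4 : act g₀ z₂ ∈ S
    swap
    · exact ⟨z₂, hz₂, hQz₂, h4, h2⟩
    have hz₁0 : z₁ ≠ 0 := by
      rintro rfl
      apply h1
      rw [act_zero]
      exact S.zero_mem
    have hz₂0 : z₂ ≠ 0 := by
      rintro rfl
      apply h2
      rw [act_zero]
      exact R.zero_mem
    obtain ⟨t, ht, hQt, ht1, ht2⟩ := exists_common' C.h2F hQ P hdim hz₁ hz₂ hz₁0 hz₂0
    refine ⟨t, ht, hQt, fun hS' => ht1 ?_, fun hR' => ht2 ?_⟩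
    · rw [← polar_act g₀]
      exact P.orth _ hS' _ h3
    · rw [← polar_act g₀]
      exact P.orth' hR' h4
  obtain ⟨u, hu, p, hp, hdec⟩ := P.decomp (act g₀ a)
  have e0 : act g₀ a = p + u := by
    rw [hdec]
    abel
  have hp0 : p ≠ 0 := by
    rintro rfl
    apply ha1
    rw [e0, zero_add]
    exact hu
  have hu0 : u ≠ 0 := by
    rintro rfl
    apply ha2
    rw [e0, add_zero]
    exact hp
  have hx : Q (p + u) = 0 := by
    rw [← e0, Q_act]
    exact hQa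
  obtain ⟨b, mb, b', mb', a1, -, b1, -, nb, nb', hbb⟩ := exists_hyp1 hQ P hdim ma
  have hbadm : b ∈ adm M hQa := ⟨a1, fun t h => hS a ma hQa _ (S.smul_mem _ mb) h⟩
  have hgx : Q (act g₀ a) = 0 := by
    rw [Q_act]
    exact hQa
  have h5 := adm_congr hx e0 (adm_conj g₀ hgM hbadm hgx)
  have hQy : Q (act g₀ b) = 0 := by
    rw [Q_act]
    exact nb
  obtain ⟨u', hu', p', hp', hdec'⟩ := P.decomp (act g₀ b)
  have e1 : act g₀ b = p' + u' := by
    rw [hdec']
    abel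
  rw [e1] at h5 hQy
  have hyx : ∀ κ : F, p' + u' ≠ κ • (p + u) := by
    intro κ h
    rw [← e0, ← e1, ← act_smul] at h
    have h6 : b = κ • a := by
      have := congrArg (act g₀⁻¹) h
      rwa [act_inv_act, act_inv_act] at this
    rw [h6, polar_smul_left', b1] at hbb
    simp at hbb
  have hxy : 𝔣 (p + u) (p' + u') = 0 := h5.1
  by_cases huu : u' ∈ Submodule.span F {u}
  · -- the `S`-part of `y` is proportional to `u`
    obtain ⟨κ, rfl⟩ := Submodule.mem_span_singleton.1 huu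
    obtain ⟨p₀, hp₀def⟩ : ∃ p₀, p₀ = (p' + κ • u) - κ • (p + u) := ⟨_, rfl⟩
    have hp₀R : p₀ ∈ R := by
      have : p₀ = p' - κ • p := by
        rw [hp₀def]
        module
      rw [this]
      exact R.sub_mem hp' (R.smul_mem _ hp)
    have hp₀0 : p₀ ≠ 0 := by
      intro h
      rw [hp₀def, sub_eq_zero] at h
      exact hyx κ h
    have hQp₀ : Q p₀ = 0 := by
      rw [hp₀def, Q_sub, Q_smul, hQy, hx, polar_smul_right', polar_comm, hxy]
      ring
    have hadm : p₀ ∈ adm M hx := by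
      rw [hp₀def]
      exact Submodule.sub_mem _ h5 (Submodule.smul_mem _ _ (self_mem_adm M hx))
    obtain ⟨e, me, e', me', c1, -, c2, -, nE, nE', hee⟩ := exists_hyp1 hQ P hdim hu
    have hun : u ∉ Submodule.span F {e} := by
      intro hmem
      obtain ⟨α, hαβ⟩ := Submodule.mem_span_singleton.1 hmem
      have h6 : 𝔣 u e' = α := by
        rw [← hαβ, polar_smul_left', hee]
        ring
      rw [c2] at h6
      apply hu0
      rw [← hαβ, ← h6, zero_smul]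
    obtain ⟨c, mc, hQc, hec, huc⟩ := exists_sing_nonperp1 hQ P hdim me hu hun
    have hce : 𝔣 c e = 0 := by
      rw [polar_comm]
      exact hec
    have hs : 𝔣 c u ≠ 0 := by
      rw [polar_comm]
      exact huc
    have hgM' := hS c mc hQc e me hce
    have t1 : 𝔣 c (p + u) = 𝔣 c u := by
      have : 𝔣 c p = 0 := P.orth c mc p hp
      rw [polar_add_right, this, zero_add]
    have t2 : 𝔣 e (p + u) = 0 := by
      have : 𝔣 e p = 0 := P.orth e me p hp
      rw [polar_add_right, this, polar_comm, c1, add_zero]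
    have e2 : act (eichlerIso hQc hce) (p + u) = (p + u) + 𝔣 c u • e := by
      rw [act_eichlerIso, t1, t2, nE]
      module
    have e3 : act (eichlerIso hQc hce) p₀ = p₀ := by
      have a1 : 𝔣 c p₀ = 0 := P.orth c mc p₀ hp₀R
      have a2 : 𝔣 e p₀ = 0 := P.orth e me p₀ hp₀R
      rw [act_eichlerIso, a1, a2, nE]
      module
    have hgx' : Q (act (eichlerIso hQc hce) (p + u)) = 0 := by
      rw [Q_act]
      exact hx
    have h6 := adm_conj _ hgM' hadm hgx'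
    rw [e3] at h6
    have hxs : Q ((p + u) + 𝔣 c u • e) = 0 := by
      rw [← e2]
      exact hgx'
    have h7 := adm_congr hxs e2 h6
    have hse : Q (𝔣 c u • e) = 0 := by
      rw [Q_smul, nE, mul_zero]
    have h8 : p₀ ∈ adm M hse := adm_sub_center hse hQp₀ hadm h7
    have h9 : p₀ ∈ adm M nE := adm_smul_center' nE hs h8
    have h10 : e ∈ adm M hQp₀ := adm_swap hQp₀ h9
    have h11 : Q (p₀ + 0) = 0 := by
      rw [add_zero]
      exact hQp₀
    have h12 : e ∈ adm M h11 := adm_congr h11 (add_zero _).symm h10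
    have he0 : e ≠ 0 := by
      rintro rfl
      simp [polar] at hee
    have hne : e ∉ Submodule.span F {(0 : ι → F)} := by
      simpa using he0
    have hall : ∀ b ∈ S, b ∈ adm M h11 := fun b hb =>
      adm_all6 hQ P hdim hS hp₀R S.zero_mem h11 h12 me hne hb (by simp [polar])
    obtain ⟨z, mz, z', mz', d1, -, d2, -, nz, nz', hzz⟩ := exists_hyp1 hQ P hdim me
    have h13 : z ∈ adm M hQp₀ := adm_congr hQp₀ (add_zero _) (hall z mz)
    have h14 : z ∈ adm M nE := ⟨d1, fun t h => hS e me nE _ (S.smul_mem _ mz) h⟩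
    have hsum : Q (p₀ + e) = 0 := by
      have : 𝔣 p₀ e = 0 := P.orth' hp₀R me
      rw [Q_add, hQp₀, nE, this]
      ring
    have h15 : z ∈ adm M hsum := adm_add_center hsum nz h13 h14
    have hzn : z ∉ Submodule.span F {e} := not_mem_span_singleton_of_polar d2 (by rw [hzz]; exact one_ne_zero)
    exact ⟨p₀, hp₀R, hp₀0, e, me, he0, good_of_adm6 hQ P hdim hS hp₀R me hsum h15 mz hzn⟩
  · -- the `S`-part of `y` is not proportional to `u`
    obtain ⟨c, mc, hQc, huc, hsc⟩ := exists_sing_nonperp1 hQ P hdim hu hu' huu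
    have hs : 𝔣 c u' ≠ 0 := by
      rw [polar_comm]
      exact hsc
    obtain ⟨e, me, hue, hce, hen⟩ := exists_perp_not_mem hQ hdim u c
    have hgM' := hS c mc hQc e me hce
    have t1 : 𝔣 c (p + u) = 0 := by
      have : 𝔣 c p = 0 := P.orth c mc p hp
      rw [polar_add_right, this, polar_comm, huc, zero_add]
    have t2 : 𝔣 e (p + u) = 0 := by
      have : 𝔣 e p = 0 := P.orth e me p hp
      rw [polar_add_right, this, polar_comm, hue, add_zero]
    have e2 : act (eichlerIso hQc hce) (p + u) = p + u := by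
      rw [act_eichlerIso, t1, t2]
      module
    have e3 : act (eichlerIso hQc hce) (p' + u') =
        (p' + u') + (𝔣 c u' • e - 𝔣 e u' • c - (Q e * 𝔣 c u') • c) := by
      have a1 : 𝔣 c (p' + u') = 𝔣 c u' := by
        have : 𝔣 c p' = 0 := P.orth c mc p' hp'
        rw [polar_add_right, this, zero_add]
      have a2 : 𝔣 e (p' + u') = 𝔣 e u' := by
        have : 𝔣 e p' = 0 := P.orth e me p' hp'
        rw [polar_add_right, this, zero_add]
      rw [act_eichlerIso, a1, a2]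
      abel
    have h6 := adm_conj_fix _ hgM' h5 e2
    rw [e3] at h6
    have h7 : 𝔣 c u' • e - 𝔣 e u' • c - (Q e * 𝔣 c u') • c ∈ adm M hx := by
      have := Submodule.sub_mem _ h6 h5
      simpa using this
    have hzS : 𝔣 c u' • e - 𝔣 e u' • c - (Q e * 𝔣 c u') • c ∈ S :=
      S.sub_mem (S.sub_mem (S.smul_mem _ me) (S.smul_mem _ mc)) (S.smul_mem _ mc)
    have hne : 𝔣 c u' • e - 𝔣 e u' • c - (Q e * 𝔣 c u') • c ∉ Submodule.span F {u} := by
      intro hmem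
      obtain ⟨κ, hκ⟩ := Submodule.mem_span_singleton.1 hmem
      apply hen
      rw [Submodule.mem_span_pair]
      refine ⟨(𝔣 c u')⁻¹ * κ, (𝔣 c u')⁻¹ * (𝔣 e u' + Q e * 𝔣 c u'), ?_⟩
      have e4 : 𝔣 c u' • e = κ • u + (𝔣 e u' + Q e * 𝔣 c u') • c := by
        rw [hκ]
        module
      calc ((𝔣 c u')⁻¹ * κ) • u + ((𝔣 c u')⁻¹ * (𝔣 e u' + Q e * 𝔣 c u')) • c
          = (𝔣 c u')⁻¹ • (κ • u + (𝔣 e u' + Q e * 𝔣 c u') • c) := by module
        _ = (𝔣 c u')⁻¹ • (𝔣 c u' • e) := by rw [e4]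
        _ = e := by rw [smul_smul, inv_mul_cancel₀ hs, one_smul]
    exact ⟨p, hp, hp0, u, hu, hu0, good_of_adm6 hQ P hdim hS hp hu hx h7 hzS hne⟩

/-- All `R`-parts occur. -/
theorem Ctx6.all_parts (C : Ctx6 Q S R M) (hexc : ¬ (Fintype.card F ≤ 3 ∧ finrank F R = 2 ∧ ∃ z ∈ R, z ≠ 0 ∧ Q z = 0))
    (hstart : ∃ p ∈ R, p ≠ 0 ∧ ∃ u ∈ S, u ≠ 0 ∧ Good (Q := Q) M S (p + u)) :
    ∀ r ∈ R, ∃ v ∈ S, v ≠ 0 ∧ Good (Q := Q) M S (r + v) := by
  obtain ⟨𝓟, h𝓟⟩ := C.exists_proj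
  obtain ⟨p, hp, hp0, u, hu, hu0, hG⟩ := hstart
  have hle : 𝓟 ≤ R := fun x hx => ((h𝓟 x).1 hx).1
  have hne : 𝓟 ≠ ⊥ := by
    intro h
    apply hp0
    have : p ∈ 𝓟 := (h𝓟 p).2 ⟨hp, u, hu, hu0, hG⟩
    rw [h] at this
    exact this
  have hall : R ≤ 𝓟 := by
    apply proj_eq (Q := Q) (fun x hx hx0 => C.P.symm.nd C.hQ hx hx0) hle hne _ _ hexc
    · intro a ha hQa p hp hs
      obtain ⟨hpR, u, hu, hu0, hG⟩ := (h𝓟 p).1 hp
      have h1 := (h𝓟 _).2 ⟨R.sub_mem hpR (R.smul_mem _ ha), C.good_refl ha hQa hpR hu hu0 hG⟩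
      have h2 := 𝓟.sub_mem hp h1
      have e : p - (p - ((Q a)⁻¹ * 𝔣 a p) • a) = ((Q a)⁻¹ * 𝔣 a p) • a := by abel
      rw [e] at h2
      exact (Submodule.smul_mem_iff _ (mul_ne_zero (inv_ne_zero hQa) hs)).1 h2
    · intro y hy hQy w hw hyw p hp hwp hs
      obtain ⟨hpR, u, hu, hu0, hG⟩ := (h𝓟 p).1 hp
      have h1 : p + 𝔣 y p • w - 𝔣 w p • y - (Q w * 𝔣 y p) • y ∈ 𝓟 := by
        refine (h𝓟 _).2 ⟨R.sub_mem (R.sub_mem (R.add_mem hpR (R.smul_mem _ hw)) (R.smul_mem _ hy))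
          (R.smul_mem _ hy), u, hu, hu0, C.good_eichler hy hw hQy hyw hpR hu hG⟩
      have h2 := 𝓟.sub_mem h1 hp
      have e : p + 𝔣 y p • w - 𝔣 w p • y - (Q w * 𝔣 y p) • y - p = 𝔣 y p • (w - Q w • y) := by
        rw [hwp]
        module
      rw [e] at h2
      exact (Submodule.smul_mem_iff _ hs).1 h2
  exact fun r hr => ((h𝓟 r).1 (hall hr)).2

end Ctx

/-- The stabiliser in `Ω` of a non-degenerate subspace is maximal, apart from small exceptions. -/
theorem isMaximalIn_stab6 (h2F : (2 : F) ≠ 0) (hQ : (polarBilin Q).Nondegenerate) (P : OD Q S R) (hdim : 6 ≤ finrank F S) (hR0 : R ≠ ⊥)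
    (hnoemb : ∀ g : ↥(Cfsg.isometryGroup F (⇑Q)), ¬ ∀ s ∈ S, act g s ∈ R)
    (hexc : ¬ (Fintype.card F ≤ 3 ∧ finrank F R = 2 ∧ ∃ z ∈ R, z ≠ 0 ∧ Q z = 0)) :
    IsMaximalIn (omegaGL (⇑Q)) (subspaceStabilizer S ⊓ omegaGL (⇑Q)) := by
  have hn5 : 5 ≤ Fintype.card ι := by
    have h1 := Submodule.finrank_le S
    rw [finrank_fintype_fun_eq_card] at h1
    omega
  refine ⟨lt_of_le_of_ne inf_le_right ?_, ?_⟩
  · intro heq
    obtain ⟨y, hy, hy0⟩ : ∃ y ∈ R, y ≠ 0 := by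
      by_contra h
      push_neg at h
      exact hR0 ((Submodule.eq_bot_iff _).2 h)
    obtain ⟨u, hu, hu0, hQu⟩ := exists_ne' hQ P hdim (-Q y)
    have hx : Q (y + u) = 0 := by
      have : 𝔣 y u = 0 := P.orth' hy hu
      rw [Q_add, hQu, this]
      ring
    obtain ⟨e, me, e', me', c1, -, c2, -, nE, nE', hee⟩ := exists_hyp1 hQ P hdim hu
    have hb : 𝔣 (y + u) e = 0 := by
      rw [polar_add_left, P.orth' hy me, c1, add_zero]
    have hm : eG hx hb ∈ subspaceStabilizer S ⊓ omegaGL (⇑Q) := by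
      rw [heq]
      exact eG_mem_omegaGL hQ hn5 _ _
    have h1 := ((Basic.mem_subspaceStabilizer_iff _ _).1 hm.1 e').1 me'
    have h2 : 𝔣 (y + u) e' = 0 := by
      rw [polar_add_left, P.orth' hy me', c2, add_zero]
    rw [eG_mulVec, h2, hee, nE] at h1
    have h3 : y ∈ S := by
      have h5 := S.sub_mem (S.sub_mem h1 me') (S.neg_mem hu)
      have h6 : e' + (0 : F) • e - (1 : F) • (y + u) - ((0 : F) * 0) • (y + u) - e' - -u = -y := by
        module
      rw [h6] at h5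
      simpa using S.neg_mem h5
    exact hy0 (by
      have : y ∈ S ⊓ R := ⟨h3, hy⟩
      rw [P.compl.inf_eq_bot] at this
      exact this)
  · intro M hHM hMΩ
    by_cases hMH : M ≤ subspaceStabilizer S ⊓ omegaGL (⇑Q)
    · exact Or.inl (le_antisymm hMH hHM)
    right
    apply le_antisymm hMΩ
    obtain ⟨g, hgM, hgH⟩ := SetLike.not_le_iff_exists.1 hMH
    have hgΩ := hMΩ hgM
    have hgiso : g ∈ Cfsg.isometryGroup F (⇑Q) := omegaGL_le_iso hgΩ
    have C : Ctx6 Q S R M := ⟨hQ, P, hdim, h2F, hHM⟩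
    apply C.omega_le
    apply C.all_parts hexc
    refine C.exists_start ⟨g, hgiso⟩ hgM ?_ (hnoemb ⟨g, hgiso⟩)
    intro h
    exact hgH ⟨Basic.mem_subspaceStabilizer_of_le _ _ h, hgΩ⟩


end Cfsg.Agent.Lib.Classical.Geo.ONondeg6
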