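/-
The stabiliser in `Ω` of a non-degenerate subspace which is not of half the dimension, in dimension at least ten
and in odd characteristic.
-/
import Mathlib
import Cfsg.Agent.Lib.Classical.Geo.ONondeg6
import Cfsg.Agent.Lib.Classical.Geo.ONondegMax

set_option autoImplicit false
set_option linter.unusedSectionVars false

namespace Cfsg.Agent.Lib.Classical.Geo.ONondegMax6

open Module Cfsg Cfsg.Geo QuadraticMap
open Cfsg.Agent.Lib.Classical.Geo.ONondeg
open Cfsg.Agent.Lib.Classical.Geo.ONondeg6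
open Cfsg.Agent.Lib.Classical.Geo.ONondegMax

variable {ι : Type} [Fintype ι] [DecidableEq ι] {F : Type*} [Field F] [Fintype F]
variable {Q : QuadraticForm F (ι → F)}

set_option quotPrecheck false in
local notation "𝔣" => polar (⇑Q)

/-- The stabiliser in `Ω` of a non-degenerate subspace which is not of half the dimension. -/
theorem isMaximalIn_nondeg10 (h2F : (2 : F) ≠ 0) (hQ : (polarBilin Q).Nondegenerate) {W : Submodule F (ι → F)}
    (hW0 : W ≠ ⊥) (hW1 : W ≠ ⊤)
    (hW : IsNondegenerateOn (polar (⇑Q)) W) (h10 : 10 ≤ Fintype.card ι) (hne : 2 * finrank F W ≠ Fintype.card ι)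
    (hex : ¬ (Fintype.card F ≤ 3 ∧ ∃ U : Submodule F (ι → F), finrank F U = 2 ∧ IsNondegenerateOn (polar (⇑Q)) U ∧
      IsPlusTypeOn (⇑Q) U ∧ (U = W ∨ (AreOrthogonalFor (polar (⇑Q)) U W ∧ finrank F U + finrank F W = Fintype.card ι)))) :
    IsMaximalIn (omegaGL (⇑Q)) (subspaceStabilizer W ⊓ omegaGL (⇑Q)) := by
  obtain ⟨U, P, hdims⟩ := exists_od hQ hW
  have hU0 : U ≠ ⊥ := by
    rintro rfl
    apply hW1
    have := P.compl.sup_eq_top
    simpa using this
  by_cases hlt : Fintype.card ι < 2 * finrank F W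
  · refine isMaximalIn_stab6 h2F hQ P (by omega) hU0 (noemb_of_lt (by omega)) ?_
    rintro ⟨hq, hf, z, hz, hz0, hQz⟩
    exact hex ⟨hq, U, hf, OD.nondegOn hQ P.symm, plane_plus hf hz hz0 hQz,
      Or.inr ⟨fun a ha b hb => P.orth' ha hb, by omega⟩⟩
  · rw [OD.stab_eq hQ P]
    refine isMaximalIn_stab6 h2F hQ P.symm (by omega) hW0 (noemb_of_lt (by omega)) ?_
    rintro ⟨hq, hf, z, hz, hz0, hQz⟩
    exact hex ⟨hq, W, hf, hW, plane_plus hf hz hz0 hQz, Or.inl rfl⟩

end Cfsg.Agent.Lib.Classical.Geo.ONondegMax6
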