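/-
Two orthogonal isometric halves of even dimension force plus type.
-/
import Mathlib
import Cfsg.Agent.Lib.Classical.Geo.ONondegMax
import Cfsg.Agent.Lib.Classical.Witt.Lagrangian

set_option autoImplicit false
set_option linter.unusedSectionVars false

namespace Cfsg.Agent.Lib.Classical.Geo.ONondegMinus

open scoped Matrix
open Module Cfsg Cfsg.Geo QuadraticMap
open Cfsg.Agent.Lib.Classical.Orth.Basic
open Cfsg.Agent.Lib.Classical.Geo.OPts
open Cfsg.Agent.Lib.Classical.Geo.ONondeg
open Cfsg.Agent.Lib.Classical.Geo.ONondegMax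

variable {ι : Type} [Fintype ι] [DecidableEq ι] {F : Type*} [Field F] [Fintype F]
variable {Q : QuadraticForm F (ι → F)}

set_option quotPrecheck false in
local notation "𝔣" => polar (⇑Q)

variable {W U : Submodule F (ι → F)}

theorem exists_equiv_of_act (hf : finrank F W = finrank F U) (g : ↥(Cfsg.isometryGroup F (⇑Q)))
    (hg : ∀ s ∈ W, act g s ∈ U) : ∃ e : W ≃ₗ[F] U, ∀ w : W, (e w : ι → F) = act g w := by
  let L : W →ₗ[F] U :=
    { toFun := fun x => ⟨act g x, hg x x.2⟩
      map_add' := fun x y => Subtype.ext (by simp [act_add])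
      map_smul' := fun c x => Subtype.ext (by simp [act_smul]) }
  have hinj : Function.Injective L := by
    intro x y h
    have h1 : act g x = act g y := congrArg Subtype.val h
    have h2 := congrArg (act g⁻¹) h1
    rw [act_inv_act, act_inv_act] at h2
    exact Subtype.ext h2
  exact ⟨LinearEquiv.ofInjectiveOfFinrankEq L hinj hf, fun w => rfl⟩

/-- Characteristic two: the graph of the isometry. -/
theorem plus_of_iso_two (P : OD Q W U) (h2 : (2 : F) = 0) (g : ↥(Cfsg.isometryGroup F (⇑Q)))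
    (hg : ∀ s ∈ W, act g s ∈ U) (hcard : 2 * finrank F W = Fintype.card ι) : IsPlusTypeOn (⇑Q) ⊤ := by
  let L : W →ₗ[F] (ι → F) :=
    { toFun := fun x => (x : ι → F) + act g x
      map_add' := fun x y => by
        simp only [Submodule.coe_add, act_add]
        abel
      map_smul' := fun c x => by
        simp only [Submodule.coe_smul, act_smul, RingHom.id_apply, smul_add] }
  have hinj : Function.Injective L := by
    rw [← LinearMap.ker_eq_bot, LinearMap.ker_eq_bot']
    intro x hx
    have h1 : (x : ι → F) + act g x = 0 := hx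
    have h3 : (x : ι → F) ∈ W ⊓ U := by
      refine ⟨x.2, ?_⟩
      have : (x : ι → F) = -act g x := eq_neg_of_add_eq_zero_left h1
      rw [this]
      exact U.neg_mem (hg x x.2)
    rw [P.compl.inf_eq_bot] at h3
    exact Subtype.ext h3
  refine ⟨LinearMap.range L, le_top, ?_, ?_⟩
  · rintro _ ⟨x, rfl⟩
    change Q ((x : ι → F) + act g x) = 0
    rw [Q_add, Q_act, P.orth _ x.2 _ (hg x x.2)]
    have : Q (x : ι → F) + Q (x : ι → F) = 2 * Q (x : ι → F) := by ring
    rw [add_zero, this, h2, zero_mul]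
  · rw [LinearMap.finrank_range_of_inj hinj, finrank_top, finrank_fintype_fun_eq_card, hcard]

/-- Odd characteristic: the discriminant. -/
theorem plus_of_iso_odd (hQ : (polarBilin Q).Nondegenerate) (P : OD Q W U) (h2 : (2 : F) ≠ 0)
    (g : ↥(Cfsg.isometryGroup F (⇑Q))) (hg : ∀ s ∈ W, act g s ∈ U) (hf : finrank F W = finrank F U)
    (hcard : 2 * finrank F W = Fintype.card ι) (hev : Even (finrank F W)) (hk : 1 ≤ finrank F W) :
    IsPlusTypeOn (⇑Q) ⊤ := by
  obtain ⟨e, he⟩ := exists_equiv_of_act hf g hg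
  set k := finrank F W with hkdef
  let bW : Basis (Fin k) F W := Module.finBasisOfFinrankEq F W rfl
  let bU : Basis (Fin k) F U := bW.map e
  let bb : Basis (Fin k ⊕ Fin k) F (ι → F) := (bW.prod bU).map (Submodule.prodEquivOfIsCompl W U P.compl)
  have hb1 : ∀ i, bb (Sum.inl i) = (bW i : ι → F) := fun i => by
    simp [bb]
  have hb2 : ∀ i, bb (Sum.inr i) = act g (bW i : ι → F) := fun i => by
    simp [bb, bU, he]
  set B : LinearMap.BilinForm F (ι → F) := polarBilin Q with hB
  have hBnd : B.Nondegenerate := hQ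
  have hS : B.IsSymm := by
    constructor
    intro x y
    simp [hB, polarBilin_apply_apply, polar_comm]
  let A : Matrix (Fin k) (Fin k) F := Matrix.of fun i j => B (bW i : ι → F) (bW j : ι → F)
  have hgram : (Matrix.of fun i j => B (bb i) (bb j)) = Matrix.fromBlocks A 0 0 A := by
    ext i j
    rcases i with i | i <;> rcases j with j | j
    · simp [hb1, A]
    · simp only [Matrix.of_apply, hb1, hb2, Matrix.fromBlocks_apply₁₂, Matrix.zero_apply]
      exact P.orth _ (bW i).2 _ (hg _ (bW j).2)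
    · simp only [Matrix.of_apply, hb1, hb2, Matrix.fromBlocks_apply₂₁, Matrix.zero_apply]
      exact P.orth' (hg _ (bW i).2) (bW j).2
    · simp only [Matrix.of_apply, hb2, Matrix.fromBlocks_apply₂₂, A]
      exact polar_act g _ _
  have hsq : IsSquare ((-1 : F) ^ k * (Matrix.of fun i j => B (bb i) (bb j)).det) := by
    rw [hgram, Matrix.det_fromBlocks_zero₂₁, hev.neg_one_pow, one_mul]
    exact ⟨A.det, rfl⟩
  obtain ⟨X, hX, hXB⟩ := (Cfsg.Agent.Lib.Classical.Witt.Lagrangian.exists_lagrangian_iff h2 B hS hBnd hk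
    (by rw [finrank_fintype_fun_eq_card, hcard]) bb).2 hsq
  refine ⟨X, le_top, ?_, ?_⟩
  · intro x hx
    have h3 : 𝔣 x x = 0 := hXB x hx x hx
    rw [polar_self_eq] at h3
    exact (mul_eq_zero.1 h3).resolve_left h2
  · rw [hX, finrank_top, finrank_fintype_fun_eq_card, hcard]

theorem plus_of_iso (hQ : (polarBilin Q).Nondegenerate) (P : OD Q W U)
    (g : ↥(Cfsg.isometryGroup F (⇑Q))) (hg : ∀ s ∈ W, act g s ∈ U) (hf : finrank F W = finrank F U)
    (hcard : 2 * finrank F W = Fintype.card ι) (hev : Even (finrank F W)) (hk : 1 ≤ finrank F W) :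
    IsPlusTypeOn (⇑Q) ⊤ := by
  by_cases h2 : (2 : F) = 0
  · exact plus_of_iso_two P h2 g hg hcard
  · exact plus_of_iso_odd hQ P h2 g hg hf hcard hev hk

/-- Minus type: the stabiliser of a non-degenerate subspace. -/
theorem isMaximalIn_minus (hQ : (polarBilin Q).Nondegenerate) (hminus : ¬ IsPlusTypeOn (⇑Q) ⊤)
    {W : Submodule F (ι → F)} (hW0 : W ≠ ⊥) (hW1 : W ≠ ⊤) (hW : IsNondegenerateOn (polar (⇑Q)) W)
    (h13 : 13 ≤ Fintype.card ι) (hdim : ¬ (2 * finrank F W = Fintype.card ι ∧ Odd (finrank F W)))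
    (hex : ¬ (Fintype.card F ≤ 3 ∧ ∃ U : Submodule F (ι → F), finrank F U = 2 ∧ IsNondegenerateOn (polar (⇑Q)) U ∧
      IsPlusTypeOn (⇑Q) U ∧ (U = W ∨ (AreOrthogonalFor (polar (⇑Q)) U W ∧ finrank F U + finrank F W = Fintype.card ι)))) :
    IsMaximalIn (omegaGL (⇑Q)) (subspaceStabilizer W ⊓ omegaGL (⇑Q)) := by
  by_cases hne : 2 * finrank F W = Fintype.card ι
  · have hev : Even (finrank F W) := by
      rw [← Nat.not_odd_iff_even]
      exact fun h => hdim ⟨hne, h⟩
    obtain ⟨U, P, hdims⟩ := exists_od hQ hW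
    refine isMaximalIn_stab hQ P (by omega) ?_ ?_ ?_
    · rintro rfl
      rw [finrank_bot] at hdims
      omega
    · intro g hg
      exact hminus (plus_of_iso hQ P g hg (by omega) hne hev (by omega))
    · rintro ⟨-, hfd, -⟩
      omega
  · exact isMaximalIn_nondeg hQ hW0 hW1 hW h13 hne hex

end Cfsg.Agent.Lib.Classical.Geo.ONondegMinus
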