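/-
The orthogonal group of a quadratic form is maximal in the symplectic group, in even characteristic.

Proof (Dye): every symplectic transvection is `T_w : x ↦ x + B(x, w) w` for a unique `w`, and `T_w` is
orthogonal iff `Q(w) = 1`.  An overgroup `M` of the orthogonal group containing `g` non-orthogonal contains
`g T_v g⁻¹ = T_{gv}` with `Q(v) = 1`, `Q(gv) ≠ 1`; conjugating transvections we get all values of `Q` and
since the orthogonal transvections are transitive on vectors of given norm, all `T_w` lie in `M`.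
-/
import Mathlib
import Cfsg.Agent.Lib.Classical.Geo.SympSim
import Cfsg.Agent.Lib.Classical.Symp.Basic

set_option autoImplicit false
set_option linter.unusedSectionVars false

namespace Cfsg.Agent.Lib.Classical.Geo.OrthInSp

open scoped Matrix
open Module Cfsg Cfsg.Geo Cfsg.Agent.Lib.Classical.Geo.Basic Cfsg.Agent.Lib.Classical.Geo.SympSim
open LinearMap.BilinForm

variable {ι : Type} [Fintype ι] [DecidableEq ι] {F : Type*} [Field F] [Fintype F] [CharP F 2]

theorem exists_sqrt (a : F) : ∃ s : F, s ^ 2 = a := by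
  obtain ⟨s, hs⟩ := FiniteField.isSquare_of_char_two (ringChar.eq F 2) a
  exact ⟨s, by rw [hs, sq]⟩

theorem two_zero : (2 : F) = 0 := CharTwo.two_eq_zero

variable {B : LinearMap.BilinForm F (ι → F)} {Q : (ι → F) → F}

section Lemmas

variable (hA : B.IsAlt) (hN : B.Nondegenerate)
  (hadd : ∀ u v, Q (u + v) = Q u + Q v + B u v)
  (hsmul : ∀ (c : F) v, Q (c • v) = c ^ 2 * Q v)

include hA hN hadd hsmul

theorem exists_hyp (X : Submodule F (ι → F)) (hX : 2 * finrank F X + 6 ≤ Fintype.card ι) :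
    ∃ z₁ z₂ : ι → F, z₁ ∈ B.orthogonal X ∧ z₂ ∈ B.orthogonal X ∧ Q z₁ = 0 ∧ Q z₂ = 0 ∧ B z₁ z₂ = 1 := by
  have hdim : finrank F (ι → F) = Fintype.card ι := by simp
  have hR : B.IsRefl := hA.isRefl
  have h2 := two_zero (F := F)
  -- a first vector
  have hex : ∀ X Y : Submodule F (ι → F), finrank F X + finrank F Y < Fintype.card ι →
      ∃ a ∈ B.orthogonal X, a ∉ Y := by
    intro X Y hXY
    by_contra hcon
    push Not at hcon
    have h1 := Submodule.finrank_mono (show B.orthogonal X ≤ Y from hcon)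
    rw [finrank_orthogonal hN, hdim] at h1
    omega
  obtain ⟨a, ha, haX⟩ := hex X X (by omega)
  let X' := X ⊔ Submodule.span F {a}
  have hX'dim : finrank F X' = finrank F X + 1 := Submodule.finrank_sup_span_singleton haX
  obtain ⟨b, hb, hbX'⟩ := hex X' X' (by omega)
  have hXX' : X ≤ X' := le_sup_left
  have haX' : a ∈ X' := Submodule.mem_sup_right (Submodule.mem_span_singleton_self a)
  have hb' : b ∈ B.orthogonal X := orthogonal_le hXX' hb
  have hab : B a b = 0 := hb a haX'
  -- a singular vector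
  obtain ⟨z₁, hz₁, hz₁X, hQz₁⟩ : ∃ z₁ ∈ B.orthogonal X, z₁ ∉ X ∧ Q z₁ = 0 := by
    by_cases hQa : Q a = 0
    · exact ⟨a, ha, haX, hQa⟩
    obtain ⟨s, hs⟩ := exists_sqrt (Q b)
    obtain ⟨t, ht⟩ := exists_sqrt (Q a)
    have ht0 : t ≠ 0 := by
      rintro rfl
      apply hQa
      rw [← ht]
      simp
    refine ⟨s • a + t • b, Submodule.add_mem _ (Submodule.smul_mem _ _ ha)
      (Submodule.smul_mem _ _ hb'), ?_, ?_⟩
    · intro hmem
      apply hbX'
      have h3 : t • b ∈ X' := by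
        have : t • b = (s • a + t • b) - s • a := by abel
        rw [this]
        exact Submodule.sub_mem _ (hXX' hmem) (Submodule.smul_mem _ _ haX')
      have := Submodule.smul_mem _ t⁻¹ h3
      rwa [smul_smul, inv_mul_cancel₀ ht0, one_smul] at this
    · rw [hadd, hsmul, hsmul, hs, ht]
      simp only [map_smul, LinearMap.smul_apply, smul_eq_mul, hab, mul_zero, add_zero]
      linear_combination (Q a * Q b) * h2
  -- a partner
  have hz₁' : z₁ ∉ B.orthogonal (B.orthogonal X) := by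
    rwa [orthogonal_orthogonal hN hR]
  rw [mem_orthogonal_iff] at hz₁'
  push Not at hz₁'
  obtain ⟨y, hy, hyz⟩ := hz₁'
  have hzy : B z₁ y ≠ 0 := by
    intro h0
    exact hyz (hR _ _ h0)
  have hyz' : B y z₁ = - B z₁ y := (hA.neg_eq z₁ y).symm
  obtain ⟨y', hy'mem, h1, h1'⟩ : ∃ y' ∈ B.orthogonal X, B z₁ y' = 1 ∧ B y' z₁ = 1 := by
    refine ⟨(B z₁ y)⁻¹ • y, Submodule.smul_mem _ _ hy, ?_, ?_⟩
    · rw [map_smul, smul_eq_mul, inv_mul_cancel₀ hzy]
    · rw [map_smul, LinearMap.smul_apply, smul_eq_mul, hyz', mul_neg, inv_mul_cancel₀ hzy]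
      linear_combination -h2
  refine ⟨z₁, y' + Q y' • z₁, hz₁, Submodule.add_mem _ hy'mem (Submodule.smul_mem _ _ hz₁), hQz₁, ?_, ?_⟩
  · rw [hadd, hsmul, hQz₁, map_smul, h1', smul_eq_mul]
    linear_combination (Q y') * h2
  · rw [map_add, map_smul, h1, smul_eq_mul]
    have : B z₁ z₁ = 0 := hA z₁
    rw [this]
    ring

theorem exists_value (X : Submodule F (ι → F)) (hX : 2 * finrank F X + 6 ≤ Fintype.card ι)
    (y : ι → F) (b : F) : ∃ z ∈ B.orthogonal X, Q (y + z) = b := by
  obtain ⟨z₁, z₂, h1, h2, h3, h4, h5⟩ := exists_hyp hA hN hadd hsmul X hX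
  have h0 := two_zero (F := F)
  set p := B y z₁ with hp
  set r := B y z₂ with hr
  set α := 1 + r with hα
  set β := Q y + r * p + b + p with hβ
  refine ⟨α • z₁ + β • z₂, Submodule.add_mem _ (Submodule.smul_mem _ _ h1)
    (Submodule.smul_mem _ _ h2), ?_⟩
  rw [hadd, hadd, hsmul, hsmul, h3, h4]
  simp only [map_add, map_smul, LinearMap.smul_apply, smul_eq_mul, h5, ← hp, ← hr]
  have e : (2 : F) = 0 := h0
  rw [hβ, hα]
  linear_combination (Q y + 2 * r * p + p + r * Q y + r ^ 2 * p + r * b) * e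

end Lemmas

/-- The transvection `x ↦ x + B(x, w) w`. -/
noncomputable def TT (hA : B.IsAlt) (w : ι → F) : GL ι F := tT B w w (hA w)

section Lemmas2

variable (hA : B.IsAlt)

@[simp] theorem TT_mulVec (w x : ι → F) :
    ((TT hA w : GL ι F) : Matrix ι ι F) *ᵥ x = x + B x w • w := by
  simp [TT]

include hA in
theorem TT_isometry (w x y : ι → F) :
    B (((TT hA w : GL ι F) : Matrix ι ι F) *ᵥ x) (((TT hA w : GL ι F) : Matrix ι ι F) *ᵥ y) = B x y := by
  have e : B w y = - B y w := Cfsg.Agent.Lib.Classical.Symp.AltForm.alt_swap hA w y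
  simp only [TT_mulVec, map_add, map_smul, LinearMap.add_apply, LinearMap.smul_apply, smul_eq_mul,
    hA w, e]
  ring

include hA in
theorem conj_TT (s : GL ι F)
    (hs : ∀ x y, B ((s : Matrix ι ι F) *ᵥ x) ((s : Matrix ι ι F) *ᵥ y) = B x y) (w : ι → F) :
    s * TT hA w * s⁻¹ = TT hA ((s : Matrix ι ι F) *ᵥ w) := by
  have := conj_tT_isometry hA s hs w w (hA w) (by rw [hs]; exact hA w)
  exact this

theorem TT_eq_one_of_zero : TT hA (0 : ι → F) = 1 := by
  apply gl_ext
  intro x
  simp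

variable (hadd : ∀ u v, Q (u + v) = Q u + Q v + B u v)
  (hsmul : ∀ (c : F) v, Q (c • v) = c ^ 2 * Q v)

include hadd hsmul

theorem Q_TT (w x : ι → F) :
    Q (((TT hA w : GL ι F) : Matrix ι ι F) *ᵥ x) = Q x + (B x w) ^ 2 * (Q w + 1) := by
  rw [TT_mulVec, hadd, hsmul, map_smul, smul_eq_mul]
  ring

/-- A norm one transvection moves `x` to `y` if `Q x = Q y` and `B x y ≠ 0`. -/
theorem exists_move {x y : ι → F} (hxy : Q x = Q y) (h : B x y ≠ 0) :
    ∃ v, Q v = 1 ∧ ((TT hA v : GL ι F) : Matrix ι ι F) *ᵥ x = y := by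
  have h0 := two_zero (F := F)
  obtain ⟨s, hs⟩ := exists_sqrt (B x y)⁻¹
  have hs1 : s ^ 2 * B x y = 1 := by
    rw [hs, inv_mul_cancel₀ h]
  refine ⟨s • (x + y), ?_, ?_⟩
  · rw [hsmul, hadd, ← hxy]
    linear_combination hs1 + (s ^ 2 * Q x) * h0
  · rw [TT_mulVec, map_smul, map_add, hA x, zero_add, smul_eq_mul, smul_smul]
    have e : s * B x y * s = 1 := by
      linear_combination hs1
    have hxx : x + x = 0 := by
      ext i
      exact CharTwo.add_self_eq_zero _
    rw [e, one_smul, ← add_assoc, hxx, zero_add]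

end Lemmas2

section Trans

variable (hA : B.IsAlt) (hN : B.Nondegenerate)
  (hadd : ∀ u v, Q (u + v) = Q u + Q v + B u v)
  (hsmul : ∀ (c : F) v, Q (c • v) = c ^ 2 * Q v)

include hA hN hadd hsmul

theorem TT_trans (hcard : 10 ≤ Fintype.card ι) (M : Subgroup (GL ι F))
    (hM : ∀ v, Q v = 1 → TT hA v ∈ M) {x y : ι → F} (hx : x ≠ 0) (hy : y ≠ 0) (hxy : Q x = Q y)
    (hTx : TT hA x ∈ M) : TT hA y ∈ M := by
  have hstep : ∀ {x y : ι → F}, Q x = Q y → B x y ≠ 0 → TT hA x ∈ M → TT hA y ∈ M := by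
    intro x y hxy hB hTx
    obtain ⟨v, hv, hvx⟩ := exists_move hA hadd hsmul hxy hB
    have := conj_TT hA (TT hA v) (TT_isometry hA v) x
    rw [hvx] at this
    rw [← this]
    exact mul_mem (mul_mem (hM v hv) hTx) (inv_mem (hM v hv))
  by_cases hB : B x y = 0
  swap
  · exact hstep hxy hB hTx
  have hN' : ∀ z : ι → F, z ≠ 0 → ∃ w, B z w ≠ 0 := by
    intro z hz
    by_contra hcon
    push Not at hcon
    exact hz (hN.1 z hcon)
  obtain ⟨y₀, -, h1, h2⟩ := Cfsg.Agent.Lib.Classical.Symp.AltForm.exists_common_nonorth hA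
    (W := ⊤) (fun z _ hz => (hN' z hz).imp fun w hw => ⟨trivial, hw⟩) trivial trivial hx hy
  let X : Submodule F (ι → F) := Submodule.span F (Set.range ![x, y])
  have hXdim : finrank F X ≤ 2 := by
    have := finrank_range_le_card (R := F) ![x, y]
    simpa [Set.finrank] using this
  obtain ⟨z, hz, hQz⟩ := exists_value hA hN hadd hsmul X (by omega) y₀ (Q x)
  have hxz : B x z = 0 := hz x (Submodule.subset_span ⟨0, rfl⟩)
  have hyz : B y z = 0 := hz y (Submodule.subset_span ⟨1, rfl⟩)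
  have e1 : B x (y₀ + z) ≠ 0 := by
    rw [map_add, hxz, add_zero]
    exact h1
  have e2 : B (y₀ + z) y ≠ 0 := by
    have := hA.neg_eq y (y₀ + z)
    rw [← this]
    simp only [map_add, hyz, add_zero]
    exact neg_ne_zero.2 h2
  have hw := hstep hQz.symm e1 hTx
  exact hstep (hQz.trans hxy) e2 hw

/-- Every vector of norm one, or vector `x ≠ 0`, has an orthogonal vector of norm one. -/
theorem exists_orth_one (hcard : 8 ≤ Fintype.card ι) (x : ι → F) :
    ∃ u, B u x = 0 ∧ Q u = 1 := by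
  have hdim : finrank F (Submodule.span F (Set.range ![x])) ≤ 1 := by
    have := finrank_range_le_card (R := F) ![x]
    simpa [Set.finrank] using this
  obtain ⟨z, hz, hQz⟩ := exists_value hA hN hadd hsmul (Submodule.span F (Set.range ![x])) (by omega) 0 1
  refine ⟨z, ?_, by simpa using hQz⟩
  have hR : B.IsRefl := hA.isRefl
  exact hR _ _ (hz x (Submodule.subset_span ⟨0, rfl⟩))

end Trans

section Main

open Cfsg.Agent.Lib.Classical.Symp.Basic

/-- All transvections in `M` give the whole isometry group. -/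
theorem isom_le_of_TT {F : Type*} [Field F] [Fintype F] [CharP F 2] {ι : Type} [Fintype ι]
    [DecidableEq ι] {B : LinearMap.BilinForm F (ι → F)} (hA : B.IsAlt) (hN : B.Nondegenerate)
    (M : Subgroup (GL ι F)) (hM : ∀ w, TT hA w ∈ M) (h : GL ι F)
    (hh : ∀ x y, B ((h : Matrix ι ι F) *ᵥ x) ((h : Matrix ι ι F) *ᵥ y) = B x y) : h ∈ M := by
  let e : (ι → F) ≃ₗ[F] (ι → F) := LinearEquiv.ofLinearMap (Matrix.toLin' (h : Matrix ι ι F))
    (Matrix.toLin' ((h⁻¹ : GL ι F) : Matrix ι ι F))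
    (LinearMap.ext fun x => by
      simpa [Matrix.toLin'_apply] using mulVec_inv_mulVec h x)
    (LinearMap.ext fun x => by
      simpa [Matrix.toLin'_apply] using inv_mulVec_mulVec h x)
  have hee : ∀ x, e x = (h : Matrix ι ι F) *ᵥ x := fun x => by
    simp [e, Matrix.toLin'_apply]
  have hmem : e ∈ Cfsg.Agent.Lib.Classical.Symp.AltForm.IsomGroup B := by
    intro x y
    rw [hee, hee]
    exact hh x y
  rw [← Cfsg.Agent.Lib.Classical.Symp.AltForm.tvGroup_univ_eq_isomGroup hA hN] at hmem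
  have key : ∀ e' ∈ Cfsg.Agent.Lib.Classical.Symp.AltForm.tvGroup hA (Set.univ : Set (ι → F)),
      glOfEquiv e' ∈ M := by
    intro e' he'
    unfold Cfsg.Agent.Lib.Classical.Symp.AltForm.tvGroup at he'
    induction he' using Subgroup.closure_induction with
    | mem g hg =>
      obtain ⟨w, -, c, rfl⟩ := hg
      obtain ⟨s, hs⟩ := exists_sqrt c
      have : glOfEquiv (Cfsg.Agent.Lib.Classical.Symp.AltForm.tv hA w c) = TT hA (s • w) := by
        apply gl_ext
        intro x
        rw [glOfEquiv_mulVec, Cfsg.Agent.Lib.Classical.Symp.AltForm.tv_apply, TT_mulVec, ← hs,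
          map_smul, smul_eq_mul, smul_smul]
        congr 2
        ring
      rw [this]
      exact hM _
    | one =>
      have : glOfEquiv (1 : (ι → F) ≃ₗ[F] (ι → F)) = 1 := by
        apply gl_ext
        intro x
        simp
      rw [this]
      exact one_mem _
    | mul a b _ _ ha hb =>
      have : glOfEquiv (a * b) = glOfEquiv a * glOfEquiv b := by
        apply gl_ext
        intro x
        rw [glOfEquiv_mulVec, Units.val_mul, ← Matrix.mulVec_mulVec, glOfEquiv_mulVec,
          glOfEquiv_mulVec]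
        rfl
      rw [this]
      exact mul_mem ha hb
    | inv a _ ha =>
      have : glOfEquiv a⁻¹ = (glOfEquiv a)⁻¹ := by
        apply eq_inv_of_mul_eq_one_left
        apply gl_ext
        intro x
        rw [Units.val_mul, ← Matrix.mulVec_mulVec, glOfEquiv_mulVec, glOfEquiv_mulVec, Units.val_one,
          Matrix.one_mulVec]
        exact a.symm_apply_apply x
      rw [this]
      exact inv_mem ha
  have : glOfEquiv e = h := by
    apply gl_ext
    intro x
    rw [glOfEquiv_mulVec, hee]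
  rw [← this]
  exact key e hmem

theorem isMaximalIn_orth {F : Type*} [Field F] [Fintype F] (m : ℕ) (hm : 7 ≤ m)
    (heven : ¬ Odd (Fintype.card F)) (Q : (Fin m ⊕ Fin m → F) → F)
    (hQ : IsNondegenerateQuadraticForm Q)
    (hpol : ∀ u v, QuadraticMap.polar Q u v = Cfsg.sympForm m F u v) :
    IsMaximalIn (Cfsg.spGL m F) (quadSimilarityGroup Q ⊓ Cfsg.spGL m F) := by
  classical
  have hchar : ringChar F = 2 := by
    apply FiniteField.even_card_iff_char_two.2
    rw [Nat.even_iff.symm.trans (by rfl : Even (Fintype.card F) ↔ Even (Fintype.card F))] 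
    exact Nat.not_odd_iff_even.1 heven
  have : CharP F 2 := ringChar.of_eq hchar
  have h20 := two_zero (F := F)
  let B := sympBilin m F
  have hA : B.IsAlt := sympBilin_isAlt
  have hN : B.Nondegenerate := sympBilin_nondegenerate
  have hadd : ∀ u v, Q (u + v) = Q u + Q v + B u v := by
    intro u v
    have := hpol u v
    rw [QuadraticMap.polar] at this
    change _ = _ + _ + Cfsg.sympForm m F u v
    rw [← this]
    ring
  have hsmul := hQ.smul
  have hQ0 : Q 0 = 0 := by
    have := hsmul 0 0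
    simpa using this
  have hcard : Fintype.card (Fin m ⊕ Fin m) = 2 * m := by
    simp
    ring
  have hTsp : ∀ w, TT hA w ∈ Cfsg.spGL m F := fun w x y => TT_isometry hA w x y
  have hTH : ∀ v, Q v = 1 → TT hA v ∈ quadSimilarityGroup Q ⊓ Cfsg.spGL m F := by
    intro v hv
    refine ⟨⟨1, fun x => ?_⟩, hTsp v⟩
    rw [Q_TT hA hadd hsmul, hv, Units.val_one, one_mul]
    linear_combination (B x v) ^ 2 * h20
  constructor
  · obtain ⟨z₁, z₂, -, -, h1, h2, h3⟩ := exists_hyp hA hN hadd hsmul ⊥ (by simp; omega)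
    refine lt_of_le_of_mem_not_mem inf_le_right (hTsp z₁) ?_
    rintro ⟨⟨c, hc⟩, -⟩
    obtain ⟨u, hu, hQu⟩ := exists_orth_one hA hN hadd hsmul (by omega) z₁
    have e1 := hc u
    rw [TT_mulVec, hu, zero_smul, add_zero, hQu, mul_one] at e1
    have e2 := hc z₂
    rw [Q_TT hA hadd hsmul, h1, h2, mul_zero] at e2
    have e3 : B z₂ z₁ = - 1 := by
      rw [← hA.neg_eq z₁ z₂, h3]
    rw [e3] at e2
    have : (1 : F) = 0 := by
      linear_combination e2
    exact one_ne_zero this
  · intro M hPM hMS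
    by_cases hMP : M ≤ quadSimilarityGroup Q ⊓ Cfsg.spGL m F
    · exact Or.inl (le_antisymm hMP hPM)
    right
    apply le_antisymm hMS
    obtain ⟨g, hgM, hgP⟩ := SetLike.not_le_iff_exists.1 hMP
    have hgS := hMS hgM
    have hgB : ∀ x y, B ((g : Matrix (Fin m ⊕ Fin m) (Fin m ⊕ Fin m) F) *ᵥ x) ((g : Matrix (Fin m ⊕ Fin m) (Fin m ⊕ Fin m) F) *ᵥ y) = B x y := hgS
    have hM1 : ∀ v, Q v = 1 → TT hA v ∈ M := fun v hv => hPM (hTH v hv)
    obtain ⟨v, hv, hgv⟩ : ∃ v, Q v = 1 ∧ Q ((g : Matrix (Fin m ⊕ Fin m) (Fin m ⊕ Fin m) F) *ᵥ v) ≠ 1 := by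
      by_contra hcon
      push Not at hcon
      apply hgP
      refine ⟨⟨1, fun x => ?_⟩, hgS⟩
      rw [Units.val_one, one_mul]
      by_cases hx : Q x = 0
      · obtain ⟨u, hu, hQu⟩ := exists_orth_one hA hN hadd hsmul (by omega) x
        have h1 : Q (u + x) = 1 := by
          rw [hadd, hQu, hx, hu]
          ring
        have h2 := hcon _ h1
        rw [Matrix.mulVec_add, hadd, hgB, hu, hcon u hQu] at h2
        rw [hx]
        linear_combination h2
      · obtain ⟨s, hs⟩ := exists_sqrt (Q x)⁻¹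
        have h1 : Q (s • x) = 1 := by
          rw [hsmul, hs, inv_mul_cancel₀ hx]
        have h2 := hcon _ h1
        rw [Matrix.mulVec_smul, hsmul, hs] at h2
        field_simp at h2
        exact h2
    set w₀ := (g : Matrix (Fin m ⊕ Fin m) (Fin m ⊕ Fin m) F) *ᵥ v with hw₀
    have hv0 : v ≠ 0 := by
      rintro rfl
      rw [hQ0] at hv
      exact zero_ne_one hv
    have hw₀0 : w₀ ≠ 0 := by
      intro h
      apply hv0
      apply mulVec_injective g
      change (g : Matrix (Fin m ⊕ Fin m) (Fin m ⊕ Fin m) F) *ᵥ v = (g : Matrix (Fin m ⊕ Fin m) (Fin m ⊕ Fin m) F) *ᵥ 0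
      rw [← hw₀, h, Matrix.mulVec_zero]
    have hTw₀ : TT hA w₀ ∈ M := by
      rw [hw₀, ← conj_TT hA g hgB v]
      exact mul_mem (mul_mem hgM (hM1 v hv)) (inv_mem hgM)
    have ha1 : 1 + Q w₀ ≠ 0 := by
      intro h
      apply hgv
      linear_combination h - h20
    -- all values of `Q`
    have hval : ∀ b, ∃ w, w ≠ 0 ∧ Q w = b ∧ TT hA w ∈ M := by
      intro b
      obtain ⟨t, ht⟩ := exists_sqrt ((1 + b) * (1 + Q w₀)⁻¹)
      obtain ⟨y, hy⟩ : ∃ y, B y w₀ ≠ 0 := by
        by_contra hcon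
        push Not at hcon
        exact hw₀0 (hN.2 w₀ hcon)
      have hdim : finrank F (Submodule.span F (Set.range ![w₀])) ≤ 1 := by
        have := finrank_range_le_card (R := F) ![w₀]
        simpa [Set.finrank] using this
      obtain ⟨z, hz, hQz⟩ := exists_value hA hN hadd hsmul (Submodule.span F (Set.range ![w₀]))
        (by omega) (((B y w₀)⁻¹ * t) • y) 1
      have hzw : B z w₀ = 0 := hA.isRefl _ _ (hz w₀ (Submodule.subset_span ⟨0, rfl⟩))
      set u := ((B y w₀)⁻¹ * t) • y + z with hu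
      have huw : B u w₀ = t := by
        rw [hu, map_add, LinearMap.add_apply, hzw, add_zero, map_smul, LinearMap.smul_apply,
          smul_eq_mul]
        field_simp
      have hu0 : u ≠ 0 := by
        rintro hu0
        rw [hu0, hQ0] at hQz
        exact zero_ne_one hQz
      refine ⟨((TT hA w₀ : GL (Fin m ⊕ Fin m) F) : Matrix (Fin m ⊕ Fin m) (Fin m ⊕ Fin m) F) *ᵥ u, ?_, ?_, ?_⟩
      · intro h
        apply hu0
        apply mulVec_injective (TT hA w₀)
        change ((TT hA w₀ : GL (Fin m ⊕ Fin m) F) : Matrix (Fin m ⊕ Fin m) (Fin m ⊕ Fin m) F) *ᵥ u = ((TT hA w₀ : GL (Fin m ⊕ Fin m) F) : Matrix (Fin m ⊕ Fin m) (Fin m ⊕ Fin m) F) *ᵥ 0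
        rw [h, Matrix.mulVec_zero]
      · rw [Q_TT hA hadd hsmul, hQz, huw, ht, add_comm (Q w₀) 1, mul_assoc, inv_mul_cancel₀ ha1]
        linear_combination h20
      · rw [← conj_TT hA (TT hA w₀) (TT_isometry hA w₀) u]
        exact mul_mem (mul_mem hTw₀ (hM1 u hQz)) (inv_mem hTw₀)
    have hall : ∀ w, TT hA w ∈ M := by
      intro w
      by_cases hw : w = 0
      · subst hw
        rw [TT_eq_one_of_zero]
        exact one_mem _
      · obtain ⟨w', hw'0, hw'Q, hw'M⟩ := hval (Q w)
        exact TT_trans hA hN hadd hsmul (by omega) M hM1 hw'0 hw hw'Q hw'M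
    intro h hh
    exact isom_le_of_TT hA hN M hall h hh

end Main

end Cfsg.Agent.Lib.Classical.Geo.OrthInSp
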