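/-
The similarity group of a non-degenerate quadratic form in odd characteristic is maximal in the special linear group.

Proof: for `g` in an overgroup `M`, not a similarity, the conjugate `P` of a Siegel element by `g`, commutated with a
suitable Siegel element `R`, gives a transvection.  Conjugating with another Siegel element gives a transvection with
isotropic centre and axis, and the orthogonal group is transitive on such pairs, including all scalings.  Every
transvection is a product of those.
-/
import Mathlib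
import Cfsg.Agent.Lib.Classical.Geo.OForm

set_option autoImplicit false
set_option linter.unusedSectionVars false

namespace Cfsg.Agent.Lib.Classical.Geo.OrthSim

open scoped Matrix
open Module Cfsg Cfsg.Geo Cfsg.Agent.Lib.Classical.Geo.Basic Cfsg.Agent.Lib.Classical.Geo.SympSim
open Cfsg.Agent.Lib.Classical.Geo.OForm

variable {ι : Type} [Fintype ι] [DecidableEq ι] {F : Type*} [Field F] [Fintype F]
  {f : (ι → F) → (ι → F) → F} (hf : IsSymForm f)

include hf

/-- Every vector orthogonal to `u` is a sum of three isotropic vectors orthogonal to `u`. -/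
theorem exists_iso_decomp (u y : ι → F) (huy : f u y = 0) (h : 9 ≤ Fintype.card ι) :
    ∃ a b c, f a a = 0 ∧ f b b = 0 ∧ f c c = 0 ∧ f u a = 0 ∧ f u b = 0 ∧ f u c = 0 ∧ y = a + b + c := by
  obtain ⟨z₁, z₂, m₁, m₂, n₁, n₂, e⟩ := exists_value hf ![u, y] (by simpa using h) y 0
  have a0 := perp_apply hf m₁ 0
  have b0 := perp_apply hf m₂ 0
  simp only [Matrix.cons_val_zero] at a0 b0
  refine ⟨y + z₁ + z₂, -z₁, -z₂, e, ?_, ?_, ?_, ?_, ?_, ?_⟩
  · rw [neg_left hf, neg_right hf, n₁, neg_zero, neg_zero]
  · rw [neg_left hf, neg_right hf, n₂, neg_zero, neg_zero]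
  · rw [add_right hf, add_right hf, huy, a0, b0, add_zero, add_zero]
  · rw [neg_right hf, a0, neg_zero]
  · rw [neg_right hf, b0, neg_zero]
  · abel

/-- A linear map with all isotropic vectors as eigenvectors is scalar. -/
theorem eigen_scalar (E : (ι → F) →ₗ[F] (ι → F)) (hE : ∀ a, f a a = 0 → ∃ l : F, E a = l • a)
    (h : 11 ≤ Fintype.card ι) : ∃ l : F, ∀ z, E z = l • z := by
  have h20 := hf.two_ne
  obtain ⟨p, r, -, -, hpp, hrr, hpr⟩ := exists_hyp hf (k := 0) ![] (by simp; omega)
  obtain ⟨l, hl⟩ := hE p hpp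
  -- the key step
  have key : ∀ a b : ι → F, f a a = 0 → f b b = 0 → f a b ≠ 0 → ∀ m : F, E b = m • b → E a = m • a := by
    intro a b ha hb hab m hm
    obtain ⟨h₁, h₂, m₁, m₂, n₁, n₂, e⟩ := exists_hyp hf ![a, b] (by simpa using (by omega : 9 ≤ Fintype.card ι))
    have a0 := (mem_perp hf).1 m₁ 0
    have a1 := (mem_perp hf).1 m₁ 1
    have b0 := (mem_perp hf).1 m₂ 0
    have b1 := (mem_perp hf).1 m₂ 1
    simp only [Matrix.cons_val_zero, Matrix.cons_val_one] at a0 a1 b0 b1
    set c := h₁ + h₂ with hc
    have hcc : f c c = 2 := by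
      rw [hc, self_add hf, n₁, n₂, e]
      ring
    have hca : f c a = 0 := by rw [hc, hf.add_left, a0, b0, add_zero]
    have hcb : f c b = 0 := by rw [hc, hf.add_left, a1, b1, add_zero]
    have hac := swap_zero hf hca
    have hbc := swap_zero hf hcb
    have hba : f b a = f a b := hf.symm _ _
    set t := -(f a b)⁻¹ with ht
    have ht0 : t ≠ 0 := neg_ne_zero.2 (inv_ne_zero hab)
    have hts : t * f a b = -1 := by
      rw [ht]
      field_simp
    have hy₁ : f (a + t • b + c) (a + t • b + c) = 0 := by
      simp only [hf.add_left, add_right hf, hf.smul_left, smul_right hf, ha, hb, hca, hcb, hac, hbc, hba, hcc]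
      linear_combination 2 * hts
    have hy₂ : f (a + t • b - c) (a + t • b - c) = 0 := by
      simp only [sub_left hf, sub_right hf, hf.add_left, add_right hf, hf.smul_left, smul_right hf, ha, hb, hca,
        hcb, hac, hbc, hba, hcc]
      linear_combination 2 * hts
    obtain ⟨m₁', hm₁⟩ := hE a ha
    obtain ⟨l₁, hl₁⟩ := hE _ hy₁
    obtain ⟨l₂, hl₂⟩ := hE _ hy₂
    have hsum : (a + t • b + c) + (a + t • b - c) = (2 : F) • a + (2 * t) • b := by
      rw [two_smul, mul_smul, two_smul]
      abel
    have heq : (2 * m₁') • a + (2 * t * m) • b = l₁ • (a + t • b + c) + l₂ • (a + t • b - c) := by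
      rw [← hl₁, ← hl₂, ← map_add, hsum, map_add, map_smul, map_smul, hm₁, hm, smul_smul, smul_smul]
    have e1 := congrArg (fun v => f v c) heq
    simp only [sub_left hf, hf.add_left, hf.smul_left, hac, hbc, hcc] at e1
    have e2 := congrArg (fun v => f v b) heq
    simp only [sub_left hf, hf.add_left, hf.smul_left, hb, hcb] at e2
    have e3 := congrArg (fun v => f v a) heq
    simp only [sub_left hf, hf.add_left, hf.smul_left, ha, hca, hba] at e3
    have h1 : l₁ = l₂ := by
      have : (l₁ - l₂) * 2 = 0 := by linear_combination -e1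
      rcases mul_eq_zero.1 this with h | h
      · exact sub_eq_zero.1 h
      · exact absurd h h20
    subst h1
    have h2 : m₁' = l₁ := by
      have : 2 * (f a b) * (m₁' - l₁) = 0 := by linear_combination e2
      rcases mul_eq_zero.1 this with h | h
      · exact absurd h (mul_ne_zero h20 hab)
      · exact sub_eq_zero.1 h
    have h3 : m = l₁ := by
      have : 2 * t * (f a b) * (m - l₁) = 0 := by linear_combination e3
      rcases mul_eq_zero.1 this with h | h
      · exact absurd h (mul_ne_zero (mul_ne_zero h20 ht0) hab)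
      · exact sub_eq_zero.1 h
    rw [hm₁, h2, h3]
  have hall : ∀ a : ι → F, f a a = 0 → E a = l • a := by
    intro a ha
    by_cases hap : f a p = 0
    swap
    · exact key a p ha hpp hap l hl
    by_cases hmem : a ∈ Submodule.span F {p}
    · obtain ⟨κ, rfl⟩ := Submodule.mem_span_singleton.1 hmem
      rw [map_smul, hl, smul_comm]
    have hp0 : p ≠ 0 := by
      rintro rfl
      rw [zero_left hf] at hpr
      exact zero_ne_one hpr
    obtain ⟨d, hdd, -, hpd, had⟩ := exists_iso hf (p := 0) (x := p) (y := a) (by simpa using hp0)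
      (by simpa using hmem) 1 1 h
    have hdp : f d p ≠ 0 := by
      rw [hf.symm, hpd]
      exact one_ne_zero
    have h1 := key d p hdd hpp hdp l hl
    exact key a d ha hdd (by rw [had]; exact one_ne_zero) l h1
  refine ⟨l, fun z => ?_⟩
  obtain ⟨a, b, c, ha, hb, hc', -, -, -, rfl⟩ := exists_iso_decomp hf 0 z (zero_left hf z) (by omega)
  rw [map_add, map_add, hall a ha, hall b hb, hall c hc', smul_add, smul_add]

/-- Once a subgroup containing the isometries contains a transvection with independent isotropic centre and axis,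
it contains the special linear group. -/
theorem specialLinear_le_of_iso_pair [Nontrivial ι] (hcard : 11 ≤ Fintype.card ι) (M : Subgroup (GL ι F))
    (hIso : isoGroup hf ≤ M) {a₁ b₁ : ι → F} (ha₁a₁ : f a₁ a₁ = 0) (hb₁b₁ : f b₁ b₁ = 0) (ha₁b₁ : f a₁ b₁ = 0)
    (ha₁0 : a₁ ≠ 0) (hb₁m : b₁ ∉ Submodule.span F {a₁}) (hT₂ : T hf a₁ b₁ ha₁b₁ ∈ M) :
    specialLinear ι F ≤ M := by
  -- all isotropic pairs
  have hiii' : ∀ (a' b' : ι → F), f a' a' = 0 → f b' b' = 0 → (hab : f a' b' = 0) → a' ≠ 0 →
      b' ∉ Submodule.span F {a'} → T hf a' b' hab ∈ M := by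
    intro a' b' ha' hb' hab ha'0 hb'm
    obtain ⟨s, hs, e₁, e₂⟩ := exists_pair_move hf ha₁a₁ hb₁b₁ ha' hb' ha₁b₁ hab ha₁0 ha'0 hb₁m hb'm hcard
    have hs' := ((mem_isoGroup hf).1 hs).1
    have hconj := T_conj_iso hf s hs' a₁ b₁ ha₁b₁
    have hmem : s * T hf a₁ b₁ ha₁b₁ * s⁻¹ ∈ M := mul_mem (mul_mem (hIso hs) hT₂) (inv_mem (hIso hs))
    rw [hconj, T_congr hf e₁ e₂] at hmem
    exact hmem
  -- isotropic centre and isotropic axis
  have hiv : ∀ (v b : ι → F), f v v = 0 → f b b = 0 → (hvb : f v b = 0) → T hf v b hvb ∈ M := by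
    intro v b hv hb hvb
    by_cases hv0 : v = 0
    · subst hv0
      rw [T_zero_left]
      exact one_mem _
    by_cases hb0 : b = 0
    · subst hb0
      rw [T_zero_right]
      exact one_mem _
    by_cases hbm : b ∈ Submodule.span F {v}
    swap
    · exact hiii' v b hv hb hvb hv0 hbm
    obtain ⟨ρ, hρ⟩ := Submodule.mem_span_singleton.1 hbm
    have hρ0 : ρ ≠ 0 := by
      rintro rfl
      apply hb0
      rw [← hρ, zero_smul]
    have hvb' : v = ρ⁻¹ • b := by rw [← hρ, smul_smul, inv_mul_cancel₀ hρ0, one_smul]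
    obtain ⟨d, z₂, m₁, m₂, n₁, n₂, e⟩ := exists_hyp hf ![b] (by simpa using (by omega : 7 ≤ Fintype.card ι))
    have hdb : f d b = 0 := (mem_perp hf).1 m₁ 0
    have hbz : f b z₂ = 0 := perp_apply hf m₂ 0
    have hvz : f v z₂ = 0 := by rw [hvb', hf.smul_left, hbz, mul_zero]
    have hdv : f d v = 0 := by rw [hvb', smul_right hf, hdb, mul_zero]
    have h1 : f (d + v) (d + v) = 0 := by
      rw [self_add hf, n₁, hv, hdv]
      ring
    have h2 : f (d + v) b = 0 := by rw [hf.add_left, hdb, hvb, add_zero]
    have h3 : f (d + v) z₂ = 1 := by rw [hf.add_left, e, hvz, add_zero]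
    have h4 : f (-d) (-d) = 0 := by rw [neg_left hf, neg_right hf, n₁, neg_zero, neg_zero]
    have h5 : f (-d) b = 0 := by rw [neg_left hf, hdb, neg_zero]
    have h6 : f (-d) z₂ = -1 := by rw [neg_left hf, e]
    have hm1 : T hf (d + v) b h2 ∈ M := by
      apply hiii' _ _ h1 hb h2
      · rintro h0
        rw [h0, zero_left hf] at h3
        exact zero_ne_one h3
      · intro hmem
        obtain ⟨μ, hμ⟩ := Submodule.mem_span_singleton.1 hmem
        rw [← hμ, hf.smul_left, h3, mul_one] at hbz
        apply hb0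
        rw [← hμ, hbz, zero_smul]
    have hm2 : T hf (-d) b h5 ∈ M := by
      apply hiii' _ _ h4 hb h5
      · rintro h0
        rw [h0, zero_left hf] at h6
        have : (1 : F) = 0 := by linear_combination h6
        exact one_ne_zero this
      · intro hmem
        obtain ⟨μ, hμ⟩ := Submodule.mem_span_singleton.1 hmem
        rw [← hμ, hf.smul_left, h6] at hbz
        have hμ0 : μ = 0 := by linear_combination -hbz
        apply hb0
        rw [← hμ, hμ0, zero_smul]
    have := mul_mem hm1 hm2
    rw [T_add_left] at this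
    have e' : d + v + -d = v := by abel
    rwa [T_congr hf e' rfl] at this
  -- general centre, isotropic axis
  have hv : ∀ (y b : ι → F), f b b = 0 → (hyb : f y b = 0) → T hf y b hyb ∈ M := by
    intro y b hb hyb
    obtain ⟨a', b', c', ha', hb', hc', h1, h2, h3, e⟩ := exists_iso_decomp hf b y (swap_zero hf hyb) (by omega)
    have h1' := swap_zero hf h1
    have h2' := swap_zero hf h2
    have h3' := swap_zero hf h3
    have := mul_mem (mul_mem (hiv a' b ha' hb h1') (hiv b' b hb' hb h2')) (hiv c' b hc' hb h3')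
    rw [T_add_left, T_add_left] at this
    rwa [T_congr hf e.symm rfl] at this
  -- all transvections
  have hvi : ∀ (u w : ι → F) (huw : f u w = 0), T hf u w huw ∈ M := by
    intro u w huw
    obtain ⟨a', b', c', ha', hb', hc', h1, h2, h3, e⟩ := exists_iso_decomp hf u w huw (by omega)
    have := mul_mem (mul_mem (hv u a' ha' h1) (hv u b' hb' h2)) (hv u c' hc' h3)
    rw [T_add_right, T_add_right] at this
    rwa [T_congr hf rfl e.symm] at this
  apply specialLinear_le_of_tv
  intro φ z h
  obtain ⟨w, hw⟩ := exists_repr hf φ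
  have hφ : φ = fLin hf w := LinearMap.ext hw
  subst hφ
  exact hvi z w h

/-- Maximality in terms of the similarity group of the bilinear form. -/
theorem isMaximalIn_similarityGroup (hcard : 13 ≤ Fintype.card ι) :
    IsMaximalIn (specialLinear ι F) (similarityGroup f ⊓ specialLinear ι F) := by
  classical
  have h20 := hf.two_ne
  have : Nontrivial ι := Fintype.one_lt_card_iff_nontrivial.1 (by omega)
  constructor
  · -- strictness
    obtain ⟨h₁, h₂, -, -, n₁, n₂, e⟩ := exists_hyp hf (k := 0) ![] (by simp; omega)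
    obtain ⟨h₃, h₄, m₃, m₄, n₃, n₄, e'⟩ := exists_hyp hf ![h₁, h₂] (by simpa using (by omega : 9 ≤ Fintype.card ι))
    have a0 := perp_apply hf m₃ 0
    have a1 := perp_apply hf m₃ 1
    have b0 := perp_apply hf m₄ 0
    have b1 := perp_apply hf m₄ 1
    simp only [Matrix.cons_val_zero, Matrix.cons_val_one] at a0 a1 b0 b1
    refine lt_of_le_of_mem_not_mem inf_le_right (T_mem_SL hf h₁ h₃ a0) ?_
    rintro ⟨⟨c, hc'⟩, -⟩
    have e1 := hc' h₁ h₂
    have hT1 : ((T hf h₁ h₃ a0 : GL ι F) : Matrix ι ι F) *ᵥ h₁ = h₁ := by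
      rw [T_mulVec, a0, zero_smul, add_zero]
    have hT2 : ((T hf h₁ h₃ a0 : GL ι F) : Matrix ι ι F) *ᵥ h₂ = h₂ := by
      rw [T_mulVec, a1, zero_smul, add_zero]
    rw [hT1, hT2, e, mul_one] at e1
    have hT4 : ((T hf h₁ h₃ a0 : GL ι F) : Matrix ι ι F) *ᵥ h₄ = h₄ + h₁ := by
      rw [T_mulVec, hf.symm h₄ h₃, e', one_smul]
    have e2 := hc' h₄ h₂
    rw [hT4, hT2, hf.add_left, e, ← e1, one_mul] at e2
    have : (1 : F) = 0 := by linear_combination e2
    exact one_ne_zero this
  · intro M hPM hMS
    by_cases hMP : M ≤ similarityGroup f ⊓ specialLinear ι F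
    · exact Or.inl (le_antisymm hMP hPM)
    right
    apply le_antisymm hMS
    obtain ⟨g, hgM, hgP⟩ := SetLike.not_le_iff_exists.1 hMP
    have hgS : g ∉ similarityGroup f := fun h => hgP ⟨h, hMS hgM⟩
    have hIso : isoGroup hf ≤ M := by
      intro s hs
      apply hPM
      obtain ⟨h1, h2⟩ := (mem_isoGroup hf).1 hs
      exact ⟨⟨1, fun u v => by rw [h1, Units.val_one, one_mul]⟩, h2⟩
    -- the adjoint
    have hAex : ∀ z, ∃ w, ∀ x, f (((g⁻¹ : GL ι F) : Matrix ι ι F) *ᵥ x) z = f x w := by
      intro z
      exact exists_repr hf ((fLin hf z).comp (Matrix.toLin' ((g⁻¹ : GL ι F) : Matrix ι ι F)))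
    choose A₀ hA₀ using hAex
    let A : (ι → F) →ₗ[F] (ι → F) :=
      { toFun := A₀
        map_add' := fun a b => by
          have : A₀ (a + b) - (A₀ a + A₀ b) = 0 := by
            apply eq_zero_right hf
            intro x
            rw [sub_right hf, add_right hf, ← hA₀, ← hA₀, ← hA₀, add_right hf, sub_self]
          exact sub_eq_zero.1 this
        map_smul' := fun c a => by
          have : A₀ (c • a) - c • A₀ a = 0 := by
            apply eq_zero_right hf
            intro x
            rw [sub_right hf, smul_right hf, ← hA₀, ← hA₀, smul_right hf, sub_self]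
          exact sub_eq_zero.1 this }
    have hA : ∀ x z, f x (A z) = f (((g⁻¹ : GL ι F) : Matrix ι ι F) *ᵥ x) z :=
      fun x z => (hA₀ z x).symm
    have hgA : ∀ y z, f ((g : Matrix ι ι F) *ᵥ y) (A z) = f y z := by
      intro y z
      rw [hA, inv_mulVec_mulVec]
    let E : (ι → F) →ₗ[F] (ι → F) := (Matrix.toLin' ((g⁻¹ : GL ι F) : Matrix ι ι F)).comp A
    have hEv : ∀ z, (g : Matrix ι ι F) *ᵥ E z = A z := by
      intro z
      change (g : Matrix ι ι F) *ᵥ (((g⁻¹ : GL ι F) : Matrix ι ι F) *ᵥ A z) = A z
      rw [mulVec_inv_mulVec]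
    -- a non-eigenvector among the isotropic vectors
    have hex : ∃ a, f a a = 0 ∧ ∀ l : F, E a ≠ l • a := by
      by_contra hcon
      push Not at hcon
      obtain ⟨l, hl⟩ := eigen_scalar hf E hcon (by omega)
      have hAl : ∀ z, A z = l • (g : Matrix ι ι F) *ᵥ z := by
        intro z
        rw [← hEv, hl, Matrix.mulVec_smul]
      have hrel : ∀ y z, l * f ((g : Matrix ι ι F) *ᵥ y) ((g : Matrix ι ι F) *ᵥ z) = f y z := by
        intro y z
        have := hgA y z
        rwa [hAl, smul_right hf] at this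
      have hl0 : l ≠ 0 := by
        intro h0
        obtain ⟨p, r, -, -, -, -, hpr⟩ := exists_hyp hf (k := 0) ![] (by simp; omega)
        have := hrel p r
        rw [h0, zero_mul, hpr] at this
        exact zero_ne_one this
      apply hgS
      refine ⟨Units.mk0 l⁻¹ (inv_ne_zero hl0), fun u v => ?_⟩
      rw [Units.val_mk0, ← hrel u v, ← mul_assoc, inv_mul_cancel₀ hl0, one_mul]
    obtain ⟨u, huu, huE⟩ := hex
    have hu0 : u ≠ 0 := by
      rintro rfl
      apply huE 0
      simp
    -- the second vector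
    obtain ⟨v, z₀, hv₁, hv₂, hvv, hz₀z₀, hvz₀⟩ := exists_hyp hf ![u, E u] (by simpa using (by omega : 9 ≤ Fintype.card ι))
    have huv : f u v = 0 := perp_apply hf hv₁ 0
    have hEv' : f (E u) v = 0 := perp_apply hf hv₁ 1
    have huz₀ : f u z₀ = 0 := perp_apply hf hv₂ 0
    have hEz₀ : f (E u) z₀ = 0 := perp_apply hf hv₂ 1
    have hvu := swap_zero hf huv
    have hkey : ∀ α β : F, E u ≠ α • u + β • v := by
      intro α β h
      have h1 := hEz₀
      rw [h, hf.add_left, hf.smul_left, hf.smul_left, huz₀, hvz₀] at h1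
      have hβ : β = 0 := by simpa using h1
      subst hβ
      apply huE α
      rw [h]
      simp
    set p := (g : Matrix ι ι F) *ᵥ u with hp
    set q := (g : Matrix ι ι F) *ᵥ v with hq
    set r := A u with hr
    set s := A v with hs
    have hpr : f p r = 0 := by rw [hp, hr, hgA, huu]
    have hps : f p s = 0 := by rw [hp, hs, hgA, huv]
    have hqr : f q r = 0 := by rw [hq, hr, hgA, hvu]
    have hqs : f q s = 0 := by rw [hq, hs, hgA, hvv]
    -- the conjugated Siegel element
    have hmq : f (-v) u = 0 := by rw [neg_left hf, hvu, neg_zero]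
    have hmq' : f (-q) r = 0 := by rw [neg_left hf, hqr, neg_zero]
    have hPmem : T hf p s hps * T hf (-q) r hmq' ∈ M := by
      have hc1 : g * T hf u v huv * g⁻¹ = T hf p s hps := by
        apply conj_tv
        intro x
        exact hA x v
      have hc2 : g * T hf (-v) u hmq * g⁻¹ = T hf (-q) r hmq' := by
        have := conj_tv g (fLin hf u) (-v) hmq (fLin hf r) (fun x => hA x u)
          (by
            change f ((g : Matrix ι ι F) *ᵥ (-v)) r = 0
            rw [Matrix.mulVec_neg]
            exact hmq')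
        rw [show T hf (-v) u hmq = tv (fLin hf u) (-v) hmq from rfl, this]
        apply gl_ext
        intro x
        rw [tv_mulVec, Matrix.mulVec_neg, T_mulVec]
        rfl
      have : T hf p s hps * T hf (-q) r hmq' = g * (T hf u v huv * T hf (-v) u hmq) * g⁻¹ := by
        rw [← hc1, ← hc2]
        group
      rw [this]
      exact mul_mem (mul_mem hgM (hIso (siegel_mem hf u v huu hvv huv hmq))) (inv_mem hgM)
    -- the second Siegel element
    obtain ⟨v', z', hv'm, hz'm, hv'v', -, hv'z'⟩ := exists_hyp hf ![p, q, r, s] (by simpa using hcard)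
    have hpv' : f p v' = 0 := perp_apply hf hv'm 0
    have hqv' : f q v' = 0 := perp_apply hf hv'm 1
    have hrv' : f r v' = 0 := perp_apply hf hv'm 2
    have hsv' : f s v' = 0 := perp_apply hf hv'm 3
    have hpz' : f p z' = 0 := perp_apply hf hz'm 0
    have hqz' : f q z' = 0 := perp_apply hf hz'm 1
    have hrz' : f r z' = 0 := perp_apply hf hz'm 2
    have hy : r ∉ Submodule.span F (Set.range ![p, q, v']) := by
      intro hmem
      obtain ⟨c, hc⟩ := (Submodule.mem_span_range_iff_exists_fun F).1 hmem
      rw [Fin.sum_univ_three] at hc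
      simp only [Matrix.cons_val_zero, Matrix.cons_val_one, Matrix.cons_val] at hc
      have h1 := hrz'
      rw [← hc, hf.add_left, hf.add_left, hf.smul_left, hf.smul_left, hf.smul_left, hpz', hqz', hv'z'] at h1
      have hc2 : c 2 = 0 := by simpa using h1
      rw [hc2, zero_smul, add_zero] at hc
      apply hkey (c 0) (c 1)
      apply mulVec_injective g
      change (g : Matrix ι ι F) *ᵥ E u = (g : Matrix ι ι F) *ᵥ (c 0 • u + c 1 • v)
      rw [hEv, ← hr, ← hc, Matrix.mulVec_add, Matrix.mulVec_smul, Matrix.mulVec_smul]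
    obtain ⟨u', hu'u', hu'all, hru'⟩ := exists_iso_family hf ![p, q, v'] hy 1 (by simpa using hcard)
    have hpu' : f p u' = 0 := hu'all 0
    have hqu' : f q u' = 0 := hu'all 1
    have hv'u' : f v' u' = 0 := hu'all 2
    have hu'v' := swap_zero hf hv'u'
    have hmv' : f (-v') u' = 0 := by rw [neg_left hf, hv'u', neg_zero]
    set R := T hf u' v' hu'v' * T hf (-v') u' hmv' with hR
    have hRmem : R ∈ M := hIso (siegel_mem hf u' v' hu'u' hv'v' hu'v' hmv')
    have hRv : ∀ x, (R : Matrix ι ι F) *ᵥ x = x + f x v' • u' - f x u' • v' :=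
      fun x => siegel_mulVec hf u' v' hv'v' hu'v' hmv' x
    set P := T hf p s hps * T hf (-q) r hmq' with hP
    have hPv : ∀ x, (P : Matrix ι ι F) *ᵥ x = x + f x s • p - f x r • q := by
      intro x
      rw [hP, Units.val_mul, ← Matrix.mulVec_mulVec, T_mulVec, T_mulVec, hf.add_left, hf.smul_left, neg_left hf,
        hqs]
      simp only [mul_neg, mul_zero, neg_zero, add_zero]
      module
    set α := f u' s with hα
    have hβ : f u' r = 1 := by rw [hf.symm, hru']
    set z := q - α • p with hz
    have hzv' : f z v' = 0 := by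
      rw [hz, sub_left hf, hf.smul_left, hqv', hpv']
      ring
    have hY : T hf z v' hzv' ∈ M := by
      have hcomm : T hf z v' hzv' * P * R = R * P := by
        apply gl_ext
        intro x
        simp only [Units.val_mul, ← Matrix.mulVec_mulVec]
        rw [hRv, hPv, T_mulVec, hPv, hRv]
        simp only [sub_left hf, hf.add_left, hf.smul_left, hqv', hpv', hv'v', hu'v', hpu', hqu', hv'u', hru',
          hrv', hsv', ← hα, hβ, hf.symm v' s, hf.symm v' r, mul_zero, zero_mul, add_zero, sub_zero]
        rw [hz]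
        module
      have : T hf z v' hzv' = R * P * R⁻¹ * P⁻¹ := by
        rw [← hcomm]
        group
      rw [this]
      have hPmem' : P ∈ M := hPmem
      exact mul_mem (mul_mem (mul_mem hRmem hPmem') (inv_mem hRmem)) (inv_mem hPmem')
    -- reduction to an isotropic centre
    have hzz' : f z z' = 0 := by
      rw [hz, sub_left hf, hf.smul_left, hqz', hpz']
      ring
    have hz0 : z ≠ 0 := by
      have hne : v - α • u ≠ 0 := by
        intro h0
        have h1 : f (v - α • u) z₀ = 1 := by
          rw [sub_left hf, hf.smul_left, hvz₀, huz₀]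
          ring
        rw [h0, zero_left hf] at h1
        exact zero_ne_one h1
      intro h0
      apply hne
      apply mulVec_injective g
      change (g : Matrix ι ι F) *ᵥ (v - α • u) = (g : Matrix ι ι F) *ᵥ 0
      rw [Matrix.mulVec_sub, Matrix.mulVec_smul, Matrix.mulVec_zero]
      exact h0
    have hzm : z ∉ Submodule.span F (Set.range ![v']) := by
      intro hmem
      simp only [Matrix.range_cons, Matrix.range_empty, Set.union_empty] at hmem
      obtain ⟨κ, hκ⟩ := Submodule.mem_span_singleton.1 hmem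
      have h1 := hzz'
      rw [← hκ, hf.smul_left, hv'z', mul_one] at h1
      apply hz0
      rw [← hκ, h1, zero_smul]
    obtain ⟨v'', hv''v'', hv''all, hzv''⟩ := exists_iso_family hf ![v'] hzm 1 (by simpa using (by omega : 9 ≤ Fintype.card ι))
    have hv'v'' : f v' v'' = 0 := hv''all 0
    obtain ⟨u'', z₃, hu''m, hz₃m, hu''u'', -, hu''z₃⟩ := exists_hyp hf ![z, v', v''] (by simpa using (by omega : 11 ≤ Fintype.card ι))
    have hzu'' : f z u'' = 0 := perp_apply hf hu''m 0
    have hv'u'' : f v' u'' = 0 := perp_apply hf hu''m 1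
    have hv''u'' : f v'' u'' = 0 := perp_apply hf hu''m 2
    have hv'z₃ : f v' z₃ = 0 := perp_apply hf hz₃m 1
    have hu''v'' := swap_zero hf hv''u''
    have hu''v' := swap_zero hf hv'u''
    have hmv'' : f (-v'') u'' = 0 := by rw [neg_left hf, hv''u'', neg_zero]
    set R₂ := T hf u'' v'' hu''v'' * T hf (-v'') u'' hmv'' with hR₂
    have hR₂mem := siegel_mem hf u'' v'' hu''u'' hv''v'' hu''v'' hmv''
    have hR₂v : ∀ x, (R₂ : Matrix ι ι F) *ᵥ x = x + f x v'' • u'' - f x u'' • v'' :=
      fun x => siegel_mulVec hf u'' v'' hv''v'' hu''v'' hmv'' x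
    have hR₂iso := ((mem_isoGroup hf).1 hR₂mem).1
    have hconj := T_conj_iso hf R₂ hR₂iso z v' hzv'
    have e1 : (R₂ : Matrix ι ι F) *ᵥ z = z + u'' := by
      rw [hR₂v, hzv'', hzu'', one_smul, zero_smul, sub_zero]
    have e2 : (R₂ : Matrix ι ι F) *ᵥ v' = v' := by
      rw [hR₂v, hv'v'', hv'u'', zero_smul, zero_smul, add_zero, sub_zero]
    rw [T_congr hf e1 e2] at hconj
    have h3 : T hf (z + u'') v' (by rw [hf.add_left, hzv', hu''v', add_zero]) ∈ M := by
      rw [← hconj]
      exact mul_mem (mul_mem (hIso hR₂mem) hY) (inv_mem (hIso hR₂mem))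
    have h4 := mul_mem h3 (inv_mem hY)
    rw [T_inv, T_add_left] at h4
    have e3 : z + u'' + -z = u'' := by abel
    rw [T_congr hf e3 rfl] at h4
    refine specialLinear_le_of_iso_pair hf (by omega) M hIso hu''u'' hv'v' hu''v' ?_ ?_ h4
    · rintro rfl
      rw [zero_left hf] at hu''z₃
      exact zero_ne_one hu''z₃
    · intro hmem
      obtain ⟨κ, hκ⟩ := Submodule.mem_span_singleton.1 hmem
      have h5 := hv'z₃
      rw [← hκ, hf.smul_left, hu''z₃, mul_one] at h5
      rw [← hκ, h5, zero_smul, zero_left hf] at hv'z'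
      exact zero_ne_one hv'z'

omit hf in
/-- The theorem for a quadratic form. -/
theorem isMaximalIn_quadSimilarityGroup (Q : (ι → F) → F) (hQ : IsNondegenerateQuadraticForm Q)
    (hodd : Odd (Fintype.card F)) (hcard : 13 ≤ Fintype.card ι) :
    IsMaximalIn (specialLinear ι F) (quadSimilarityGroup Q ⊓ specialLinear ι F) := by
  have h20 : (2 : F) ≠ 0 := by
    intro h
    have hc : ringChar F = 2 := by
      have := (CharP.cast_eq_zero_iff F (ringChar F) 2).1 (by exact_mod_cast h)
      exact (Nat.prime_dvd_prime_iff_eq (CharP.char_is_prime F _) Nat.prime_two).1 this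
    have := FiniteField.even_card_of_char_two hc
    rw [Nat.odd_iff] at hodd
    omega
  have hf : IsSymForm (QuadraticMap.polar Q) :=
    { two_ne := h20
      add_left := hQ.polar_bilinear.add_left
      smul_left := hQ.polar_bilinear.smul_left
      symm := fun v w => QuadraticMap.polar_comm Q v w
      nondegenerate := hQ.nondegenerate }
  have hself : ∀ x, QuadraticMap.polar Q x x = 2 * Q x := by
    intro x
    have h1 : Q (x + x) = 4 * Q x := by
      have := hQ.smul 2 x
      rw [two_smul] at this
      rw [this]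
      ring
    rw [QuadraticMap.polar, h1]
    ring
  have hQeq : ∀ x, Q x = 2⁻¹ * QuadraticMap.polar Q x x := by
    intro x
    rw [hself]
    field_simp
  have heq : similarityGroup (QuadraticMap.polar Q) = quadSimilarityGroup Q := by
    ext g
    constructor
    · rintro ⟨c, hc⟩
      refine ⟨c, fun v => ?_⟩
      rw [hQeq, hQeq v, hc]
      ring
    · rintro ⟨c, hc⟩
      refine ⟨c, fun u v => ?_⟩
      simp only [QuadraticMap.polar]
      rw [← Matrix.mulVec_add, hc, hc, hc]
      ring
  rw [← heq]
  exact isMaximalIn_similarityGroup hf hcard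

end Cfsg.Agent.Lib.Classical.Geo.OrthSim
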