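/-
The stabiliser of a proper non-zero subspace is maximal in the special linear group.

Proof: the orbit of `W` under an overgroup `M` of the stabiliser contains a neighbour of `W` (a subspace
meeting `W` in a hyperplane), the stabiliser is transitive on the neighbours of `W`, so the orbit is
closed under taking neighbours, and the neighbour graph on subspaces of a given dimension is connected.
-/
import Mathlib
import Cfsg.Agent.Lib.Classical.Geo.Basic

set_option autoImplicit false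
set_option linter.unusedSectionVars false

namespace Cfsg.Agent.Lib.Classical.Geo.Parabolic

open scoped MatrixGroups Matrix
open Module Cfsg.Agent.Lib.Classical.Geo.Basic

variable {ι : Type} [Fintype ι] [DecidableEq ι] {F : Type*} [Field F]

theorem sup_span_eq_of_hyperplane {C W : Submodule F (ι → F)} (hCW : C ≤ W)
    (hdim : finrank F C + 1 = finrank F W) {a : ι → F} (haW : a ∈ W) (haC : a ∉ C) :
    C ⊔ Submodule.span F {a} = W := by
  apply Submodule.eq_of_le_of_finrank_eq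
    (sup_le hCW ((Submodule.span_singleton_le_iff_mem a W).2 haW))
  rw [Submodule.finrank_sup_span_singleton haC, hdim]

theorem inf_ker_sup {U : Submodule F (ι → F)} {f : Dual F (ι → F)} {x : ι → F} (hx : x ∈ U)
    (hf : f x = 1) : (U ⊓ LinearMap.ker f) ⊔ Submodule.span F {x} = U := by
  apply le_antisymm
  · exact sup_le inf_le_left ((Submodule.span_singleton_le_iff_mem x U).2 hx)
  · intro z hz
    have h1 : z - f z • x ∈ U ⊓ LinearMap.ker f := by
      refine ⟨U.sub_mem hz (U.smul_mem _ hx), ?_⟩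
      simp [hf]
    have h2 : f z • x ∈ Submodule.span F {x} :=
      Submodule.smul_mem _ _ (Submodule.mem_span_singleton_self x)
    have := Submodule.add_mem_sup h1 h2
    simpa using this

theorem finrank_inf_ker {U : Submodule F (ι → F)} {f : Dual F (ι → F)} {x : ι → F} (hx : x ∈ U)
    (hf : f x = 1) : finrank F ↥(U ⊓ LinearMap.ker f) + 1 = finrank F U := by
  have hnot : x ∉ U ⊓ LinearMap.ker f := by
    rintro ⟨_, h⟩
    have h' : f x = 0 := h
    rw [hf] at h'
    exact one_ne_zero h'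
  have := Submodule.finrank_sup_span_singleton hnot
  rw [inf_ker_sup hx hf] at this
  exact this.symm

/-- `B` is obtained from `A` by replacing a vector: `B` meets `A` in a hyperplane of both. -/
def Adj (A B : Submodule F (ι → F)) : Prop :=
  ∃ (C : Submodule F (ι → F)) (y : ι → F), C ≤ A ∧ finrank F C + 1 = finrank F A ∧ y ∉ A ∧
    B = C ⊔ Submodule.span F {y}

theorem Adj.act {A B : Submodule F (ι → F)} (h : Adj A B) (g : GL ι F) :
    Adj (act g A) (act g B) := by
  obtain ⟨C, y, hCA, hdim, hy, rfl⟩ := h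
  refine ⟨Basic.act g C, (g : Matrix ι ι F) *ᵥ y, act_mono g hCA, ?_, ?_, ?_⟩
  · rw [finrank_act, finrank_act, hdim]
  · rw [mem_act_iff']
    rwa [inv_mulVec_mulVec]
  · rw [act_sup, act_span_singleton]

theorem Adj.finrank_eq {A B : Submodule F (ι → F)} (h : Adj A B) : finrank F B = finrank F A := by
  obtain ⟨C, y, hCA, hdim, hy, rfl⟩ := h
  have : y ∉ C := fun hh => hy (hCA hh)
  rw [Submodule.finrank_sup_span_singleton this, hdim]

theorem exists_dual_ne_ne {W : Submodule F (ι → F)} {x x₁ : ι → F} (hx : x ∉ W) (hx₁ : x₁ ∉ W) :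
    ∃ φ : Dual F (ι → F), (∀ y ∈ W, φ y = 0) ∧ φ x ≠ 0 ∧ φ x₁ ≠ 0 := by
  obtain ⟨f, hf, hfx⟩ := exists_dual_eq_one hx
  obtain ⟨g, hg, hgx⟩ := exists_dual_eq_one hx₁
  by_cases h1 : f x₁ = 0
  · by_cases h2 : g x = 0
    · refine ⟨f + g, fun y hy => by simp [hf y hy, hg y hy], ?_, ?_⟩
      · simp [hfx, h2]
      · simp [h1, hgx]
    · exact ⟨g, hg, h2, by simp [hgx]⟩
  · exact ⟨f, hf, by simp [hfx], h1⟩

theorem act_eq_of_fix {t : GL ι F} {C : Submodule F (ι → F)}
    (h : ∀ y ∈ C, (t : Matrix ι ι F) *ᵥ y = y) : act t C = C :=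
  act_eq_of_mem_stabilizer (mem_subspaceStabilizer_of_fix t C h)

/-- A transvection moving a hyperplane `C₀` of `W` to the hyperplane `C₁`, stabilising `W`. -/
theorem exists_move_hyperplane {W C₀ C₁ : Submodule F (ι → F)} (hC₀ : C₀ ≤ W) (hC₁ : C₁ ≤ W)
    (d₀ : finrank F C₀ + 1 = finrank F W) (d₁ : finrank F C₁ + 1 = finrank F W) :
    ∃ t : GL ι F, t ∈ Cfsg.Geo.subspaceStabilizer W ⊓ Cfsg.Geo.specialLinear ι F ∧
      act t C₀ = C₁ := by
  by_cases heq : C₀ = C₁
  · exact ⟨1, ⟨one_mem _, one_mem _⟩, by simp [heq]⟩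
  have hd : finrank F C₀ = finrank F C₁ := by omega
  have h01 : ¬ C₀ ≤ C₁ := fun h => heq (Submodule.eq_of_le_of_finrank_eq h hd)
  have h10 : ¬ C₁ ≤ C₀ := fun h => heq (Submodule.eq_of_le_of_finrank_eq h hd.symm).symm
  obtain ⟨a, haC₀, haC₁⟩ := SetLike.not_le_iff_exists.1 h01
  obtain ⟨a₁, ha₁C₁, ha₁C₀⟩ := SetLike.not_le_iff_exists.1 h10
  obtain ⟨h₁, h₁van, h₁a⟩ := exists_dual_eq_one haC₁
  obtain ⟨h₀, h₀van, h₀a⟩ := exists_dual_eq_one ha₁C₀
  let ψ : Dual F (ι → F) := h₁ + h₀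
  let v : ι → F := a₁ - a
  have hψv : ψ v = 0 := by
    simp [ψ, v, h₁van a₁ ha₁C₁, h₀van a haC₀, h₁a, h₀a]
  have hvW : v ∈ W := W.sub_mem (hC₁ ha₁C₁) (hC₀ haC₀)
  refine ⟨tv ψ v hψv, ⟨?_, tv_mem_specialLinear ψ v hψv⟩, ?_⟩
  · apply mem_subspaceStabilizer_of_le
    intro y hy
    rw [tv_mulVec]
    exact W.add_mem hy (W.smul_mem _ hvW)
  · apply Submodule.eq_of_le_of_finrank_eq
    · intro z hz
      obtain ⟨y, hy, rfl⟩ := (mem_act_iff _ _ _).1 hz
      rw [tv_mulVec]
      have hzW : y + ψ y • v ∈ W := W.add_mem (hC₀ hy) (W.smul_mem _ hvW)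
      have hsup := sup_span_eq_of_hyperplane hC₁ d₁ (hC₀ haC₀) haC₁
      rw [← hsup] at hzW
      obtain ⟨c, hc, s, hs, hcs⟩ := Submodule.mem_sup.1 hzW
      obtain ⟨r, rfl⟩ := Submodule.mem_span_singleton.1 hs
      have hval : h₁ (y + ψ y • v) = 0 := by
        simp only [map_add, map_smul, smul_eq_mul, ψ, v, map_sub, LinearMap.add_apply,
          h₁van a₁ ha₁C₁, h₀van y hy, h₁a]
        ring
      rw [← hcs] at hval
      simp only [map_add, map_smul, smul_eq_mul, h₁van c hc, h₁a] at hval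
      have hr : r = 0 := by simpa using hval
      rw [← hcs, hr]
      simpa using hc
    · rw [finrank_act, hd]

/-- A transvection fixing `W` pointwise and moving the line through `x` to that through `x₁`, modulo `W`. -/
theorem exists_move_vector {W C : Submodule F (ι → F)} (hC : C ≤ W) {x x₁ : ι → F} (hx : x ∉ W)
    (hx₁ : x₁ ∉ W) :
    ∃ t : GL ι F, t ∈ Cfsg.Geo.subspaceStabilizer W ⊓ Cfsg.Geo.specialLinear ι F ∧
      act t (C ⊔ Submodule.span F {x}) = C ⊔ Submodule.span F {x₁} := by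
  obtain ⟨φ, hφW, hφx, hφx₁⟩ := exists_dual_ne_ne hx hx₁
  let x' : ι → F := (φ x)⁻¹ • x
  let y' : ι → F := (φ x₁)⁻¹ • x₁
  have hx' : φ x' = 1 := by simp [x', hφx]
  have hy' : φ y' = 1 := by simp [y', hφx₁]
  have hv : φ (y' - x') = 0 := by simp [hx', hy']
  have hfix : ∀ y ∈ W, ((tv φ (y' - x') hv : GL ι F) : Matrix ι ι F) *ᵥ y = y := by
    intro y hy
    simp [hφW y hy]
  have hsx : Submodule.span F {x'} = Submodule.span F {x} :=
    Submodule.span_singleton_smul_eq (IsUnit.inv (Ne.isUnit hφx)) x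
  have hsy : Submodule.span F {y'} = Submodule.span F {x₁} :=
    Submodule.span_singleton_smul_eq (IsUnit.inv (Ne.isUnit hφx₁)) x₁
  refine ⟨tv φ (y' - x') hv, ⟨mem_subspaceStabilizer_of_fix _ _ hfix, tv_mem_specialLinear _ _ _⟩, ?_⟩
  rw [← hsx, ← hsy, act_sup, act_span_singleton, act_eq_of_fix (fun y hy => hfix y (hC hy)),
    tv_mulVec, hx', one_smul]
  simp

/-- The stabiliser of `W` in `SL` is transitive on the neighbours of `W`. -/
theorem exists_stabilizer_move_adj {W A B : Submodule F (ι → F)} (hA : Adj W A) (hB : Adj W B) :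
    ∃ p : GL ι F, p ∈ Cfsg.Geo.subspaceStabilizer W ⊓ Cfsg.Geo.specialLinear ι F ∧ act p A = B := by
  obtain ⟨C₀, x, hC₀, d₀, hx, rfl⟩ := hA
  obtain ⟨C₁, x₁, hC₁, d₁, hx₁, rfl⟩ := hB
  obtain ⟨t, ⟨htW, htS⟩, ht⟩ := exists_move_hyperplane hC₀ hC₁ d₀ d₁
  have hx' : (t : Matrix ι ι F) *ᵥ x ∉ W := fun h => hx ((htW x).2 h)
  obtain ⟨t', ⟨htW', htS'⟩, ht'⟩ := exists_move_vector hC₁ hx' hx₁
  refine ⟨t' * t, ⟨mul_mem htW' htW, mul_mem htS' htS⟩, ?_⟩
  rw [act_mul, act_sup, ht, act_span_singleton, ht']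

/-- A subspace `W'` of the same dimension as `W`, different from it, can be moved to a neighbour of
itself by a transvection fixing `W` pointwise. -/
theorem exists_adj_of_ne {W W' : Submodule F (ι → F)} (hdim : finrank F W' = finrank F W)
    (hne : W' ≠ W) (hW : W ≠ ⊤) :
    ∃ s : GL ι F, s ∈ Cfsg.Geo.specialLinear ι F ∧ (∀ y ∈ W, (s : Matrix ι ι F) *ᵥ y = y) ∧
      Adj W' (act s W') := by
  have hnle : ¬ W' ≤ W := fun h => hne (Submodule.eq_of_le_of_finrank_eq h hdim)
  obtain ⟨x, hxW', hxW⟩ := SetLike.not_le_iff_exists.1 hnle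
  have hW'top : W' ≠ ⊤ := by
    rintro rfl
    apply hW
    apply Submodule.eq_top_of_finrank_eq
    rw [← hdim, finrank_top]
  obtain ⟨f, hfW, hfx⟩ := exists_dual_eq_one hxW
  obtain ⟨v, hfv, hv⟩ := exists_ker_notMem hW'top f hxW' hfx
  refine ⟨tv f v hfv, tv_mem_specialLinear _ _ _, fun y hy => ?_, ?_⟩
  · simp [hfW y hy]
  · refine ⟨W' ⊓ LinearMap.ker f, x + v, inf_le_left, finrank_inf_ker hxW' hfx, ?_, ?_⟩
    · intro h
      apply hv
      have := W'.sub_mem h hxW'
      simpa using this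
    · have hfix : act (tv f v hfv) (W' ⊓ LinearMap.ker f) = W' ⊓ LinearMap.ker f := by
        apply act_eq_of_fix
        intro y hy
        have : f y = 0 := hy.2
        simp [this]
      conv_lhs => rw [← inf_ker_sup hxW' hfx]
      rw [act_sup, hfix, act_span_singleton, tv_mulVec, hfx, one_smul]

/-- Connectivity of the neighbour graph: a neighbour of `U` is closer to `U'`. -/
theorem exists_adj_closer {U U' : Submodule F (ι → F)} (hdim : finrank F U' = finrank F U)
    (hne : U' ≠ U) :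
    ∃ U₁ : Submodule F (ι → F), Adj U U₁ ∧
      finrank F ↥(U ⊓ U') < finrank F ↥(U₁ ⊓ U') := by
  have hnle : ¬ U' ≤ U := fun h => hne (Submodule.eq_of_le_of_finrank_eq h hdim)
  have hnle' : ¬ U ≤ U' := fun h => hne (Submodule.eq_of_le_of_finrank_eq h hdim.symm).symm
  obtain ⟨u, huU', huU⟩ := SetLike.not_le_iff_exists.1 hnle
  obtain ⟨y, hyU, hyU'⟩ := SetLike.not_le_iff_exists.1 hnle'
  have hy : y ∉ U ⊓ U' := fun h => hyU' h.2
  obtain ⟨f, hfvan, hfy⟩ := exists_dual_eq_one hy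
  let C := U ⊓ LinearMap.ker f
  let U₁ := C ⊔ Submodule.span F {u}
  refine ⟨U₁, ⟨C, u, inf_le_left, finrank_inf_ker hyU hfy, huU, rfl⟩, ?_⟩
  have hle : (U ⊓ U') ⊔ Submodule.span F {u} ≤ U₁ ⊓ U' := by
    apply sup_le
    · apply le_inf
      · intro z hz
        exact Submodule.mem_sup_left ⟨hz.1, hfvan z hz⟩
      · exact inf_le_right
    · rw [Submodule.span_singleton_le_iff_mem]
      exact ⟨Submodule.mem_sup_right (Submodule.mem_span_singleton_self u), huU'⟩
  have hnot : u ∉ U ⊓ U' := fun h => huU h.1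
  have h1 := Submodule.finrank_sup_span_singleton hnot
  have h2 := Submodule.finrank_mono hle
  omega

/-- The stabiliser of a proper non-zero subspace is a maximal subgroup of the special linear group. -/
theorem isMaximalIn_subspaceStabilizer (W : Submodule F (ι → F)) (hW0 : W ≠ ⊥) (hW1 : W ≠ ⊤) :
    Cfsg.Geo.IsMaximalIn (Cfsg.Geo.specialLinear ι F)
      (Cfsg.Geo.subspaceStabilizer W ⊓ Cfsg.Geo.specialLinear ι F) := by
  constructor
  · obtain ⟨w, hwW, hw0⟩ := Submodule.exists_mem_ne_zero_of_ne_bot hW0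
    have hw0' : w ∉ (⊥ : Submodule F (ι → F)) := by simpa using hw0
    obtain ⟨t, htS, -, htw⟩ := exists_tv_fix_move hwW hw0' hW1
    refine lt_of_le_of_mem_not_mem (x := t) inf_le_right htS ?_
    rintro ⟨hW, _⟩
    exact htw ((hW w).1 hwW)
  · intro M hPM hMS
    by_cases hMP : M ≤ Cfsg.Geo.subspaceStabilizer W ⊓ Cfsg.Geo.specialLinear ι F
    · exact Or.inl (le_antisymm hMP hPM)
    right
    apply le_antisymm hMS
    obtain ⟨g, hgM, hgP⟩ := SetLike.not_le_iff_exists.1 hMP
    have hgW : act g W ≠ W := fun h => hgP ⟨mem_stabilizer_of_act_eq h, hMS hgM⟩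
    -- a neighbour of `W` in the orbit
    obtain ⟨s, hsS, hsfix, hsadj⟩ := exists_adj_of_ne (finrank_act g W) hgW hW1
    have hsM : s ∈ M := hPM ⟨mem_subspaceStabilizer_of_fix s W hsfix, hsS⟩
    have hadj₁ : Adj W (act (g⁻¹ * s * g) W) := by
      have := hsadj.act g⁻¹
      rwa [act_inv_act, ← act_mul, ← act_mul] at this
    have hm₁ : g⁻¹ * s * g ∈ M := mul_mem (mul_mem (inv_mem hgM) hsM) hgM
    -- the orbit is closed under neighbours
    have hstep : ∀ m ∈ M, ∀ A, Adj (act m W) A → ∃ m' ∈ M, act m' W = A := by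
      intro m hm A hA
      have hA' : Adj W (act m⁻¹ A) := by
        have := hA.act m⁻¹
        rwa [act_inv_act] at this
      obtain ⟨p, hp, hpA⟩ := exists_stabilizer_move_adj hadj₁ hA'
      refine ⟨m * (p * (g⁻¹ * s * g)), mul_mem hm (mul_mem (hPM hp) hm₁), ?_⟩
      rw [act_mul, act_mul, hpA, act_act_inv]
    -- connectivity
    have hall : ∀ (n : ℕ) (m : GL ι F), m ∈ M → ∀ U : Submodule F (ι → F),
        finrank F U = finrank F W → finrank F U - finrank F ↥(act m W ⊓ U) = n →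
        ∃ m' ∈ M, act m' W = U := by
      intro n
      induction n using Nat.strong_induction_on with
      | _ n ih =>
        intro m hm U hU hn
        by_cases hUX : U = act m W
        · exact ⟨m, hm, hUX.symm⟩
        have hd : finrank F U = finrank F (act m W) := by rw [finrank_act, hU]
        obtain ⟨U₁, hadj, hlt⟩ := exists_adj_closer hd hUX
        obtain ⟨m₁, hm₁', rfl⟩ := hstep m hm U₁ hadj
        have hle := Submodule.finrank_mono (inf_le_right : act m₁ W ⊓ U ≤ U)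
        exact ih _ (by omega) m₁ hm₁' U hU rfl
    intro x hx
    obtain ⟨m', hm', hact⟩ := hall _ 1 (one_mem _) (act x W) (finrank_act x W) rfl
    have hstab : m'⁻¹ * x ∈ Cfsg.Geo.subspaceStabilizer W := by
      apply mem_stabilizer_of_act_eq
      rw [act_mul, ← hact, act_inv_act]
    have hSL : m'⁻¹ * x ∈ Cfsg.Geo.specialLinear ι F :=
      Subgroup.mul_mem _ (Subgroup.inv_mem _ (hMS hm')) hx
    have hmem : m'⁻¹ * x ∈ M := hPM ⟨hstab, hSL⟩
    have := mul_mem hm' hmem
    simpa using this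

end Cfsg.Agent.Lib.Classical.Geo.Parabolic
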