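/-
The stabiliser of a pair of complementary totally singular `m`-subspaces is maximal in `Sp_{2m}(F)`, `q` odd.

Proof.  Write `E(u, v)` for `x ↦ x + B(x, v) u + B(x, u) v`, for `B(u, v) = 0`.  The stabiliser contains `E(a, b)` with
`a ∈ X`, `b ∈ Y`.  If `g` lies in an overgroup `M` but not in the stabiliser, some conjugate `E(c, d) = g E(a, b) g⁻¹`
has independent `X`-components; commutators with the `E(a, b)` reduce it to `E(a', a') = T_{a'}(2)`, `a' ∈ X`.
The stabiliser is transitive on `X \ 0`, and contains a swap of `X` and `Y`.  So `M` contains all transvections.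
-/
import Mathlib
import Cfsg.Agent.Lib.Classical.Geo.Basic
import Cfsg.Agent.Lib.Classical.Geo.SympSim
import Cfsg.Agent.Lib.Classical.Geo.Decomp
import Cfsg.Agent.Lib.Classical.Symp.SpGL

set_option autoImplicit false
set_option linter.unusedSectionVars false

namespace Cfsg.Agent.Lib.Classical.Geo.SympPair

open scoped MatrixGroups Matrix
open Module Cfsg Cfsg.Geo Cfsg.Agent.Lib.Classical.Geo.Basic Cfsg.Agent.Lib.Classical.Geo.SympSim
open Cfsg.Agent.Lib.Classical.Symp.SpGL Cfsg.Agent.Lib.Classical.Symp.Basic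

variable {m : ℕ} {F : Type*} [Field F]

local notation "V" => (Fin m ⊕ Fin m → F)
local notation "B" => sympForm m F

theorem B_add_left (x y z : V) : B (x + y) z = B x z + B y z := by
  change sympBilin m F (x + y) z = _
  simp
theorem B_add_right (x y z : V) : B x (y + z) = B x y + B x z :=
  map_add (sympBilin m F x) y z
theorem B_sub_left (x y z : V) : B (x - y) z = B x z - B y z := by
  change sympBilin m F (x - y) z = _
  simp
theorem B_sub_right (x y z : V) : B x (y - z) = B x y - B x z :=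
  map_sub (sympBilin m F x) y z
theorem B_smul_left (c : F) (x z : V) : B (c • x) z = c * B x z := by
  change sympBilin m F (c • x) z = _
  simp
theorem B_smul_right (c : F) (x z : V) : B x (c • z) = c * B x z :=
  map_smul (sympBilin m F x) c z
theorem B_neg_left (x z : V) : B (-x) z = - B x z := by
  change sympBilin m F (-x) z = _
  simp
theorem B_neg_right (x z : V) : B x (-z) = - B x z :=
  map_neg (sympBilin m F x) z
theorem B_zero_left (z : V) : B 0 z = 0 := by
  change sympBilin m F 0 z = _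
  simp
theorem B_zero_right (z : V) : B z 0 = 0 :=
  map_zero (sympBilin m F z)
theorem B_sum_left {α : Type*} (s : Finset α) (g : α → V) (z : V) :
    B (∑ i ∈ s, g i) z = ∑ i ∈ s, B (g i) z := by
  change sympBilin m F (∑ i ∈ s, g i) z = _
  simp
theorem B_sum_right {α : Type*} (s : Finset α) (g : α → V) (z : V) :
    B z (∑ i ∈ s, g i) = ∑ i ∈ s, B z (g i) :=
  map_sum (sympBilin m F z) g s

theorem B_swap_zero {x y : V} (h : B x y = 0) : B y x = 0 := by
  rw [sympForm_swap, h, neg_zero]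

/-- `x ↦ x + B(x, v) u + B(x, u) v`. -/
noncomputable def E (u v : V) (h : B u v = 0) : GL (Fin m ⊕ Fin m) F :=
  tT (sympBilin m F) u v (show sympBilin m F u v = 0 from h) *
    tT (sympBilin m F) v u (show sympBilin m F v u = 0 from B_swap_zero h)

theorem E_mulVec (u v : V) (h : B u v = 0) (x : V) :
    ((E u v h : GL _ F) : Matrix _ _ F) *ᵥ x = x + B x v • u + B x u • v := by
  unfold E
  rw [Units.val_mul, ← Matrix.mulVec_mulVec, tT_mulVec, tT_mulVec]
  have hvv : B v v = 0 := sympForm_self v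
  simp only [sympBilin_apply, B_add_left, B_smul_left, hvv, mul_zero, add_zero]
  abel

theorem E_mem (u v : V) (h : B u v = 0) : E u v h ∈ spGL m F := by
  rw [mem_spGL_iff]
  intro x y
  have h' := B_swap_zero h
  have e1 : B u y = - B y u := sympForm_swap _ _
  have e2 : B v y = - B y v := sympForm_swap _ _
  simp only [E_mulVec, B_add_left, B_add_right, B_smul_left, B_smul_right, sympForm_self, h, h', e1, e2]
  ring

theorem E_comm (u v : V) (h : B u v = 0) : E v u (B_swap_zero h) = E u v h := by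
  apply gl_ext
  intro x
  rw [E_mulVec, E_mulVec]
  abel

theorem conj_E {g : GL (Fin m ⊕ Fin m) F} (hg : g ∈ spGL m F) (u v : V) (h : B u v = 0)
    (h' : B ((g : Matrix _ _ F) *ᵥ u) ((g : Matrix _ _ F) *ᵥ v) = 0) :
    g * E u v h * g⁻¹ = E _ _ h' := by
  apply gl_ext
  intro x
  rw [Units.val_mul, Units.val_mul, ← Matrix.mulVec_mulVec, ← Matrix.mulVec_mulVec, E_mulVec, E_mulVec,
    Matrix.mulVec_add, Matrix.mulVec_add, Matrix.mulVec_smul, Matrix.mulVec_smul, mulVec_inv_mulVec]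
  have h1 := (mem_spGL_iff g).1 hg (((g⁻¹ : GL _ F) : Matrix _ _ F) *ᵥ x) u
  have h2 := (mem_spGL_iff g).1 hg (((g⁻¹ : GL _ F) : Matrix _ _ F) *ᵥ x) v
  rw [mulVec_inv_mulVec] at h1 h2
  rw [← h1, ← h2]

/-- The key commutator. -/
theorem comm_eq {a b c d : V} (hcd : B c d = 0) (hab : B a b = 0) (hac : B a c = 0) (had : B a d = 0)
    (hbc : B b c = 0) (hbd : B b d = 1) :
    E c d hcd * E a b hab = E c a (B_swap_zero hac) * E a b hab * E c d hcd := by
  apply gl_ext
  intro x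
  have e1 : B c a = 0 := B_swap_zero hac
  have e2 : B d a = 0 := B_swap_zero had
  have e3 : B c b = 0 := B_swap_zero hbc
  have e4 : B d b = -1 := by rw [sympForm_swap, hbd]
  have e5 : B d c = 0 := B_swap_zero hcd
  have e6 : B b a = 0 := B_swap_zero hab
  simp only [Units.val_mul, ← Matrix.mulVec_mulVec, E_mulVec, B_add_left, B_add_right, B_smul_left,
    B_smul_right, sympForm_self, hcd, hab, hac, had, hbc, hbd, e1, e2, e3, e4, e5, e6]
  module

theorem comm_mem {M : Subgroup (GL (Fin m ⊕ Fin m) F)} {a b c d : V} (hcd : B c d = 0) (hab : B a b = 0)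
    (hac : B a c = 0) (had : B a d = 0) (hbc : B b c = 0) (hbd : B b d = 1)
    (h1 : E c d hcd ∈ M) (h2 : E a b hab ∈ M) : E c a (B_swap_zero hac) ∈ M := by
  have h := comm_eq hcd hab hac had hbc hbd
  have : E c a (B_swap_zero hac) = E c d hcd * E a b hab * (E c d hcd)⁻¹ * (E a b hab)⁻¹ := by
    rw [h]
    group
  rw [this]
  exact mul_mem (mul_mem (mul_mem h1 h2) (inv_mem h1)) (inv_mem h2)

/-- `E(a, a) = T_a(2)`. -/
theorem E_self (a : V) : E a a (sympForm_self a) = gt a 2 := by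
  apply gl_ext
  intro x
  rw [E_mulVec, gt_mulVec]
  module

/-- A pair of complementary totally singular subspaces of equal dimension. -/
structure Pair (X Y : Submodule F V) : Prop where
  tsX : ∀ x ∈ X, ∀ y ∈ X, B x y = 0
  tsY : ∀ x ∈ Y, ∀ y ∈ Y, B x y = 0
  compl : IsCompl X Y
  dim : finrank F X = finrank F Y

variable {X Y : Submodule F (Fin m ⊕ Fin m → F)}

theorem Pair.symm (P : Pair X Y) : Pair Y X := ⟨P.tsY, P.tsX, P.compl.symm, P.dim.symm⟩

theorem Pair.decomp (P : Pair X Y) (x : V) : ∃ x₁ ∈ X, ∃ x₂ ∈ Y, x = x₁ + x₂ := by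
  have hx : x ∈ X ⊔ Y := by rw [P.compl.sup_eq_top]; trivial
  obtain ⟨x₁, h₁, x₂, h₂, e⟩ := Submodule.mem_sup.1 hx
  exact ⟨x₁, h₁, x₂, h₂, e.symm⟩

theorem Pair.orth_eq_zero (P : Pair X Y) {y : V} (hy : y ∈ Y) (h : ∀ x ∈ X, B x y = 0) : y = 0 := by
  by_contra hne
  obtain ⟨v, hv⟩ := exists_sympForm_ne hne
  obtain ⟨x₁, h₁, x₂, h₂, rfl⟩ := P.decomp v
  apply hv
  rw [B_add_left, h _ h₁, P.tsY _ h₂ _ hy, add_zero]

/-- Riesz representation for the pairing of `X` and `Y`. -/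
theorem Pair.riesz (P : Pair X Y) (φ : X →ₗ[F] F) : ∃ y ∈ Y, ∀ x : X, B x y = φ x := by
  let Θ : Y →ₗ[F] Dual F X := X.dualRestrict ∘ₗ (sympBilin m F).flip ∘ₗ Y.subtype
  have hΘ : ∀ (y : Y) (x : X), Θ y x = B x y := fun y x => rfl
  have hinj : Function.Injective Θ := by
    rw [← LinearMap.ker_eq_bot, LinearMap.ker_eq_bot']
    intro y hy
    apply Subtype.ext
    apply P.orth_eq_zero y.2
    intro x hx
    have := LinearMap.congr_fun hy ⟨x, hx⟩
    rwa [hΘ] at this
  have hsurj : Function.Surjective Θ :=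
    (LinearMap.injective_iff_surjective_of_finrank_eq_finrank
      (by rw [Subspace.dual_finrank_eq, P.dim])).1 hinj
  obtain ⟨y, hy⟩ := hsurj φ
  refine ⟨y, y.2, fun x => ?_⟩
  rw [← hy, hΘ]

/-- Prescribing values on `X` by a vector of `Y`. -/
theorem Pair.prescribe (P : Pair X Y) {u : V} (hu : u ∈ X) {S : Submodule F V} (huS : u ∉ S) :
    ∃ y ∈ Y, (∀ s ∈ X, s ∈ S → B s y = 0) ∧ B y u = 1 := by
  obtain ⟨f, hf0, hf1⟩ := exists_dual_eq_one huS
  obtain ⟨y, hy, hxy⟩ := P.riesz (-(f.domRestrict X))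
  refine ⟨y, hy, fun s hs hsS => ?_, ?_⟩
  · have := hxy ⟨s, hs⟩
    simp only [LinearMap.neg_apply, LinearMap.domRestrict_apply] at this
    rw [this, hf0 s hsS, neg_zero]
  · have := hxy ⟨u, hu⟩
    simp only [LinearMap.neg_apply, LinearMap.domRestrict_apply] at this
    rw [sympForm_swap, this, hf1, neg_neg]

theorem exists_mem_orth (X : Submodule F V) (u v : V) (S : Submodule F V) (h : finrank F S + 2 < finrank F X) :
    ∃ x ∈ X, B x u = 0 ∧ B x v = 0 ∧ x ∉ S := by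
  by_contra hcon
  push Not at hcon
  let L : X →ₗ[F] F × F :=
    ((sympBilin m F).flip u).domRestrict X |>.prod (((sympBilin m F).flip v).domRestrict X)
  have h1 := LinearMap.finrank_range_add_finrank_ker L
  have h2 : finrank F (LinearMap.range L) ≤ 2 := (Submodule.finrank_le _).trans (by simp)
  have h3 : (LinearMap.ker L).map X.subtype ≤ S := by
    rintro _ ⟨x, hx, rfl⟩
    have hx' : L x = 0 := hx
    have a1 : B x u = 0 := congrArg Prod.fst hx'
    have a2 : B x v = 0 := congrArg Prod.snd hx'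
    exact hcon x x.2 a1 a2
  have h4 := Submodule.finrank_mono h3
  have h5 : finrank F ((LinearMap.ker L).map X.subtype) = finrank F (LinearMap.ker L) :=
    (Submodule.equivMapOfInjective _ X.injective_subtype _).finrank_eq.symm
  omega

theorem finrank_span_pair_le (a b : V) : finrank F (Submodule.span F {a, b}) ≤ 2 := by
  classical
  have := finrank_span_finset_le_card (R := F) ({a, b} : Finset V)
  have h2 : (({a, b} : Finset V) : Set V) = {a, b} := by simp
  rw [h2] at this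
  exact this.trans (Finset.card_le_two)

theorem not_mem_singleton_symm {a b : V} (hb : b ≠ 0) (h : a ∉ Submodule.span F {b}) :
    b ∉ Submodule.span F {a} := by
  intro hmem
  obtain ⟨c, hc⟩ := Submodule.mem_span_singleton.1 hmem
  have hc0 : c ≠ 0 := by
    rintro rfl
    exact hb (by rw [← hc, zero_smul])
  apply h
  rw [Submodule.mem_span_singleton]
  exact ⟨c⁻¹, by rw [← hc, smul_smul, inv_mul_cancel₀ hc0, one_smul]⟩

/-- If `d ∉ ⟨c⟩` and `a ∉ ⟨c, d⟩` then `d ∉ ⟨c, a⟩`. -/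
theorem not_mem_pair {a c d : V} (hd : d ∉ Submodule.span F {c}) (ha : a ∉ Submodule.span F {c, d}) :
    d ∉ Submodule.span F {c, a} := by
  intro hmem
  obtain ⟨α, β, e⟩ := Submodule.mem_span_pair.1 hmem
  by_cases hβ : β = 0
  · apply hd
    rw [Submodule.mem_span_singleton]
    exact ⟨α, by rw [← e, hβ, zero_smul, add_zero]⟩
  · apply ha
    rw [Submodule.mem_span_pair]
    refine ⟨-β⁻¹ * α, β⁻¹, ?_⟩
    rw [← e, smul_add, smul_smul, smul_smul, inv_mul_cancel₀ hβ, one_smul, neg_mul, neg_smul]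
    abel

/-- The chain of commutators: from `E(c, d)` with independent `X`-components down to a transvection. -/
theorem chain (P : Pair X Y) (hdim : 7 ≤ finrank F X) {M : Subgroup (GL (Fin m ⊕ Fin m) F)}
    (hE : ∀ p ∈ X, ∀ q ∈ Y, ∀ h : B p q = 0, E p q h ∈ M) {c₁ c₂ d₁ d₂ : V} (hc₁ : c₁ ∈ X) (hc₂ : c₂ ∈ Y)
    (hd₁ : d₁ ∈ X) (hd₂ : d₂ ∈ Y) (hcd : B (c₁ + c₂) (d₁ + d₂) = 0) (hM : E _ _ hcd ∈ M)
    (hc0 : c₁ ≠ 0) (hind : d₁ ∉ Submodule.span F {c₁}) : ∃ a ∈ X, a ≠ 0 ∧ gt a 2 ∈ M := by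
  have span2 := finrank_span_pair_le (F := F) (m := m)
  -- first step
  obtain ⟨a₁, ha₁, a₁c, a₁d, a₁S⟩ := exists_mem_orth X c₂ d₂ (Submodule.span F {c₁, d₁})
    (by have := span2 c₁ d₁; omega)
  have hnp := not_mem_pair hind a₁S
  obtain ⟨b₁, hb₁, hb₁0, hb₁1⟩ := P.prescribe hd₁ hnp
  have hb₁a : B a₁ b₁ = 0 := hb₁0 a₁ ha₁ (Submodule.mem_span_of_mem (by simp))
  have hb₁c : B c₁ b₁ = 0 := hb₁0 c₁ hc₁ (Submodule.mem_span_of_mem (by simp))
  have s1 : E (c₁ + c₂) a₁ _ ∈ M := comm_mem (a := a₁) (b := b₁) hcd hb₁a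
    (by rw [B_add_right, P.tsX _ ha₁ _ hc₁, a₁c, add_zero])
    (by rw [B_add_right, P.tsX _ ha₁ _ hd₁, a₁d, add_zero])
    (by rw [B_add_right, P.tsY _ hb₁ _ hc₂, B_swap_zero hb₁c, add_zero])
    (by rw [B_add_right, P.tsY _ hb₁ _ hd₂, hb₁1, add_zero]) hM (hE _ ha₁ _ hb₁ _)
  -- second step
  have ha₁0 : a₁ ≠ 0 := by
    rintro rfl
    exact a₁S (Submodule.zero_mem _)
  obtain ⟨a₂, ha₂, a₂c, -, a₂S⟩ := exists_mem_orth X c₂ c₂ (Submodule.span F {a₁, c₁})
    (by have := span2 a₁ c₁; omega)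
  have hc₁a₁ : c₁ ∉ Submodule.span F {a₁} :=
    not_mem_singleton_symm hc0 fun hmem => a₁S (Submodule.span_mono (by simp) hmem)
  have hnp2 := not_mem_pair hc₁a₁ a₂S
  obtain ⟨b₂, hb₂, hb₂0, hb₂1⟩ := P.prescribe hc₁ hnp2
  have hb₂a₁ : B a₁ b₂ = 0 := hb₂0 a₁ ha₁ (Submodule.mem_span_of_mem (by simp))
  have hb₂a₂ : B a₂ b₂ = 0 := hb₂0 a₂ ha₂ (Submodule.mem_span_of_mem (by simp))
  have hac : B a₁ (c₁ + c₂) = 0 := by rw [B_add_right, P.tsX _ ha₁ _ hc₁, a₁c, add_zero]
  have s1' : E a₁ (c₁ + c₂) hac ∈ M := by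
    rw [E_comm (c₁ + c₂) a₁ (B_swap_zero hac)]
    exact s1
  have s2 : E a₁ a₂ _ ∈ M := comm_mem (a := a₂) (b := b₂) hac hb₂a₂
    (P.tsX _ ha₂ _ ha₁)
    (by rw [B_add_right, P.tsX _ ha₂ _ hc₁, a₂c, add_zero])
    (B_swap_zero hb₂a₁)
    (by rw [B_add_right, P.tsY _ hb₂ _ hc₂, hb₂1, add_zero]) s1' (hE _ ha₂ _ hb₂ _)
  -- third step
  obtain ⟨b₃, hb₃, hb₃0, hb₃1⟩ := P.prescribe ha₂ a₂S
  have hb₃a₁ : B a₁ b₃ = 0 := hb₃0 a₁ ha₁ (Submodule.mem_span_of_mem (by simp))
  have s3 : E a₁ a₁ _ ∈ M := comm_mem (a := a₁) (b := b₃) (c := a₁) (d := a₂) (P.tsX _ ha₁ _ ha₂) hb₃a₁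
    (sympForm_self a₁) (P.tsX _ ha₁ _ ha₂) (B_swap_zero hb₃a₁) hb₃1 s2 (hE _ ha₁ _ hb₃ _)
  refine ⟨a₁, ha₁, ha₁0, ?_⟩
  rw [← E_self]
  exact s3

section Trans

variable {M : Subgroup (GL (Fin m ⊕ Fin m) F)}

/-- Two independent vectors of `X` are moved one to the other by `E(p, q)`. -/
theorem exists_move (P : Pair X Y) {a b : V} (ha : a ∈ X) (hb : b ∈ X) (ha0 : a ≠ 0)
    (hab : b ∉ Submodule.span F {a}) :
    ∃ p ∈ X, ∃ q ∈ Y, ∃ h : B p q = 0, ((E p q h : GL _ F) : Matrix _ _ F) *ᵥ a = b := by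
  have hS : a ∉ Submodule.span F {b - a} := by
    intro hmem
    obtain ⟨c, hc⟩ := Submodule.mem_span_singleton.1 hmem
    by_cases hc0 : c = 0
    · apply ha0
      rw [← hc, hc0, zero_smul]
    · apply hab
      rw [Submodule.mem_span_singleton]
      refine ⟨c⁻¹ * (1 + c), ?_⟩
      have e : c • b = a + c • a := by
        have : c • b - c • a = a := by rw [← smul_sub]; exact hc
        calc c • b = (c • b - c • a) + c • a := by abel
          _ = a + c • a := by rw [this]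
      calc (c⁻¹ * (1 + c)) • a = c⁻¹ • (a + c • a) := by module
        _ = c⁻¹ • (c • b) := by rw [e]
        _ = b := by rw [smul_smul, inv_mul_cancel₀ hc0, one_smul]
  obtain ⟨q, hq, hq0, hq1⟩ := P.prescribe ha hS
  have hp : b - a ∈ X := Submodule.sub_mem _ hb ha
  have h0 : B (b - a) q = 0 := hq0 _ hp (Submodule.mem_span_singleton_self _)
  refine ⟨b - a, hp, -q, Submodule.neg_mem _ hq, by rw [B_neg_right, h0, neg_zero], ?_⟩
  have e1 : B a (-q) = 1 := by rw [B_neg_right, sympForm_swap, hq1, neg_neg]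
  have e2 : B a (b - a) = 0 := P.tsX _ ha _ hp
  rw [E_mulVec, e1, e2]
  module

/-- `E(p, q)` maps `X` into `X`. -/
theorem E_mulVec_mem (P : Pair X Y) {p q x : V} (hp : p ∈ X) (hq : q ∈ Y) (h : B p q = 0) (hx : x ∈ X) :
    ((E p q h : GL _ F) : Matrix _ _ F) *ᵥ x ∈ X := by
  rw [E_mulVec, P.tsX _ hx _ hp, zero_smul, add_zero]
  exact X.add_mem hx (X.smul_mem _ hp)

/-- `E(p, q)` maps `Y` into `Y`. -/
theorem E_mulVec_mem' (P : Pair X Y) {p q x : V} (hp : p ∈ X) (hq : q ∈ Y) (h : B p q = 0) (hx : x ∈ Y) :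
    ((E p q h : GL _ F) : Matrix _ _ F) *ᵥ x ∈ Y := by
  rw [E_mulVec, P.tsY _ hx _ hq, zero_smul, add_zero]
  exact Y.add_mem hx (Y.smul_mem _ hq)

/-- Transitivity on `X \ 0`. -/
theorem exists_transit (P : Pair X Y) (hdim : 7 ≤ finrank F X)
    (hE : ∀ p ∈ X, ∀ q ∈ Y, ∀ h : B p q = 0, E p q h ∈ M) {a b : V} (ha : a ∈ X) (hb : b ∈ X)
    (ha0 : a ≠ 0) (hb0 : b ≠ 0) :
    ∃ k ∈ M, k ∈ spGL m F ∧ (k : Matrix _ _ F) *ᵥ a = b := by
  obtain ⟨z, hz, -, -, hzS⟩ := exists_mem_orth X 0 0 (Submodule.span F {a, b})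
    (by have := finrank_span_pair_le a b; omega)
  have hz0 : z ≠ 0 := by
    rintro rfl
    exact hzS (Submodule.zero_mem _)
  have h1 : z ∉ Submodule.span F {a} := fun hmem => hzS (Submodule.span_mono (by simp) hmem)
  have h2 : z ∉ Submodule.span F {b} := fun hmem => hzS (Submodule.span_mono (by simp) hmem)
  obtain ⟨p₁, hp₁, q₁, hq₁, h₁, e₁⟩ := exists_move P ha hz ha0 h1
  obtain ⟨p₂, hp₂, q₂, hq₂, h₂, e₂⟩ := exists_move P hz hb hz0 (not_mem_singleton_symm hb0 h2)
  refine ⟨E p₂ q₂ h₂ * E p₁ q₁ h₁, mul_mem (hE _ hp₂ _ hq₂ _) (hE _ hp₁ _ hq₁ _),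
    mul_mem (E_mem _ _ _) (E_mem _ _ _), ?_⟩
  rw [Units.val_mul, ← Matrix.mulVec_mulVec, e₁, e₂]

theorem gt_inv (w : V) (c : F) : (gt w c)⁻¹ = gt w (-c) := by
  apply inv_eq_of_mul_eq_one_right
  rw [gt_mul, add_neg_cancel, gt_zero_right]

theorem all_X (P : Pair X Y) (hdim : 7 ≤ finrank F X) (h2 : (2 : F) ≠ 0)
    (hE : ∀ p ∈ X, ∀ q ∈ Y, ∀ h : B p q = 0, E p q h ∈ M) {a₀ : V} (ha₀ : a₀ ∈ X) (h0 : a₀ ≠ 0)
    (hT : gt a₀ 2 ∈ M) : ∀ a ∈ X, a ∈ vecs M := by
  have hsq : ∀ μ : F, gt a₀ (2 * μ ^ 2) ∈ M := by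
    intro μ
    by_cases hμ : μ = 0
    · rw [hμ]
      simp [gt_zero_right, one_mem]
    · obtain ⟨k, hkM, hkS, hk⟩ := exists_transit P hdim hE ha₀ (X.smul_mem μ ha₀) h0
        (smul_ne_zero hμ h0)
      have := conj_gt hkS a₀ (2 : F)
      rw [hk, gt_smul, mul_comm (μ ^ 2)] at this
      rw [← this]
      exact mul_mem (mul_mem hkM hT) (inv_mem hkM)
  have hall : a₀ ∈ vecs M := by
    intro s
    set u : F := (s / 2 + 1) / 2 with hu
    set v : F := (s / 2 - 1) / 2 with hv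
    have e : s = 2 * u ^ 2 + -(2 * v ^ 2) := by
      rw [hu, hv]
      field_simp
      ring
    rw [e, ← gt_mul, ← gt_inv]
    exact mul_mem (hsq u) (inv_mem (hsq v))
  intro a ha
  by_cases ha0 : a = 0
  · rw [ha0]
    intro c
    rw [gt_zero_left]
    exact one_mem _
  · obtain ⟨k, hkM, hkS, hk⟩ := exists_transit P hdim hE ha₀ ha h0 ha0
    rw [← hk]
    exact mulVec_mem_vecs hall hkM hkS

/-- From `X ∪ Y` to everything. -/
theorem all_vecs (P : Pair X Y) (hX : ∀ a ∈ X, a ∈ vecs M) (hY : ∀ a ∈ Y, a ∈ vecs M) (w : V) :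
    w ∈ vecs M := by
  obtain ⟨x₁, h₁, x₂, h₂, rfl⟩ := P.decomp w
  by_cases hx₂ : x₂ = 0
  · rw [hx₂, add_zero]
    exact hX _ h₁
  obtain ⟨p, hp, -, hp1⟩ := P.symm.prescribe (S := ⊥) h₂ (by simpa using hx₂)
  have e1 : B (x₁ + p) x₂ = B x₁ x₂ + 1 := by rw [B_add_left, hp1]
  by_cases h : B x₁ x₂ = 0
  · have hv : x₂ + (1 : F) • (x₁ + p) ∈ vecs M := add_smul_mem_vecs (hY _ h₂) (hX _ (X.add_mem h₁ hp))
      (by
        rw [sympForm_swap, e1, h, zero_add]
        simp) 1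
    have hne : B (x₂ + (1 : F) • (x₁ + p)) p ≠ 0 := by
      rw [B_add_left, B_smul_left, B_add_left, P.tsX _ h₁ _ hp, P.tsX _ hp _ hp, sympForm_swap, hp1]
      simp
    have := add_smul_mem_vecs hv (hX _ hp) hne (-1)
    have e : x₂ + (1 : F) • (x₁ + p) + (-1 : F) • p = x₁ + x₂ := by module
    rwa [e] at this
  · have := add_smul_mem_vecs (hX _ h₁) (hY _ h₂) h 1
    rwa [one_smul] at this

end Trans

section Swap

/-- A swap of `X` and `Y`. -/
theorem exists_swap (P : Pair X Y) :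
    ∃ τ ∈ spGL m F, (∀ x ∈ X, (τ : Matrix _ _ F) *ᵥ x ∈ Y) ∧ (∀ x ∈ Y, (τ : Matrix _ _ F) *ᵥ x ∈ X) := by
  classical
  let b := Module.finBasis F X
  let e : Fin (finrank F X) → V := fun i => (b i : V)
  have he : ∀ i, e i ∈ X := fun i => (b i).2
  have hf : ∀ j : Fin (finrank F X), ∃ y ∈ Y, ∀ x : X, B x y = b.coord j x := fun j => P.riesz (b.coord j)
  choose f hfY hf using hf
  have hef : ∀ i j, B (e i) (f j) = if j = i then 1 else 0 := by
    intro i j
    rw [hf j (b i), Module.Basis.coord_apply, Module.Basis.repr_self, Finsupp.single_apply]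
    simp [eq_comm]
  have hfe : ∀ i j, B (f j) (e i) = - if j = i then 1 else 0 := by
    intro i j
    rw [sympForm_swap, hef]
  -- the reproducing formula
  have repro : ∀ x : V, x = ∑ i, (B x (f i) • e i - B x (e i) • f i) := by
    intro x
    obtain ⟨x₁, h₁, x₂, h₂, rfl⟩ := P.decomp x
    have c1 : x₁ = ∑ i, B (x₁ + x₂) (f i) • e i := by
      have := b.sum_repr ⟨x₁, h₁⟩
      have h3 := congrArg (Subtype.val) this
      simp only [Submodule.coe_sum, Submodule.coe_smul] at h3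
      conv_lhs => rw [← h3]
      refine Finset.sum_congr rfl fun i _ => ?_
      have h4 : B x₁ (f i) = _ := hf i ⟨x₁, h₁⟩
      rw [Module.Basis.coord_apply] at h4
      rw [B_add_left, P.tsY _ h₂ _ (hfY i), add_zero, h4]
    have c2 : x₂ = - ∑ i, B (x₁ + x₂) (e i) • f i := by
      rw [eq_neg_iff_add_eq_zero]
      have hmem : x₂ + ∑ i, B (x₁ + x₂) (e i) • f i ∈ Y :=
        Y.add_mem h₂ (Y.sum_mem fun i _ => Y.smul_mem _ (hfY i))
      apply P.orth_eq_zero hmem
      -- it suffices to test on the basis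
      have key : ∀ s : X, B s (x₂ + ∑ i, B (x₁ + x₂) (e i) • f i) = 0 := by
        intro s
        let L : X →ₗ[F] F := ((sympBilin m F).flip (x₂ + ∑ i, B (x₁ + x₂) (e i) • f i)).domRestrict X
        have hL : L = 0 := by
          apply b.ext
          intro j
          change B (e j) (x₂ + ∑ i, B (x₁ + x₂) (e i) • f i) = 0
          rw [B_add_right, B_sum_right]
          simp only [B_smul_right, hef, mul_ite, mul_one, mul_zero, Finset.sum_ite_eq', Finset.mem_univ,
            if_true, B_add_left, P.tsX _ h₁ _ (he j)]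
          rw [sympForm_swap x₂ (e j)]
          ring
        exact LinearMap.congr_fun hL s
      exact fun x hx => key ⟨x, hx⟩
    rw [Finset.sum_sub_distrib, ← c1, ← neg_eq_iff_eq_neg.2 c2]
    abel
  let τ₀ : V →ₗ[F] V := ∑ i, (((sympBilin m F).flip (f i)).smulRight (f i) +
    ((sympBilin m F).flip (e i)).smulRight (e i))
  have hτ₀ : ∀ x, τ₀ x = ∑ i, (B x (f i) • f i + B x (e i) • e i) := by
    intro x
    simp [τ₀, LinearMap.sum_apply]
  have hfτ : ∀ i y, B (f i) (τ₀ y) = - B y (e i) := by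
    intro i y
    rw [hτ₀, B_sum_right]
    simp only [B_add_right, B_smul_right, P.tsY _ (hfY i) _ (hfY _), hfe, mul_zero, zero_add, mul_neg,
      mul_ite, mul_one, Finset.sum_neg_distrib, Finset.sum_ite_eq, Finset.mem_univ, if_true]
  have heτ : ∀ i y, B (e i) (τ₀ y) = B y (f i) := by
    intro i y
    rw [hτ₀, B_sum_right]
    simp only [B_add_right, B_smul_right, P.tsX _ (he i) _ (he _), hef, mul_zero, add_zero,
      mul_ite, mul_one, Finset.sum_ite_eq', Finset.sum_ite_eq, Finset.mem_univ, if_true]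
  have hiso : ∀ x y, B (τ₀ x) (τ₀ y) = B x y := by
    intro x y
    conv_rhs => rw [repro x]
    rw [hτ₀ x, B_sum_left, B_sum_left]
    refine Finset.sum_congr rfl fun i _ => ?_
    rw [B_add_left, B_smul_left, B_smul_left, B_sub_left, B_smul_left, B_smul_left, hfτ, heτ,
      sympForm_swap (e i) y, sympForm_swap (f i) y]
    ring
  have hinj : Function.Injective τ₀ := by
    rw [← LinearMap.ker_eq_bot, LinearMap.ker_eq_bot']
    intro x hx
    by_contra hne
    obtain ⟨y, hy⟩ := exists_sympForm_ne hne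
    apply hy
    rw [sympForm_swap, ← hiso, hx, B_zero_left, neg_zero]
  obtain ⟨τ, hτ, hτe⟩ := exists_spGL_of_injective (LinearMap.id : V →ₗ[F] V) τ₀ Function.injective_id hinj
    (fun a b => hiso a b)
  have hτ' : ∀ x, (τ : Matrix _ _ F) *ᵥ x = τ₀ x := fun x => hτe x
  refine ⟨τ, hτ, fun x hx => ?_, fun x hx => ?_⟩
  · rw [hτ', hτ₀]
    refine Y.sum_mem fun i _ => ?_
    rw [P.tsX _ hx _ (he i), zero_smul, add_zero]
    exact Y.smul_mem _ (hfY i)
  · rw [hτ', hτ₀]
    refine X.sum_mem fun i _ => ?_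
    rw [P.tsY _ hx _ (hfY i), zero_smul, zero_add]
    exact X.smul_mem _ (he i)

end Swap

/-- Independent images. -/
theorem exists_good_pair (P : Pair X Y) {Z : Submodule F V} (T : V →ₗ[F] V)
    (hsurj : Z ≤ LinearMap.range T) (hZ : 4 < finrank F Z) {a₀ b₀ : V} (ha₀ : a₀ ∈ X) (hb₀ : b₀ ∈ Y)
    (hT₀ : T a₀ ≠ 0) (hT₁ : T b₀ ≠ 0) :
    ∃ a ∈ X, ∃ b ∈ Y, B a b = 0 ∧ T a ≠ 0 ∧ T b ∉ Submodule.span F {T a} := by
  by_contra hcon
  push Not at hcon
  have ha₀0 : a₀ ≠ 0 := by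
    rintro rfl
    simp at hT₀
  have hb₀0 : b₀ ≠ 0 := by
    rintro rfl
    simp at hT₁
  obtain ⟨a₁, ha₁, -, ha₁1⟩ := P.symm.prescribe (S := ⊥) hb₀ (by simpa using hb₀0)
  obtain ⟨b₁, hb₁, -, hb₁1⟩ := P.prescribe (S := ⊥) ha₀ (by simpa using ha₀0)
  let S : Submodule F V := Submodule.span F {T b₀, T a₁} ⊔ Submodule.span F {T a₀, T b₁}
  have hS : finrank F S ≤ 4 := by
    have h1 := Submodule.finrank_add_le_finrank_add_finrank (Submodule.span F {T b₀, T a₁})
      (Submodule.span F {T a₀, T b₁})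
    have h2 := finrank_span_pair_le (T b₀) (T a₁)
    have h3 := finrank_span_pair_le (T a₀) (T b₁)
    change finrank F ↥(Submodule.span F {T b₀, T a₁} ⊔ Submodule.span F {T a₀, T b₁}) ≤ 4
    omega
  have hSX : ∀ a ∈ X, T a ∈ S := by
    intro a ha
    have hmem : a - B a b₀ • a₁ ∈ X := X.sub_mem ha (X.smul_mem _ ha₁)
    have h0 : B (a - B a b₀ • a₁) b₀ = 0 := by
      rw [B_sub_left, B_smul_left, ha₁1, mul_one, sub_self]
    have hin : T (a - B a b₀ • a₁) ∈ Submodule.span F {T b₀} := by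
      by_cases hz : T (a - B a b₀ • a₁) = 0
      · rw [hz]
        exact Submodule.zero_mem _
      · exact by_contra fun hnot => not_mem_singleton_symm hT₁ hnot (hcon _ hmem _ hb₀ h0 hz)
    have e : T a = T (a - B a b₀ • a₁) + B a b₀ • T a₁ := by
      rw [map_sub, map_smul]
      abel
    rw [e]
    refine S.add_mem ?_ (S.smul_mem _ ?_)
    · exact Submodule.mem_sup_left (Submodule.span_mono (by simp) hin)
    · exact Submodule.mem_sup_left (Submodule.span_mono (by simp) (Submodule.mem_span_singleton_self _))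
  have hSY : ∀ b ∈ Y, T b ∈ S := by
    intro b hb
    have hmem : b - B b a₀ • b₁ ∈ Y := Y.sub_mem hb (Y.smul_mem _ hb₁)
    have h0 : B a₀ (b - B b a₀ • b₁) = 0 := by
      rw [B_sub_right, B_smul_right, sympForm_swap a₀ b₁, hb₁1, sympForm_swap a₀ b]
      ring
    have hin := hcon _ ha₀ _ hmem h0 hT₀
    have e : T b = T (b - B b a₀ • b₁) + B b a₀ • T b₁ := by
      rw [map_sub, map_smul]
      abel
    rw [e]
    refine S.add_mem ?_ (S.smul_mem _ ?_)
    · exact Submodule.mem_sup_right (Submodule.span_mono (by simp) hin)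
    · exact Submodule.mem_sup_right (Submodule.span_mono (by simp) (Submodule.mem_span_singleton_self _))
  have hZS : Z ≤ S := by
    intro z hz
    obtain ⟨x, rfl⟩ := hsurj hz
    obtain ⟨x₁, h₁, x₂, h₂, rfl⟩ := P.decomp x
    rw [map_add]
    exact S.add_mem (hSX _ h₁) (hSY _ h₂)
  have := Submodule.finrank_mono hZS
  omega

/-- Membership in the stabiliser of a decomposition. -/
theorem mem_stab {t : ℕ} {D : Fin t → Submodule F V} (hdim : ∀ i j, finrank F (D i) = finrank F (D j))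
    (g : GL (Fin m ⊕ Fin m) F) (σ : Equiv.Perm (Fin t))
    (h : ∀ i, ∀ x ∈ D i, (g : Matrix _ _ F) *ᵥ x ∈ D (σ i)) : g ∈ decompositionStabilizer D := by
  refine ⟨σ, fun i => ?_⟩
  apply Submodule.eq_of_le_of_finrank_eq
  · rintro _ ⟨x, hx, rfl⟩
    exact h i x hx
  · have := finrank_act g (D i)
    unfold act at this
    rw [this]
    exact hdim _ _

theorem prop_blocks {p q r s : Prop} (n1 : p ∨ r) (n2 : q ∨ s) (n3 : r ∨ q) (n4 : p ∨ s) :
    p ∧ q ∨ r ∧ s := by
  tauto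

/-- The main theorem. -/
theorem isMaximalIn_pair [Fintype F] (hm : 7 ≤ m) (hodd : Odd (Fintype.card F)) (D : Fin 2 → Submodule F V)
    (hD : IsMDecomposition m D) (hts : ∀ i, IsTotallySingularFor (sympForm m F) (D i)) :
    IsMaximalIn (spGL m F) (decompositionStabilizer D ⊓ spGL m F) := by
  have h20 : (2 : F) ≠ 0 := by
    intro h
    have h1 : ringChar F = 2 := by
      have := CharTwo.of_one_ne_zero_of_two_eq_zero (R := F) one_ne_zero h
      exact ringChar.eq F 2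
    have := FiniteField.even_card_of_char_two h1
    rw [Nat.odd_iff] at hodd
    omega
  set X := D 0 with hX
  set Y := D 1 with hY
  have hdimX : finrank F X = m := hD.finrank_eq 0
  have hdimY : finrank F Y = m := hD.finrank_eq 1
  have hdim' : ∀ i j, finrank F (D i) = finrank F (D j) := fun i j => by
    rw [hD.finrank_eq, hD.finrank_eq]
  have P : Pair X Y := by
    refine ⟨hts 0, hts 1, ⟨hD.indep.pairwiseDisjoint (by simp), ?_⟩, by rw [hdimX, hdimY]⟩
    rw [codisjoint_iff, eq_top_iff, ← hD.iSup_eq_top]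
    apply iSup_le
    intro i
    fin_cases i
    · exact le_sup_left
    · exact le_sup_right
  have hX7 : 7 ≤ finrank F X := by omega
  have hY7 : 7 ≤ finrank F Y := by omega
  -- the elements `E(p, q)` and the swap lie in the stabiliser
  have hEH : ∀ p ∈ X, ∀ q ∈ Y, ∀ h : B p q = 0, E p q h ∈ decompositionStabilizer D ⊓ spGL m F := by
    intro p hp q hq h
    refine ⟨mem_stab hdim' _ 1 ?_, E_mem _ _ _⟩
    intro i
    fin_cases i
    · exact fun x hx => E_mulVec_mem P hp hq h hx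
    · exact fun x hx => E_mulVec_mem' P hp hq h hx
  obtain ⟨τ, hτS, hτ1, hτ2⟩ := exists_swap P
  have hτH : τ ∈ decompositionStabilizer D ⊓ spGL m F := by
    refine ⟨mem_stab hdim' _ (Equiv.swap 0 1) ?_, hτS⟩
    intro i
    fin_cases i
    · simpa using hτ1
    · simpa using hτ2
  have hτact : act τ X = Y := by
    apply Submodule.eq_of_le_of_finrank_eq
    · rintro _ ⟨x, hx, rfl⟩
      exact hτ1 x hx
    · rw [finrank_act, hdimX, hdimY]
  -- strictness
  have hpos : X ≠ ⊥ := by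
    intro h
    rw [h, finrank_bot] at hdimX
    omega
  obtain ⟨a, ha, ha0⟩ := Submodule.exists_mem_ne_zero_of_ne_bot hpos
  obtain ⟨b, hb, -, hb1⟩ := P.prescribe (S := ⊥) ha (by simpa using ha0)
  refine ⟨lt_of_le_of_mem_not_mem inf_le_right (gt_mem a 1) ?_, ?_⟩
  · rintro ⟨⟨σ, hσ⟩, -⟩
    have h1 : ((gt a 1 : GL _ F) : Matrix _ _ F) *ᵥ b ∈ D (σ 1) := by
      rw [← hσ 1]
      exact ⟨b, hb, rfl⟩
    rw [gt_mulVec, hb1, mul_one, one_smul] at h1
    have hdisj : ∀ z, z ∈ X → z ∈ Y → z = 0 := fun z h₁ h₂ =>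
      (Submodule.disjoint_def.1 P.compl.disjoint) z h₁ h₂
    have hs : σ 1 = 0 ∨ σ 1 = 1 := by
      generalize σ 1 = s
      fin_cases s <;> simp
    rcases hs with hs | hs
    · rw [hs] at h1
      have : b ∈ X := by
        have := X.sub_mem h1 ha
        simpa using this
      rw [hdisj b this hb, B_zero_left] at hb1
      exact zero_ne_one hb1
    · rw [hs] at h1
      have : a ∈ Y := by
        have := Y.sub_mem h1 hb
        simpa using this
      exact ha0 (hdisj a ha this)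
  · intro M hHM hMS
    by_cases hMH : M ≤ decompositionStabilizer D ⊓ spGL m F
    · exact Or.inl (le_antisymm hMH hHM)
    right
    apply le_antisymm hMS
    obtain ⟨g, hgM, hgH⟩ := SetLike.not_le_iff_exists.1 hMH
    have hgS := hMS hgM
    have hg0 : g ∉ decompositionStabilizer D := fun h => hgH ⟨h, hgS⟩
    obtain ⟨π, hπ1, hπ2, hπ3, hπ4⟩ := Decomp.exists_projections hD.indep hD.iSup_eq_top
    have hsum : ∀ x, π 0 x + π 1 x = x := fun x => by
      have := hπ4 x
      rwa [Fin.sum_univ_two] at this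
    have hE : ∀ p ∈ X, ∀ q ∈ Y, ∀ h : B p q = 0, E p q h ∈ M := fun p hp q hq h => hHM (hEH p hp q hq h)
    have hE' : ∀ p ∈ Y, ∀ q ∈ X, ∀ h : B p q = 0, E p q h ∈ M := fun p hp q hq h => by
      have := hE q hq p hp (B_swap_zero h)
      rwa [E_comm] at this
    -- the blocks
    let G : V →ₗ[F] V := Matrix.toLin' (g : Matrix _ _ F)
    have hG : ∀ x, G x = (g : Matrix _ _ F) *ᵥ x := fun x => rfl
    have hcases : (∃ a ∈ X, π 0 (G a) ≠ 0) ∧ (∃ b ∈ Y, π 0 (G b) ≠ 0) ∨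
        (∃ a ∈ X, π 1 (G a) ≠ 0) ∧ (∃ b ∈ Y, π 1 (G b) ≠ 0) := by
      have n1 : (∃ a ∈ X, π 0 (G a) ≠ 0) ∨ (∃ a ∈ X, π 1 (G a) ≠ 0) := by
        by_contra hh
        push Not at hh
        apply ha0
        have := hsum (G a)
        rw [hh.1 a ha, hh.2 a ha, add_zero] at this
        exact mulVec_injective g (by simpa [hG] using this.symm)
      have n2 : (∃ a ∈ Y, π 0 (G a) ≠ 0) ∨ (∃ a ∈ Y, π 1 (G a) ≠ 0) := by
        by_contra hh
        push Not at hh
        have hb0 : b = 0 := by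
          have := hsum (G b)
          rw [hh.1 b hb, hh.2 b hb, add_zero] at this
          exact mulVec_injective g (by simpa [hG] using this.symm)
        rw [hb0, B_zero_left] at hb1
        exact zero_ne_one hb1
      have n3 : (∃ a ∈ X, π 1 (G a) ≠ 0) ∨ (∃ a ∈ Y, π 0 (G a) ≠ 0) := by
        by_contra hh
        push Not at hh
        apply hg0
        refine mem_stab hdim' g 1 ?_
        intro i
        fin_cases i
        · intro x hx
          have := hsum (G x)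
          rw [hh.1 x hx, add_zero] at this
          rw [← hG, ← this]
          exact hπ1 _ _
        · intro x hx
          have := hsum (G x)
          rw [hh.2 x hx, zero_add] at this
          rw [← hG, ← this]
          exact hπ1 _ _
      have n4 : (∃ a ∈ X, π 0 (G a) ≠ 0) ∨ (∃ a ∈ Y, π 1 (G a) ≠ 0) := by
        by_contra hh
        push Not at hh
        apply hg0
        refine mem_stab hdim' g (Equiv.swap 0 1) ?_
        intro i
        fin_cases i
        · intro x hx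
          have := hsum (G x)
          rw [hh.1 x hx, zero_add] at this
          simp only [Fin.zero_eta, Equiv.swap_apply_left]
          rw [← hG, ← this]
          exact hπ1 _ _
        · intro x hx
          have := hsum (G x)
          rw [hh.2 x hx, add_zero] at this
          simp only [Fin.mk_one, Equiv.swap_apply_right]
          rw [← hG, ← this]
          exact hπ1 _ _
      exact prop_blocks n1 n2 n3 n4
    have hrange : ∀ i, D i ≤ LinearMap.range (π i ∘ₗ G) := by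
      intro i z hz
      refine ⟨((g⁻¹ : GL (Fin m ⊕ Fin m) F) : Matrix (Fin m ⊕ Fin m) (Fin m ⊕ Fin m) F) *ᵥ z, ?_⟩
      change π i ((g : Matrix (Fin m ⊕ Fin m) (Fin m ⊕ Fin m) F) *ᵥ (((g⁻¹ : GL (Fin m ⊕ Fin m) F) : Matrix (Fin m ⊕ Fin m) (Fin m ⊕ Fin m) F) *ᵥ z)) = z
      rw [mulVec_inv_mulVec, hπ2 i z hz]
    have hconj : ∀ a b : V, ∀ h : B a b = 0, E a b h ∈ M →
        ∀ h' : B ((g : Matrix _ _ F) *ᵥ a) ((g : Matrix _ _ F) *ᵥ b) = 0, E _ _ h' ∈ M := by
      intro a b h hM h'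
      rw [← conj_E hgS a b h h']
      exact mul_mem (mul_mem hgM hM) (inv_mem hgM)
    -- a transvection with centre in `X` or `Y`
    have hfin : (∃ a ∈ X, a ≠ 0 ∧ gt a 2 ∈ M) ∨ (∃ a ∈ Y, a ≠ 0 ∧ gt a 2 ∈ M) := by
      rcases hcases with ⟨⟨a₀, ha₀, h₀⟩, ⟨b₀, hb₀, h₁⟩⟩ | ⟨⟨a₀, ha₀, h₀⟩, ⟨b₀, hb₀, h₁⟩⟩
      · left
        obtain ⟨a', ha', b', hb', hab, hn, hi⟩ := exists_good_pair P (π 0 ∘ₗ G) (hrange 0)
          (by rw [hdimX]; omega) ha₀ hb₀ h₀ h₁
        have hcd : B (π 0 (G a') + π 1 (G a')) (π 0 (G b') + π 1 (G b')) = 0 := by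
          rw [hsum, hsum, hG, hG, (mem_spGL_iff g).1 hgS, hab]
        have hM := hconj a' b' hab (hE a' ha' b' hb' hab)
          (by rw [(mem_spGL_iff g).1 hgS, hab])
        refine chain P hX7 hE (hπ1 0 _) (hπ1 1 _) (hπ1 0 _) (hπ1 1 _) hcd ?_ hn hi
        simp only [hsum, ← hG] at hM ⊢
        exact hM
      · right
        obtain ⟨a', ha', b', hb', hab, hn, hi⟩ := exists_good_pair P (π 1 ∘ₗ G) (hrange 1)
          (by rw [hdimY]; omega) ha₀ hb₀ h₀ h₁
        have e1 : ∀ x, π 1 x + π 0 x = x := fun x => by rw [add_comm, hsum]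
        have hcd : B (π 1 (G a') + π 0 (G a')) (π 1 (G b') + π 0 (G b')) = 0 := by
          rw [e1, e1, hG, hG, (mem_spGL_iff g).1 hgS, hab]
        have hM := hconj a' b' hab (hE a' ha' b' hb' hab)
          (by rw [(mem_spGL_iff g).1 hgS, hab])
        refine chain P.symm hY7 hE' (hπ1 1 _) (hπ1 0 _) (hπ1 1 _) (hπ1 0 _) hcd ?_ hn hi
        simp only [e1, ← hG] at hM ⊢
        exact hM
    have hτM : τ ∈ M := hHM hτH
    have hτM' : τ⁻¹ ∈ M := inv_mem hτM
    -- both `X` and `Y` consist of centres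
    have hboth : (∀ a ∈ X, a ∈ vecs M) ∧ (∀ a ∈ Y, a ∈ vecs M) := by
      have tr : ∀ a ∈ X, a ∈ vecs M → (τ : Matrix (Fin m ⊕ Fin m) (Fin m ⊕ Fin m) F) *ᵥ a ∈ vecs M := fun a _ h =>
        mulVec_mem_vecs h hτM hτS
      rcases hfin with ⟨a₀, ha₀, h0, hT⟩ | ⟨b₀, hb₀, h0, hT⟩
      · have hx := all_X P hX7 h20 hE ha₀ h0 hT
        refine ⟨hx, fun y hy => ?_⟩
        rw [← hτact] at hy
        obtain ⟨x, hx', rfl⟩ := (mem_act_iff τ X y).1 hy
        exact tr x hx' (hx x hx')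
      · have hy := all_X P.symm hY7 h20 hE' hb₀ h0 hT
        have hτb : (τ : Matrix (Fin m ⊕ Fin m) (Fin m ⊕ Fin m) F) *ᵥ b₀ ∈ X := hτ2 _ hb₀
        have hτb0 : (τ : Matrix (Fin m ⊕ Fin m) (Fin m ⊕ Fin m) F) *ᵥ b₀ ≠ 0 := by
          intro h
          apply h0
          apply mulVec_injective τ
          simpa using h
        have hT' : gt ((τ : Matrix (Fin m ⊕ Fin m) (Fin m ⊕ Fin m) F) *ᵥ b₀) 2 ∈ M := by
          rw [← conj_gt hτS]
          exact mul_mem (mul_mem hτM hT) (inv_mem hτM)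
        have hx := all_X P hX7 h20 hE hτb hτb0 hT'
        exact ⟨hx, hy⟩
    exact spGL_le_of_vecs (all_vecs P hboth.1 hboth.2)

end Cfsg.Agent.Lib.Classical.Geo.SympPair
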