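/-
The similarity group of a non-degenerate unitary form is maximal in the special linear group.

Proof: for `g` in an overgroup `M`, not a similarity, some conjugate of a unitary transvection is a transvection
`x ↦ x + f(x, w) u` with `u, w` independent; commutators with unitary transvections yield a transvection with `u, w`
isotropic, and the unitary group is transitive on such pairs, including all scalings.  Every transvection is a product
of those.
-/
import Mathlib
import Cfsg.Agent.Lib.Classical.Geo.UForm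

set_option autoImplicit false
set_option linter.unusedSectionVars false

namespace Cfsg.Agent.Lib.Classical.Geo.UnitarySim

open scoped Matrix
open Module Cfsg Cfsg.Geo Cfsg.Agent.Lib.Classical.Geo.Basic Cfsg.Agent.Lib.Classical.Geo.SympSim
open Cfsg.Agent.Lib.Classical.Geo.UForm

variable {ι : Type} [Fintype ι] [DecidableEq ι] {F : Type*} [Field F] [Fintype F]
  {σ : F ≃+* F} {f : (ι → F) → (ι → F) → F} (hf : IsUnitaryForm σ f)

include hf

/-- Every vector orthogonal to `u` is a sum of three isotropic vectors orthogonal to `u`. -/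
theorem exists_iso_decomp (u y : ι → F) (huy : f u y = 0) (h : 10 ≤ Fintype.card ι) :
    ∃ a b c, f a a = 0 ∧ f b b = 0 ∧ f c c = 0 ∧ f u a = 0 ∧ f u b = 0 ∧ f u c = 0 ∧ y = a + b + c := by
  obtain ⟨z₁, z₂, m₁, m₂, n₁, n₂, e⟩ := exists_value hf ![u, y] (by simpa using h) y 0 (map_zero σ)
  have a0 := perp_apply hf m₁ 0
  have b0 := perp_apply hf m₂ 0
  simp only [Matrix.cons_val_zero] at a0 b0
  refine ⟨y + z₁ + z₂, -z₁, -z₂, e, ?_, ?_, ?_, ?_, ?_, ?_⟩
  · rw [neg_left hf, neg_right hf, n₁, neg_zero, neg_zero]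
  · rw [neg_left hf, neg_right hf, n₂, neg_zero, neg_zero]
  · rw [add_right hf, add_right hf, huy, a0, b0, add_zero, add_zero]
  · rw [neg_right hf, a0, neg_zero]
  · rw [neg_right hf, b0, neg_zero]
  · abel

/-- A linear map with all isotropic vectors as eigenvectors is scalar. -/
theorem eigen_scalar (E : (ι → F) →ₗ[F] (ι → F)) (hE : ∀ a, f a a = 0 → ∃ l : F, E a = l • a)
    (h : 12 ≤ Fintype.card ι) : ∃ l : F, ∀ z, E z = l • z := by
  have hinv := hf.involutive
  obtain ⟨p, r, -, -, hpp, hrr, hpr⟩ := exists_hyp hf (k := 0) ![] (by simp; omega)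
  obtain ⟨l, hl⟩ := hE p hpp
  obtain ⟨c₀, hc0, hc⟩ := exists_tr0 hf.ne_refl hinv
  -- the key step
  have key : ∀ a b : ι → F, f a a = 0 → f b b = 0 → f a b ≠ 0 → ∀ m : F, E b = m • b → E a = m • a := by
    intro a b ha hb hab m hm
    set s := f a b with hs
    have hba : f b a = σ s := hf.herm _ _
    have hσs : σ s ≠ 0 := by simpa using hab
    set t := σ (c₀ * s⁻¹) with ht
    have hσt : σ t = c₀ * s⁻¹ := hinv _
    have ht0 : t ≠ 0 := by
      rw [ht]
      simpa using ⟨hc0, hab⟩
    have hiso : f (a + t • b) (a + t • b) = 0 := by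
      rw [self_add hf, self_smul hf, smul_right hf, ha, hb, ← hs, hσt, mul_assoc c₀, inv_mul_cancel₀ hab,
        mul_one]
      linear_combination hc
    obtain ⟨m₁, hm₁⟩ := hE a ha
    obtain ⟨m₂, hm₂⟩ := hE _ hiso
    rw [map_add, map_smul, hm₁, hm, smul_smul] at hm₂
    have e1 := congrArg (fun v => f v b) hm₂
    simp only [hf.add_left, hf.smul_left, hb, ← hs] at e1
    have e2 := congrArg (fun v => f v a) hm₂
    simp only [hf.add_left, hf.smul_left, ha, hba] at e2
    have h1 : m₁ = m₂ := by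
      have : (m₁ - m₂) * s = 0 := by linear_combination e1
      rcases mul_eq_zero.1 this with h | h
      · exact sub_eq_zero.1 h
      · exact absurd h hab
    have h2 : m = m₂ := by
      have : t * (m - m₂) * σ s = 0 := by linear_combination e2
      rcases mul_eq_zero.1 this with h | h
      · rcases mul_eq_zero.1 h with h | h
        · exact absurd h ht0
        · exact sub_eq_zero.1 h
      · exact absurd h hσs
    rw [hm₁, h1, h2]
  have hall : ∀ a : ι → F, f a a = 0 → E a = l • a := by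
    intro a ha
    by_cases hap : f a p = 0
    swap
    · exact key a p ha hpp hap l hl
    by_cases hmem : a ∈ Submodule.span F {p}
    · obtain ⟨κ, rfl⟩ := Submodule.mem_span_singleton.1 hmem
      rw [map_smul, hl, smul_comm]
    have hp0 : p ≠ 0 := by
      rintro rfl
      rw [zero_left hf] at hpr
      exact zero_ne_one hpr
    obtain ⟨d, hdd, -, hpd, had⟩ := exists_iso hf (p := 0) (x := p) (y := a) (by simpa using hp0)
      (by simpa using hmem) 1 1 h
    have hdp : f d p ≠ 0 := by
      rw [hf.herm, hpd, map_one]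
      exact one_ne_zero
    have h1 := key d p hdd hpp hdp l hl
    exact key a d ha hdd (by rw [had]; exact one_ne_zero) l h1
  refine ⟨l, fun z => ?_⟩
  obtain ⟨a, b, c, ha, hb, hc', -, -, -, rfl⟩ := exists_iso_decomp hf 0 z (zero_left hf z) (by omega)
  rw [map_add, map_add, hall a ha, hall b hb, hall c hc', smul_add, smul_add]

/-- The maximality theorem. -/
theorem isMaximalIn_similarityGroup (hcard : 12 ≤ Fintype.card ι) :
    IsMaximalIn (specialLinear ι F) (similarityGroup f ⊓ specialLinear ι F) := by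
  classical
  have hinv := hf.involutive
  have : Nontrivial ι := Fintype.one_lt_card_iff_nontrivial.1 (by omega)
  obtain ⟨c₀, hc0, hc⟩ := exists_tr0 hf.ne_refl hinv
  have hσc0 : σ c₀ ≠ 0 := by simpa using hc0
  constructor
  · -- strictness
    obtain ⟨h₁, h₂, -, -, n₁, n₂, e⟩ := exists_hyp hf (k := 0) ![] (by simp; omega)
    obtain ⟨h₃, h₄, m₃, m₄, n₃, n₄, e'⟩ := exists_hyp hf ![h₁, h₂] (by simpa using (by omega : 10 ≤ Fintype.card ι))
    have a0 := perp_apply hf m₃ 0
    have a1 := perp_apply hf m₃ 1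
    have b0 := perp_apply hf m₄ 0
    have b1 := perp_apply hf m₄ 1
    simp only [Matrix.cons_val_zero, Matrix.cons_val_one] at a0 a1 b0 b1
    refine lt_of_le_of_mem_not_mem inf_le_right (T_mem_SL hf h₁ h₃ a0) ?_
    rintro ⟨⟨c, hc'⟩, -⟩
    have e1 := hc' h₁ h₂
    have hT1 : ((T hf h₁ h₃ a0 : GL ι F) : Matrix ι ι F) *ᵥ h₁ = h₁ := by
      rw [T_mulVec, a0, zero_smul, add_zero]
    have hT2 : ((T hf h₁ h₃ a0 : GL ι F) : Matrix ι ι F) *ᵥ h₂ = h₂ := by
      rw [T_mulVec, a1, zero_smul, add_zero]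
    rw [hT1, hT2, e, mul_one] at e1
    have hT4 : ((T hf h₁ h₃ a0 : GL ι F) : Matrix ι ι F) *ᵥ h₄ = h₄ + h₁ := by
      rw [T_mulVec, hf.herm h₄ h₃, e', map_one, one_smul]
    have e2 := hc' h₄ h₂
    rw [hT4, hT2, hf.add_left, e, ← e1, one_mul] at e2
    have : (1 : F) = 0 := by linear_combination e2
    exact one_ne_zero this
  · intro M hPM hMS
    by_cases hMP : M ≤ similarityGroup f ⊓ specialLinear ι F
    · exact Or.inl (le_antisymm hMP hPM)
    right
    apply le_antisymm hMS
    obtain ⟨g, hgM, hgP⟩ := SetLike.not_le_iff_exists.1 hMP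
    have hgS : g ∉ similarityGroup f := fun h => hgP ⟨h, hMS hgM⟩
    have hIso : isoGroup hf ≤ M := by
      intro s hs
      apply hPM
      obtain ⟨h1, h2⟩ := (mem_isoGroup hf).1 hs
      exact ⟨⟨1, fun u v => by rw [h1, Units.val_one, one_mul]⟩, h2⟩
    -- the adjoint
    have hAex : ∀ z, ∃ w, ∀ x, f (((g⁻¹ : GL ι F) : Matrix ι ι F) *ᵥ x) z = f x w := by
      intro z
      exact exists_repr hf ((fLin hf z).comp (Matrix.toLin' ((g⁻¹ : GL ι F) : Matrix ι ι F)))
    choose A₀ hA₀ using hAex
    let A : (ι → F) →ₗ[F] (ι → F) :=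
      { toFun := A₀
        map_add' := fun a b => by
          have : A₀ (a + b) - (A₀ a + A₀ b) = 0 := by
            apply eq_zero_right hf
            intro x
            rw [sub_right hf, add_right hf, ← hA₀, ← hA₀, ← hA₀, add_right hf, sub_self]
          exact sub_eq_zero.1 this
        map_smul' := fun c a => by
          have : A₀ (c • a) - c • A₀ a = 0 := by
            apply eq_zero_right hf
            intro x
            rw [sub_right hf, smul_right hf, ← hA₀, ← hA₀, smul_right hf, sub_self]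
          exact sub_eq_zero.1 this }
    have hA : ∀ x z, f x (A z) = f (((g⁻¹ : GL ι F) : Matrix ι ι F) *ᵥ x) z :=
      fun x z => (hA₀ z x).symm
    have hgA : ∀ y z, f ((g : Matrix ι ι F) *ᵥ y) (A z) = f y z := by
      intro y z
      rw [hA, inv_mulVec_mulVec]
    let E : (ι → F) →ₗ[F] (ι → F) := (Matrix.toLin' ((g⁻¹ : GL ι F) : Matrix ι ι F)).comp A
    have hEv : ∀ z, (g : Matrix ι ι F) *ᵥ E z = A z := by
      intro z
      change (g : Matrix ι ι F) *ᵥ (((g⁻¹ : GL ι F) : Matrix ι ι F) *ᵥ A z) = A z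
      rw [mulVec_inv_mulVec]
    -- a non-eigenvector among the isotropic vectors
    have hex : ∃ a, f a a = 0 ∧ ∀ l : F, E a ≠ l • a := by
      by_contra hcon
      push Not at hcon
      obtain ⟨l, hl⟩ := eigen_scalar hf E hcon hcard
      have hAl : ∀ z, A z = l • (g : Matrix ι ι F) *ᵥ z := by
        intro z
        rw [← hEv, hl, Matrix.mulVec_smul]
      have hrel : ∀ y z, σ l * f ((g : Matrix ι ι F) *ᵥ y) ((g : Matrix ι ι F) *ᵥ z) = f y z := by
        intro y z
        have := hgA y z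
        rwa [hAl, smul_right hf] at this
      have hl0 : σ l ≠ 0 := by
        intro h0
        obtain ⟨p, r, -, -, -, -, hpr⟩ := exists_hyp hf (k := 0) ![] (by simp; omega)
        have := hrel p r
        rw [h0, zero_mul, hpr] at this
        exact zero_ne_one this
      apply hgS
      refine ⟨Units.mk0 (σ l)⁻¹ (inv_ne_zero hl0), fun u v => ?_⟩
      rw [Units.val_mk0, ← hrel u v, ← mul_assoc, inv_mul_cancel₀ hl0, one_mul]
    obtain ⟨a, haa, haE⟩ := hex
    have ha0 : a ≠ 0 := by
      rintro rfl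
      apply haE 0
      simp
    set u₀ := (g : Matrix ι ι F) *ᵥ (c₀ • a) with hu₀
    set w₀ := A a with hw₀
    have hu₀w₀ : f u₀ w₀ = 0 := by
      rw [hu₀, hw₀, hgA, hf.smul_left, haa, mul_zero]
    have hu₀0 : u₀ ≠ 0 := by
      intro h0
      have h1 : c₀ • a = 0 := by
        apply mulVec_injective g
        change (g : Matrix ι ι F) *ᵥ (c₀ • a) = (g : Matrix ι ι F) *ᵥ 0
        rw [← hu₀, h0, Matrix.mulVec_zero]
      exact ha0 ((smul_eq_zero.1 h1).resolve_left hc0)
    have hw₀m : w₀ ∉ Submodule.span F {u₀} := by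
      intro hmem
      obtain ⟨κ, hκ⟩ := Submodule.mem_span_singleton.1 hmem
      apply haE (κ * c₀)
      apply mulVec_injective g
      change (g : Matrix ι ι F) *ᵥ E a = (g : Matrix ι ι F) *ᵥ ((κ * c₀) • a)
      rw [hEv, ← hw₀, ← hκ, hu₀, Matrix.mulVec_smul, Matrix.mulVec_smul, smul_smul]
    have hw₀0 : w₀ ≠ 0 := by
      intro h0
      apply hw₀m
      rw [h0]
      exact Submodule.zero_mem _
    have hu₀m : u₀ ∉ Submodule.span F {w₀} := by
      intro hmem
      obtain ⟨κ, hκ⟩ := Submodule.mem_span_singleton.1 hmem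
      have hκ0 : κ ≠ 0 := by
        rintro rfl
        apply hu₀0
        rw [← hκ, zero_smul]
      apply hw₀m
      rw [Submodule.mem_span_singleton]
      exact ⟨κ⁻¹, by rw [← hκ, smul_smul, inv_mul_cancel₀ hκ0, one_smul]⟩
    have hhc : f (c₀ • a) a = 0 := by rw [hf.smul_left, haa, mul_zero]
    have hT₀ : T hf u₀ w₀ hu₀w₀ ∈ M := by
      have hconj : g * T hf (c₀ • a) a hhc * g⁻¹ = T hf u₀ w₀ hu₀w₀ := by
        apply conj_tv
        intro x
        exact hA x a
      rw [← hconj]
      exact mul_mem (mul_mem hgM (hIso (T_mem_isoGroup hf a c₀ haa hc))) (inv_mem hgM)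
    -- first commutator
    obtain ⟨a₁, ha₁a₁, -, hw₀a₁, hu₀a₁⟩ := exists_iso hf (p := 0) (x := w₀) (y := u₀) (by simpa using hw₀0)
      (by simpa using hu₀m) 0 1 hcard
    have ha₁w₀ : f a₁ w₀ = 0 := swap_zero hf hw₀a₁
    have ha₁0 : a₁ ≠ 0 := by
      rintro rfl
      rw [zero_right hf] at hu₀a₁
      exact zero_ne_one hu₀a₁
    have hca₁ : f (c₀ • a₁) a₁ = 0 := by rw [hf.smul_left, ha₁a₁, mul_zero]
    have hca₁w₀ : f (c₀ • a₁) w₀ = 0 := by rw [hf.smul_left, ha₁w₀, mul_zero]
    have hT₁ : T hf (-(c₀ • a₁)) w₀ (by rw [neg_left hf, hca₁w₀, neg_zero]) ∈ M := by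
      have hcomm := T_comm hf u₀ w₀ (c₀ • a₁) a₁ hu₀w₀ hca₁ hca₁w₀
      have hmem : T hf (-(f u₀ a₁) • (c₀ • a₁)) w₀
          (by rw [hf.smul_left, hca₁w₀, mul_zero]) ∈ M := by
        rw [← hcomm]
        have h2 := hIso (T_mem_isoGroup hf a₁ c₀ ha₁a₁ hc)
        exact mul_mem (mul_mem (mul_mem hT₀ h2) (inv_mem hT₀)) (inv_mem h2)
      have e : -(f u₀ a₁) • (c₀ • a₁) = -(c₀ • a₁) := by
        rw [hu₀a₁, neg_smul, one_smul]
      rwa [T_congr hf e rfl] at hmem
    -- second commutator
    have hw₀ma₁ : w₀ ∉ Submodule.span F {a₁} := by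
      intro hmem
      obtain ⟨κ, hκ⟩ := Submodule.mem_span_singleton.1 hmem
      have h1 := hu₀w₀
      rw [← hκ, smul_right hf, hu₀a₁, mul_one] at h1
      have hκ0 : κ = 0 := by simpa using h1
      apply hw₀0
      rw [← hκ, hκ0, zero_smul]
    obtain ⟨b₁, hb₁b₁, -, ha₁b₁, hw₀b₁⟩ := exists_iso hf (p := 0) (x := a₁) (y := w₀) (by simpa using ha₁0)
      (by simpa using hw₀ma₁) 0 1 hcard
    have hb₁w₀ : f b₁ w₀ = 1 := by rw [hf.herm, hw₀b₁, map_one]
    have hcb₁ : f (c₀ • b₁) b₁ = 0 := by rw [hf.smul_left, hb₁b₁, mul_zero]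
    have hT₂ : T hf ((c₀ * c₀) • a₁) b₁ (by rw [hf.smul_left, ha₁b₁, mul_zero]) ∈ M := by
      have h' : f (-(c₀ • a₁)) w₀ = 0 := by rw [neg_left hf, hca₁w₀, neg_zero]
      have h₁ : f (-(c₀ • a₁)) b₁ = 0 := by rw [neg_left hf, hf.smul_left, ha₁b₁, mul_zero, neg_zero]
      have hcomm := T_comm hf (c₀ • b₁) b₁ (-(c₀ • a₁)) w₀ hcb₁ h' h₁
      have hmem : T hf (-(f (c₀ • b₁) w₀) • (-(c₀ • a₁))) b₁
          (by rw [hf.smul_left, h₁, mul_zero]) ∈ M := by
        rw [← hcomm]
        have h2 := hIso (T_mem_isoGroup hf b₁ c₀ hb₁b₁ hc)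
        exact mul_mem (mul_mem (mul_mem h2 hT₁) (inv_mem h2)) (inv_mem hT₁)
      have e : -(f (c₀ • b₁) w₀) • (-(c₀ • a₁)) = (c₀ * c₀) • a₁ := by
        rw [hf.smul_left, hb₁w₀, mul_one, neg_smul, smul_neg, neg_neg, smul_smul]
      rwa [T_congr hf e rfl] at hmem
    have hb₁m : b₁ ∉ Submodule.span F {a₁} := by
      intro hmem
      obtain ⟨κ, hκ⟩ := Submodule.mem_span_singleton.1 hmem
      rw [← hκ, hf.smul_left, ha₁w₀, mul_zero] at hb₁w₀
      exact zero_ne_one hb₁w₀
    -- all isotropic pairs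
    have hiii : ∀ (a' b' : ι → F) (κ : F), f a' a' = 0 → f b' b' = 0 → (hab : f a' b' = 0) → a' ≠ 0 →
        b' ∉ Submodule.span F {a'} →
        T hf (κ • a') b' (by rw [hf.smul_left, hab, mul_zero]) ∈ M := by
      intro a' b' κ ha' hb' hab ha'0 hb'm
      by_cases hκ : κ = 0
      · subst hκ
        have e : (0 : F) • a' = 0 := zero_smul _ _
        rw [T_congr hf e rfl, T_zero_left]
        exact one_mem _
      set μ := κ * (c₀ * c₀)⁻¹ with hμ
      have hμ0 : μ ≠ 0 := mul_ne_zero hκ (inv_ne_zero (mul_ne_zero hc0 hc0))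
      have hμa : f (μ • a') (μ • a') = 0 := by rw [self_smul hf, ha', mul_zero]
      have hμb : f (μ • a') b' = 0 := by rw [hf.smul_left, hab, mul_zero]
      have hμ0' : μ • a' ≠ 0 := smul_ne_zero hμ0 ha'0
      have hspan : b' ∉ Submodule.span F {μ • a'} := by
        intro hmem
        apply hb'm
        obtain ⟨ν, hν⟩ := Submodule.mem_span_singleton.1 hmem
        rw [Submodule.mem_span_singleton]
        exact ⟨ν * μ, by rw [← hν, smul_smul]⟩
      obtain ⟨s, hs, e₁, e₂⟩ := exists_pair_move hf ha₁a₁ hb₁b₁ hμa hb' ha₁b₁ hμb ha₁0 hμ0' hb₁m hspan hcard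
      have hs' := ((mem_isoGroup hf).1 hs).1
      have hconj := T_conj_iso hf s hs' ((c₀ * c₀) • a₁) b₁ (by rw [hf.smul_left, ha₁b₁, mul_zero])
      have e : (s : Matrix ι ι F) *ᵥ ((c₀ * c₀) • a₁) = κ • a' := by
        rw [Matrix.mulVec_smul, e₁, smul_smul, hμ]
        congr 1
        field_simp
      have hmem : s * T hf ((c₀ * c₀) • a₁) b₁ (by rw [hf.smul_left, ha₁b₁, mul_zero]) * s⁻¹ ∈ M :=
        mul_mem (mul_mem (hIso hs) hT₂) (inv_mem (hIso hs))
      rw [hconj, T_congr hf e e₂] at hmem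
      exact hmem
    have hiii' : ∀ (a' b' : ι → F), f a' a' = 0 → f b' b' = 0 → (hab : f a' b' = 0) → a' ≠ 0 →
        b' ∉ Submodule.span F {a'} → T hf a' b' hab ∈ M := by
      intro a' b' ha' hb' hab ha'0 hb'm
      have := hiii a' b' 1 ha' hb' hab ha'0 hb'm
      rwa [T_congr hf (one_smul F a') rfl] at this
    -- isotropic centre and isotropic axis
    have hiv : ∀ (v b : ι → F), f v v = 0 → f b b = 0 → (hvb : f v b = 0) → T hf v b hvb ∈ M := by
      intro v b hv hb hvb
      by_cases hv0 : v = 0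
      · subst hv0
        rw [T_zero_left]
        exact one_mem _
      by_cases hb0 : b = 0
      · subst hb0
        rw [T_zero_right]
        exact one_mem _
      by_cases hbm : b ∈ Submodule.span F {v}
      swap
      · exact hiii' v b hv hb hvb hv0 hbm
      obtain ⟨ρ, hρ⟩ := Submodule.mem_span_singleton.1 hbm
      have hρ0 : ρ ≠ 0 := by
        rintro rfl
        apply hb0
        rw [← hρ, zero_smul]
      have hvb' : v = ρ⁻¹ • b := by rw [← hρ, smul_smul, inv_mul_cancel₀ hρ0, one_smul]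
      obtain ⟨d, z₂, m₁, m₂, n₁, n₂, e⟩ := exists_hyp hf ![b] (by simpa using (by omega : 8 ≤ Fintype.card ι))
      have hdb : f d b = 0 := (mem_perp hf).1 m₁ 0
      have hbz : f b z₂ = 0 := perp_apply hf m₂ 0
      have hvz : f v z₂ = 0 := by rw [hvb', hf.smul_left, hbz, mul_zero]
      have hdv : f d v = 0 := by rw [hvb', smul_right hf, hdb, mul_zero]
      have h1 : f (d + v) (d + v) = 0 := by
        rw [self_add hf, n₁, hv, hdv, map_zero]
        ring
      have h2 : f (d + v) b = 0 := by rw [hf.add_left, hdb, hvb, add_zero]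
      have h3 : f (d + v) z₂ = 1 := by rw [hf.add_left, e, hvz, add_zero]
      have h4 : f (-d) (-d) = 0 := by rw [neg_left hf, neg_right hf, n₁, neg_zero, neg_zero]
      have h5 : f (-d) b = 0 := by rw [neg_left hf, hdb, neg_zero]
      have h6 : f (-d) z₂ = -1 := by rw [neg_left hf, e]
      have hm1 : T hf (d + v) b h2 ∈ M := by
        apply hiii' _ _ h1 hb h2
        · rintro h0
          rw [h0, zero_left hf] at h3
          exact zero_ne_one h3
        · intro hmem
          obtain ⟨μ, hμ⟩ := Submodule.mem_span_singleton.1 hmem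
          rw [← hμ, hf.smul_left, h3, mul_one] at hbz
          apply hb0
          rw [← hμ, hbz, zero_smul]
      have hm2 : T hf (-d) b h5 ∈ M := by
        apply hiii' _ _ h4 hb h5
        · rintro h0
          rw [h0, zero_left hf] at h6
          have : (1 : F) = 0 := by linear_combination h6
          exact one_ne_zero this
        · intro hmem
          obtain ⟨μ, hμ⟩ := Submodule.mem_span_singleton.1 hmem
          rw [← hμ, hf.smul_left, h6] at hbz
          have hμ0 : μ = 0 := by linear_combination -hbz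
          apply hb0
          rw [← hμ, hμ0, zero_smul]
      have := mul_mem hm1 hm2
      rw [T_add_left] at this
      have e' : d + v + -d = v := by abel
      rwa [T_congr hf e' rfl] at this
    -- general centre, isotropic axis
    have hv : ∀ (y b : ι → F), f b b = 0 → (hyb : f y b = 0) → T hf y b hyb ∈ M := by
      intro y b hb hyb
      obtain ⟨a', b', c', ha', hb', hc', h1, h2, h3, e⟩ := exists_iso_decomp hf b y (swap_zero hf hyb) (by omega)
      have h1' := swap_zero hf h1
      have h2' := swap_zero hf h2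
      have h3' := swap_zero hf h3
      have := mul_mem (mul_mem (hiv a' b ha' hb h1') (hiv b' b hb' hb h2')) (hiv c' b hc' hb h3')
      rw [T_add_left, T_add_left] at this
      rwa [T_congr hf e.symm rfl] at this
    -- all transvections
    have hvi : ∀ (u w : ι → F) (huw : f u w = 0), T hf u w huw ∈ M := by
      intro u w huw
      obtain ⟨a', b', c', ha', hb', hc', h1, h2, h3, e⟩ := exists_iso_decomp hf u w huw (by omega)
      have := mul_mem (mul_mem (hv u a' ha' h1) (hv u b' hb' h2)) (hv u c' hc' h3)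
      rw [T_add_right, T_add_right] at this
      rwa [T_congr hf rfl e.symm] at this
    apply specialLinear_le_of_tv
    intro φ z h
    obtain ⟨w, hw⟩ := exists_repr hf φ
    have hφ : φ = fLin hf w := LinearMap.ext hw
    subst hφ
    exact hvi z w h

end Cfsg.Agent.Lib.Classical.Geo.UnitarySim
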